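import Mathlib

set_option autoImplicit false

/-!
# PIECE ParityInd of CALL S5996 (helper43) (helper51)
-/

namespace Cfsg.Agent.Helper51

theorem parity_induction (P : Multiset ℕ → Prop) (h0 : P 0)
    (hpair : ∀ j, 1 ≤ j → ∀ μ, P μ → P (j ::ₘ j ::ₘ μ))
    (hodd : ∀ j j', Odd j → Odd j' → ∀ μ, P μ → P (j ::ₘ j' ::ₘ μ)) :
    ∀ μ : Multiset ℕ, (∀ e ∈ μ, 0 < e) → (∀ e, Even e → Even (μ.count e)) → Even μ.sum → P μ := by
  intro μ
  induction μ using Multiset.strongInductionOn with
  | ih μ IH =>
    intro hpos hev hsum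
    by_cases hμ : μ = 0
    · rw [hμ]; exact h0
    by_cases hex : ∃ e ∈ μ, Even e
    · obtain ⟨e, he, hee⟩ := hex
      have hc := hev e hee
      have hc1 : 1 ≤ μ.count e := Multiset.one_le_count_iff_mem.2 he
      have hc2 : 2 ≤ μ.count e := by
        rcases hc with ⟨k, hk⟩; omega
      obtain ⟨μ1, hμ1⟩ := Multiset.exists_cons_of_mem he
      have he1 : e ∈ μ1 := by
        have : 1 ≤ μ1.count e := by
          rw [hμ1, Multiset.count_cons_self] at hc2; omega
        exact Multiset.one_le_count_iff_mem.1 this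
      obtain ⟨μ', hμ'⟩ := Multiset.exists_cons_of_mem he1
      have hμe : μ = e ::ₘ e ::ₘ μ' := by rw [hμ1, hμ']
      have hsub : ∀ x ∈ μ', x ∈ μ := fun x hx => by
        rw [hμe]; exact Multiset.mem_cons_of_mem (Multiset.mem_cons_of_mem hx)
      have hlt : μ' < μ := by
        rw [hμe]; exact lt_trans (Multiset.lt_cons_self _ _) (Multiset.lt_cons_self _ _)
      have hP : P μ' := by
        apply IH μ' hlt
        · intro x hx; exact hpos x (hsub x hx)
        · intro x hxe
          have h1 := hev x hxe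
          rw [hμe] at h1
          by_cases hxeq : x = e
          · subst hxeq
            rw [Multiset.count_cons_self, Multiset.count_cons_self] at h1
            rcases h1 with ⟨k, hk⟩
            exact ⟨k - 1, by omega⟩
          · rwa [Multiset.count_cons_of_ne hxeq, Multiset.count_cons_of_ne hxeq] at h1
        · rw [hμe, Multiset.sum_cons, Multiset.sum_cons] at hsum
          rcases hsum with ⟨k, hk⟩
          exact ⟨k - e, by omega⟩
      rw [hμe]
      exact hpair e (hpos e he) μ' hP
    · have hoddall : ∀ e ∈ μ, Odd e := fun e he =>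
        Nat.not_even_iff_odd.1 (fun h => hex ⟨e, he, h⟩)
      obtain ⟨j, hj⟩ := Multiset.exists_mem_of_ne_zero hμ
      obtain ⟨μ1, hμ1⟩ := Multiset.exists_cons_of_mem hj
      have hμ1ne : μ1 ≠ 0 := by
        intro h
        rw [hμ1, h, Multiset.sum_cons, Multiset.sum_zero, add_zero] at hsum
        exact (Nat.not_even_iff_odd.2 (hoddall j hj)) hsum
      obtain ⟨j', hj'⟩ := Multiset.exists_mem_of_ne_zero hμ1ne
      obtain ⟨μ', hμ'⟩ := Multiset.exists_cons_of_mem hj'
      have hμe : μ = j ::ₘ j' ::ₘ μ' := by rw [hμ1, hμ']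
      have hj'μ : j' ∈ μ := by rw [hμ1]; exact Multiset.mem_cons_of_mem hj'
      have hsub : ∀ x ∈ μ', x ∈ μ := fun x hx => by
        rw [hμe]; exact Multiset.mem_cons_of_mem (Multiset.mem_cons_of_mem hx)
      have hlt : μ' < μ := by
        rw [hμe]; exact lt_trans (Multiset.lt_cons_self _ _) (Multiset.lt_cons_self _ _)
      have hP : P μ' := by
        apply IH μ' hlt
        · intro x hx; exact hpos x (hsub x hx)
        · intro x hxe
          have hxμ' : x ∉ μ' := fun hx => hex ⟨x, hsub x hx, hxe⟩
          rw [Multiset.count_eq_zero_of_notMem hxμ']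
          exact ⟨0, rfl⟩
        · rw [hμe, Multiset.sum_cons, Multiset.sum_cons] at hsum
          have h1 := hoddall j hj
          have h2 := hoddall j' hj'μ
          rcases hsum with ⟨k, hk⟩
          rcases h1 with ⟨a, ha⟩
          rcases h2 with ⟨b, hb⟩
          exact ⟨k - a - b - 1, by omega⟩
      rw [hμe]
      exact hodd j j' (hoddall j hj) (hoddall j' hj'μ) μ' hP

end Cfsg.Agent.Helper51
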