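import Mathlib

set_option autoImplicit false

/-!
# CALL S5955 piece ORD (helper51)
-/

namespace Cfsg.Agent.Helper51.TI5955

/-- ORD (one piece, two statements) -/
theorem ord_dvd (r q a : ℕ) [Fact r.Prime] (hq : 0 < q) :
    r ∣ q ^ a - 1 ↔ orderOf ((q : ℕ) : ZMod r) ∣ a := by
  have h2 : 1 ≤ q ^ a := Nat.one_le_pow _ _ hq
  rw [orderOf_dvd_iff_pow_eq_one, ← ZMod.natCast_eq_zero_iff, Nat.cast_sub h2, sub_eq_zero]
  push_cast
  rfl

theorem ord_pos (r q : ℕ) [Fact r.Prime] (hq : ¬ r ∣ q) :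
    0 < orderOf ((q : ℕ) : ZMod r) ∧ orderOf ((q : ℕ) : ZMod r) ∣ r - 1 := by
  have hr : r.Prime := Fact.out
  have hq0 : ((q : ℕ) : ZMod r) ≠ 0 := by
    intro h
    exact hq ((ZMod.natCast_eq_zero_iff _ _).1 h)
  have h1 : ((q : ℕ) : ZMod r) ^ (r - 1) = 1 := ZMod.pow_card_sub_one_eq_one hq0
  have h2 : orderOf ((q : ℕ) : ZMod r) ∣ r - 1 := orderOf_dvd_of_pow_eq_one h1
  have h3 : 0 < r - 1 := by
    have := hr.two_le
    omega
  exact ⟨Nat.pos_of_dvd_of_pos h2 h3, h2⟩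

end Cfsg.Agent.Helper51.TI5955
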