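import Mathlib

set_option autoImplicit false

/-!
# CALL S5955 piece ARC (helper51)
-/

namespace Cfsg.Agent.Helper51.TI5955

/-- ARC (pure arithmetic) -/
theorem arith_c (i d m t e' u : ℕ) (hi0 : 0 < i) (him : i ≤ m) (hu : u = min ((2 * d) / i) t)
    (hdim : 2 * d = i * u + 2 * e') (hme : m ≤ e') : t + 2 * (m / i) ≤ (2 * d) / i := by
  have h5 : (2 * d) / i = u + (2 * e') / i := by
    rw [hdim, Nat.mul_add_div hi0]
  have h6 : 2 * (m / i) ≤ (2 * e') / i := by
    rw [Nat.le_div_iff_mul_le hi0]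
    have h7 : m / i * i ≤ m := Nat.div_mul_le_self m i
    have h8 : 2 * (m / i) * i = 2 * (m / i * i) := by ring
    omega
  have h8 : 1 ≤ (2 * e') / i := by
    rw [Nat.le_div_iff_mul_le hi0]
    omega
  rcases Nat.le_total ((2 * d) / i) t with hle | hle
  · rw [min_eq_left hle] at hu
    omega
  · rw [min_eq_right hle] at hu
    omega

end Cfsg.Agent.Helper51.TI5955
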