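import Mathlib

set_option autoImplicit false

/-!
# CALL S5955 piece B1A (helper51)
-/

namespace Cfsg.Agent.Helper51.TI5955

/-- B1A (pure arithmetic) -/
theorem b1_arith (r i c d m e' u b₀ : ℕ) (hr2 : 2 < r) (hi0 : 0 < i) (hir : i ∣ r - 1)
    (hc : c = if Even i then i else 2 * i) (hdim : 2 * d = 2 * e' + i * u)
    (ho : Odd i → u = 2 * b₀) (he : Even i → u ≤ 2 * b₀ + (r - 1) / i) (hb : 2 * b₀ ≤ u)
    (hmd : m ≤ d) (h1 : 2 * (m % i) ≤ (2 * d) % c)
    (h2 : Odd i ∨ (r - 1) / i + 2 * (m / i) ≤ (2 * d) / i) :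
    ∃ b m₀ : ℕ, b ≤ b₀ ∧ m₀ ≤ e' ∧ m = i * b + m₀ := by
  have hm := Nat.div_add_mod m i
  have hρ : m % i ≤ e' := by
    rcases Nat.even_or_odd i with hev | hodd
    · rw [if_pos hev] at hc
      rw [hc] at h1
      have h3 : (2 * d) % i = (2 * e') % i := by
        rw [hdim, Nat.add_mul_mod_self_left]
      have h4 : (2 * e') % i ≤ 2 * e' := Nat.mod_le _ _
      omega
    · have hne : ¬ Even i := Nat.not_even_iff_odd.2 hodd
      rw [if_neg hne] at hc
      rw [hc] at h1
      have hu := ho hodd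
      have h3 : (2 * d) % (2 * i) = (2 * e') % (2 * i) := by
        rw [hdim, hu]
        have h5 : i * (2 * b₀) = 2 * i * b₀ := by ring
        rw [h5, Nat.add_mul_mod_self_left]
      have h4 : (2 * e') % (2 * i) ≤ 2 * e' := Nat.mod_le _ _
      omega
  rcases Nat.lt_or_ge b₀ (m / i) with hlt | hge
  · obtain ⟨s, hs⟩ : ∃ s, m / i = b₀ + s := ⟨m / i - b₀, by omega⟩
    have hm' : i * (b₀ + s) + m % i = m := by
      rw [← hs]
      exact hm
    have hexp : i * (b₀ + s) = i * b₀ + i * s := by ring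
    refine ⟨b₀, i * s + m % i, le_refl _, ?_, by omega⟩
    rcases Nat.even_or_odd i with hev | hodd
    · have hne : ¬ Odd i := Nat.not_odd_iff_even.2 hev
      have h2' : (r - 1) / i + 2 * (m / i) ≤ (2 * d) / i := h2.resolve_left hne
      have hu := he hev
      rw [if_pos hev] at hc
      rw [hc] at h1
      have h3 : (2 * d) % i = (2 * e') % i := by
        rw [hdim, Nat.add_mul_mod_self_left]
      have h5 : (2 * d) / i = (2 * e') / i + u := by
        rw [hdim, Nat.add_mul_div_left _ _ hi0]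
      have h6 := Nat.div_add_mod (2 * e') i
      have h7 : 2 * s ≤ (2 * e') / i := by omega
      have h8 : i * (2 * s) ≤ i * ((2 * e') / i) := Nat.mul_le_mul_left i h7
      have h9 : i * (2 * s) = 2 * (i * s) := by ring
      omega
    · have hu := ho hodd
      rw [hu] at hdim
      have h9 : i * (2 * b₀) = 2 * (i * b₀) := by ring
      omega
  · exact ⟨m / i, m % i, hge, hρ, hm.symm⟩

end Cfsg.Agent.Helper51.TI5955
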