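import Mathlib
import Cfsg.Agent.Helper87.SFDefs

/-!
# CALL S2752 piece MN1 (helper51)
-/

set_option autoImplicit false

namespace Cfsg.Agent.Helper51

open Cfsg.Agent.Helper87.SF

/-- MN1 -/
theorem sf_mn_one {G : Type*} [Group G] [Finite G] (N : Subgroup G) [N.Normal] (hN1 : N ≠ ⊥)
    (hmin : ∀ N' : Subgroup G, N'.Normal → N' ≤ N → N' = ⊥ ∨ N' = N) :
    ∃ K₀ : Subgroup G, K₀ ≤ N ∧ K₀ ≠ ⊥ ∧ (∀ n ∈ N, ∀ k ∈ K₀, n * k * n⁻¹ ∈ K₀) ∧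
      (∀ L : Subgroup G, L ≤ K₀ → (∀ n ∈ N, ∀ l ∈ L, n * l * n⁻¹ ∈ L) → L = ⊥ ∨ L = K₀) ∧
      (∀ c : G, (∀ k ∈ K₀, c * k * c⁻¹ ∈ K₀) ∨
        (∀ k ∈ K₀, ∀ k' ∈ K₀, (c * k * c⁻¹) * k' = k' * (c * k * c⁻¹))) ∧
      (∀ H : Subgroup G, (∀ c : G, ∀ k ∈ K₀, c * k * c⁻¹ ∈ H) → N ≤ H) := by
  classical
  have hNn : N.Normal := inferInstance
  let S : Set ℕ := {m | ∃ K : Subgroup G, K ≤ N ∧ K ≠ ⊥ ∧
    (∀ n ∈ N, ∀ k ∈ K, n * k * n⁻¹ ∈ K) ∧ Nat.card K = m}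
  have hS : S.Nonempty := ⟨Nat.card N, N, le_rfl, hN1,
    fun n hn k hk => N.mul_mem (N.mul_mem hn hk) (N.inv_mem hn), rfl⟩
  obtain ⟨K₀, hK₀N, hK₀1, hK₀inv, hK₀card⟩ := Nat.sInf_mem hS
  have hminK : ∀ L : Subgroup G, L ≤ K₀ → (∀ n ∈ N, ∀ l ∈ L, n * l * n⁻¹ ∈ L) →
      L = ⊥ ∨ L = K₀ := by
    intro L hL hLinv
    by_cases hL1 : L = ⊥
    · exact Or.inl hL1
    · right
      apply Subgroup.eq_of_le_of_card_ge hL
      rw [hK₀card]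
      exact Nat.sInf_le ⟨L, hL.trans hK₀N, hL1, hLinv, rfl⟩
  refine ⟨K₀, hK₀N, hK₀1, hK₀inv, hminK, ?_, ?_⟩
  · intro c
    obtain ⟨Kc, hmemKc, hcard⟩ : ∃ Kc : Subgroup G,
        (∀ x, x ∈ Kc ↔ ∃ k ∈ K₀, c * k * c⁻¹ = x) ∧ Nat.card Kc = Nat.card K₀ := by
      refine ⟨K₀.map (MulAut.conj c).toMonoidHom, ?_, ?_⟩
      · intro x
        rw [Subgroup.mem_map]
        rfl
      · exact Subgroup.card_map_of_injective (MulAut.conj c).injective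
    have hKcN : Kc ≤ N := by
      intro x hx
      obtain ⟨k, hk, rfl⟩ := (hmemKc x).1 hx
      exact hNn.conj_mem k (hK₀N hk) c
    have hKcinv : ∀ n ∈ N, ∀ x ∈ Kc, n * x * n⁻¹ ∈ Kc := by
      intro n hn x hx
      obtain ⟨k, hk, rfl⟩ := (hmemKc x).1 hx
      rw [hmemKc]
      refine ⟨(c⁻¹ * n * c) * k * (c⁻¹ * n * c)⁻¹, hK₀inv _ ?_ k hk, by group⟩
      have h1 := hNn.conj_mem n hn c⁻¹
      rwa [inv_inv] at h1
    have hLinv : ∀ n ∈ N, ∀ l ∈ K₀ ⊓ Kc, n * l * n⁻¹ ∈ K₀ ⊓ Kc := by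
      intro n hn l hl
      exact ⟨hK₀inv n hn l hl.1, hKcinv n hn l hl.2⟩
    rcases hminK (K₀ ⊓ Kc) inf_le_left hLinv with hbot | heq
    · right
      intro k hk k' hk'
      have hx : c * k * c⁻¹ ∈ Kc := (hmemKc _).2 ⟨k, hk, rfl⟩
      generalize c * k * c⁻¹ = x at hx
      have h1 : x * k' * x⁻¹ * k'⁻¹ ∈ K₀ ⊓ Kc := by
        refine ⟨K₀.mul_mem (hK₀inv _ (hKcN hx) k' hk') (K₀.inv_mem hk'), ?_⟩
        have h2 : x * k' * x⁻¹ * k'⁻¹ = x * (k' * x⁻¹ * k'⁻¹) := by group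
        rw [h2]
        exact Kc.mul_mem hx (hKcinv k' (hK₀N hk') _ (Kc.inv_mem hx))
      rw [hbot, Subgroup.mem_bot] at h1
      have h4 : x * k' = (x * k' * x⁻¹ * k'⁻¹) * (k' * x) := by group
      rw [h4, h1, one_mul]
    · left
      have hle : K₀ ≤ Kc := by
        rw [← heq]
        exact inf_le_right
      have hKeq : K₀ = Kc := Subgroup.eq_of_le_of_card_ge hle hcard.le
      intro k hk
      exact hKeq.ge ((hmemKc _).2 ⟨k, hk, rfl⟩)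
  · intro H hH
    have hnc : Subgroup.normalClosure (K₀ : Set G) = N := by
      rcases hmin (Subgroup.normalClosure (K₀ : Set G)) Subgroup.normalClosure_normal
        (Subgroup.normalClosure_le_normal hK₀N) with h | h
      · exfalso
        apply hK₀1
        rw [eq_bot_iff, ← h]
        exact Subgroup.le_normalClosure
      · exact h
    rw [← hnc, Subgroup.normalClosure, Subgroup.closure_le]
    intro x hx
    rw [Group.mem_conjugatesOfSet_iff] at hx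
    obtain ⟨k, hk, hconj⟩ := hx
    rw [isConj_iff] at hconj
    obtain ⟨c, rfl⟩ := hconj
    exact hH c k hk

end Cfsg.Agent.Helper51
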