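import Mathlib
import Cfsg.Agent.Helper87.SFDefs

/-!
# CALL S2752 piece MN2 (helper51)
-/

set_option autoImplicit false

namespace Cfsg.Agent.Helper51

open Cfsg.Agent.Helper87.SF

/-- MN2 -/
theorem sf_mn_two {G : Type*} [Group G] [Finite G] (N : Subgroup G) [N.Normal]
    (hnab : NC N) (K₀ : Subgroup G) (hK₀N : K₀ ≤ N) (hK₀1 : K₀ ≠ ⊥)
    (hnorm : ∀ n ∈ N, ∀ k ∈ K₀, n * k * n⁻¹ ∈ K₀)
    (hmin : ∀ L : Subgroup G, L ≤ K₀ → (∀ n ∈ N, ∀ l ∈ L, n * l * n⁻¹ ∈ L) → L = ⊥ ∨ L = K₀)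
    (hcc : ∀ c : G, (∀ k ∈ K₀, c * k * c⁻¹ ∈ K₀) ∨
        (∀ k ∈ K₀, ∀ k' ∈ K₀, (c * k * c⁻¹) * k' = k' * (c * k * c⁻¹)))
    (hgen : ∀ H : Subgroup G, (∀ c : G, ∀ k ∈ K₀, c * k * c⁻¹ ∈ H) → N ≤ H) :
    IsSimpleGroup ↥K₀ ∧ NC K₀ ∧ K₀.IsSubnormal := by
  have hNn : N.Normal := inferInstance
  refine ⟨?_, ?_, ?_⟩
  · have hnt : Nontrivial ↥K₀ := (Subgroup.nontrivial_iff_ne_bot K₀).2 hK₀1
    refine { toNontrivial := hnt, eq_bot_or_eq_top_of_normal := fun L hL => ?_ }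
    have hL'K : L.map K₀.subtype ≤ K₀ := Subgroup.map_subtype_le L
    have hK₀L' : ∀ k ∈ K₀, ∀ l ∈ L.map K₀.subtype, k * l * k⁻¹ ∈ L.map K₀.subtype := by
      intro k hk l hl
      obtain ⟨l₀, hl₀, rfl⟩ := Subgroup.mem_map.1 hl
      exact Subgroup.mem_map.2 ⟨⟨k, hk⟩ * l₀ * ⟨k, hk⟩⁻¹, hL.conj_mem l₀ hl₀ ⟨k, hk⟩, rfl⟩
    have hconjL' : ∀ c : G, ∀ k ∈ K₀, ∀ l ∈ L.map K₀.subtype,
        (c * k * c⁻¹) * l * (c * k * c⁻¹)⁻¹ ∈ L.map K₀.subtype := by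
      intro c k hk l hl
      rcases hcc c with h | h
      · exact hK₀L' _ (h k hk) l hl
      · have h1 := h k hk l (hL'K hl)
        rw [h1, mul_inv_cancel_right]
        exact hl
    have hH : ∀ c : G, ∀ k ∈ K₀, c * k * c⁻¹ ∈ Subgroup.normalizer ((L.map K₀.subtype : Subgroup G) : Set G) := by
      intro c k hk
      rw [Subgroup.mem_normalizer_iff]
      intro l
      constructor
      · intro hl
        exact hconjL' c k hk l hl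
      · intro hl
        have h1 := hconjL' c k⁻¹ (K₀.inv_mem hk) _ hl
        have h2 : c * k⁻¹ * c⁻¹ * (c * k * c⁻¹ * l * (c * k * c⁻¹)⁻¹) * (c * k⁻¹ * c⁻¹)⁻¹ = l := by
          group
        rwa [h2] at h1
    have hNL' : ∀ n ∈ N, ∀ l ∈ L.map K₀.subtype, n * l * n⁻¹ ∈ L.map K₀.subtype :=
      fun n hn l hl => ((Subgroup.mem_normalizer_iff.1 (hgen _ hH hn)) l).1 hl
    rcases hmin _ hL'K hNL' with h | h
    · left
      exact (Subgroup.map_eq_bot_iff_of_injective L K₀.subtype_injective).1 h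
    · right
      rw [eq_top_iff]
      intro x _
      have hx : (x : G) ∈ L.map K₀.subtype := by
        rw [h]
        exact x.2
      obtain ⟨l₀, hl₀, hl₀x⟩ := Subgroup.mem_map.1 hx
      have : l₀ = x := Subtype.ext hl₀x
      rw [← this]
      exact hl₀
  · intro hab
    apply hnab
    have hpair : ∀ c₁ c₂ : G, ∀ k₁ ∈ K₀, ∀ k₂ ∈ K₀,
        (c₁ * k₁ * c₁⁻¹) * (c₂ * k₂ * c₂⁻¹) = (c₂ * k₂ * c₂⁻¹) * (c₁ * k₁ * c₁⁻¹) := by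
      intro c₁ c₂ k₁ hk₁ k₂ hk₂
      have h1 : ((c₁⁻¹ * c₂) * k₂ * (c₁⁻¹ * c₂)⁻¹) * k₁
          = k₁ * ((c₁⁻¹ * c₂) * k₂ * (c₁⁻¹ * c₂)⁻¹) := by
        rcases hcc (c₁⁻¹ * c₂) with h | h
        · exact hab _ (h k₂ hk₂) k₁ hk₁
        · exact h k₂ hk₂ k₁ hk₁
      have e1 : (c₂ * k₂ * c₂⁻¹) * (c₁ * k₁ * c₁⁻¹)
          = c₁ * (((c₁⁻¹ * c₂) * k₂ * (c₁⁻¹ * c₂)⁻¹) * k₁) * c₁⁻¹ := by group
      have e2 : (c₁ * k₁ * c₁⁻¹) * (c₂ * k₂ * c₂⁻¹)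
          = c₁ * (k₁ * ((c₁⁻¹ * c₂) * k₂ * (c₁⁻¹ * c₂)⁻¹)) * c₁⁻¹ := by group
      rw [e1, e2, h1]
    have h1 : N ≤ Subgroup.centralizer {x | ∃ c : G, ∃ k ∈ K₀, c * k * c⁻¹ = x} := by
      apply hgen
      intro c k hk
      rw [Subgroup.mem_centralizer_iff]
      rintro x ⟨c', k', hk', rfl⟩
      exact hpair c' c k' hk' k hk
    have h2 : N ≤ Subgroup.centralizer (N : Set G) := by
      apply hgen
      intro c k hk
      rw [Subgroup.mem_centralizer_iff]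
      intro n hn
      exact (Subgroup.mem_centralizer_iff.1 (h1 hn) (c * k * c⁻¹) ⟨c, k, hk, rfl⟩).symm
    intro x hx y hy
    exact Subgroup.mem_centralizer_iff.1 (h2 hy) x hx
  · refine Subgroup.IsSubnormal.step K₀ N hK₀N hNn.isSubnormal ⟨fun x hx n => ?_⟩
    rw [Subgroup.mem_subgroupOf] at hx ⊢
    exact hnorm n n.2 x hx

end Cfsg.Agent.Helper51
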