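import Mathlib
import Cfsg.Agent.Helper71.SQDefs

/-!
# CALL S5867 (helper71), PIECE EP: `eay_mul`, `troot_pow` (helper51)
-/

set_option autoImplicit false
set_option linter.unusedVariables false

namespace Cfsg.Agent.Helper51.SQEP

open Matrix Cfsg.Agent.Helper71.T4 Cfsg.Agent.Helper71.SO Cfsg.Agent.Helper71.SQ
open scoped Kronecker

variable {F : Type*} [Field F] {m n : ℕ}

theorem bl_skew (J : Matrix (Fin m) (Fin m) F) (hJ : Jᵀ = -J) (u v : Fin m → F) :
    bl J u v = -bl J v u := by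
  unfold bl
  rw [Matrix.dotProduct_mulVec, ← Matrix.mulVec_transpose, hJ, Matrix.neg_mulVec, neg_dotProduct,
    dotProduct_comm]

theorem bl_self (h2 : (2 : F) ≠ 0) (J : Matrix (Fin m) (Fin m) F) (hJ : Jᵀ = -J)
    (u : Fin m → F) : bl J u u = 0 := by
  have h := bl_skew J hJ u u
  have h3 : (2 : F) * bl J u u = 0 := by linear_combination h
  rcases mul_eq_zero.1 h3 with h4 | h4
  · exact absurd h4 h2
  · exact h4

/-! ## Piece EP -/
theorem eay_mul (h2 : (2 : F) ≠ 0) (J : Matrix (Fin m) (Fin m) F) (hJ : Jᵀ = -J)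
    (a y y' : Fin m → F) (hay : bl J a y = 0) (hay' : bl J a y' = 0) :
    Eay J a y * Eay J a y' = Eay J a (y + y' + (2⁻¹ * bl J y' y) • a) := by
  have d1 : (J *ᵥ a) ⬝ᵥ y' = 0 := by
    rw [dotProduct_comm]
    show bl J y' a = 0
    rw [bl_skew J hJ, hay', neg_zero]
  have d2 : (J *ᵥ a) ⬝ᵥ a = 0 := by
    rw [dotProduct_comm]
    exact bl_self h2 J hJ a
  have d3 : (J *ᵥ y) ⬝ᵥ y' = bl J y' y := by
    rw [dotProduct_comm]
    rfl
  have d4 : (J *ᵥ y) ⬝ᵥ a = 0 := by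
    rw [dotProduct_comm]
    exact hay
  have h5 : bl J y' y • vecMulVec a (J *ᵥ a) = (2⁻¹ * bl J y' y) • vecMulVec a (J *ᵥ a)
      + (2⁻¹ * bl J y' y) • vecMulVec a (J *ᵥ a) := by
    rw [← add_smul]
    congr 1
    field_simp
    ring
  unfold Eay
  simp only [mul_add, add_mul, mul_one, one_mul, Matrix.vecMulVec_mul_vecMulVec, d1, d2, d3, d4,
    zero_smul, add_zero, Matrix.mulVec_add, Matrix.mulVec_smul, Matrix.add_vecMulVec,
    Matrix.vecMulVec_add, Matrix.smul_vecMulVec, Matrix.vecMulVec_smul, Matrix.vecMulVec_zero]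
  rw [h5]
  abel

theorem troot_pow (h2 : (2 : F) ≠ 0) (J : Matrix (Fin m) (Fin m) F) (hJ : Jᵀ = -J)
    (p : ℕ) [CharP F p] (a : Fin m → F) (c : F) (t : GL (Fin m × Fin n) F)
    (ht : (t : Matrix (Fin m × Fin n) (Fin m × Fin n) F)
      = Tac J a c ⊗ₖ (1 : Matrix (Fin n) (Fin n) F)) : t ^ p = 1 := by
  have d2 : (J *ᵥ a) ⬝ᵥ a = 0 := by
    rw [dotProduct_comm]
    exact bl_self h2 J hJ a
  have hE : vecMulVec a (J *ᵥ a) * vecMulVec a (J *ᵥ a) = 0 := by
    rw [Matrix.vecMulVec_mul_vecMulVec, d2, zero_smul, Matrix.vecMulVec_zero]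
  have hpow : ∀ k : ℕ, (Tac J a c) ^ k = 1 + ((k : F) * c) • vecMulVec a (J *ᵥ a) := by
    intro k
    induction k with
    | zero => simp
    | succ k ih =>
      rw [pow_succ, ih, Tac]
      simp only [mul_add, add_mul, mul_one, one_mul, Matrix.smul_mul, Matrix.mul_smul, hE,
        smul_zero, add_zero]
      rw [add_assoc, ← add_smul]
      congr 2
      push_cast
      ring
  have hk : ∀ k : ℕ, (Tac J a c ⊗ₖ (1 : Matrix (Fin n) (Fin n) F)) ^ k
      = ((Tac J a c) ^ k) ⊗ₖ (1 : Matrix (Fin n) (Fin n) F) := by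
    intro k
    induction k with
    | zero => rw [pow_zero, pow_zero, Matrix.one_kronecker_one]
    | succ k ih => rw [pow_succ, ih, ← Matrix.mul_kronecker_mul, mul_one, pow_succ]
  apply Units.ext
  rw [Units.val_pow_eq_pow_val, ht, Units.val_one, hk, hpow, CharP.cast_eq_zero F p, zero_mul,
    zero_smul, add_zero, Matrix.one_kronecker_one]

end Cfsg.Agent.Helper51.SQEP
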