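import Mathlib
import Cfsg.Agent.Helper71.SQDefs
import Cfsg.Agent.Helper96.T5Defs
import Cfsg.Agent.Helper58.SOTools
import Cfsg.Agent.Helper51.SQEP

/-!
# CALL S5867 (helper71), PIECE ZA: `conj_rad` (helper51)
-/

set_option autoImplicit false
set_option linter.unusedVariables false

namespace Cfsg.Agent.Helper51.SQZA

open Matrix Cfsg.Agent.Helper71.T4 Cfsg.Agent.Helper71.SO Cfsg.Agent.Helper71.SQ
open Cfsg.Agent.Helper96.T5 Cfsg.Agent.Helper58.SOT Cfsg.Agent.Helper51.SQEP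
open scoped Kronecker

variable {F : Type*} [Field F] {m n : ℕ}

theorem za_eay_mulVec (J : Matrix (Fin m) (Fin m) F) (a y x : Fin m → F) :
    Eay J a y *ᵥ x = x + bl J x a • y + bl J x y • a := by
  have h : Eay J a y = 1 + rk J y a + rk J a y := rfl
  rw [h, Matrix.add_mulVec, Matrix.add_mulVec, Matrix.one_mulVec, rk_mulVec, rk_mulVec]
  rfl

theorem za_eay_isom (h2 : (2 : F) ≠ 0) (J : Matrix (Fin m) (Fin m) F) (hJ : Jᵀ = -J)
    (a y : Fin m → F) (hay : bl J a y = 0) : (Eay J a y)ᵀ * J * Eay J a y = J := by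
  have hya : bl J y a = 0 := by rw [bl_skew J hJ, hay, neg_zero]
  have haa := bl_self h2 J hJ a
  have hyy := bl_self h2 J hJ y
  apply mat_eq_of_bl
  intro x x'
  have e : x ⬝ᵥ ((Eay J a y)ᵀ * J * Eay J a y) *ᵥ x'
      = bl J (Eay J a y *ᵥ x) (Eay J a y *ᵥ x') := by
    unfold bl
    rw [Matrix.mul_assoc, ← Matrix.mulVec_mulVec, Matrix.dotProduct_mulVec,
      Matrix.vecMul_transpose, ← Matrix.mulVec_mulVec]
  rw [e, za_eay_mulVec, za_eay_mulVec]
  simp only [bl_add_left, bl_add_right, bl_smul_left, bl_smul_right, hay, hya, haa, hyy]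
  have h1 : bl J a x' = -bl J x' a := bl_skew J hJ a x'
  have h3 : bl J y x' = -bl J x' y := bl_skew J hJ y x'
  rw [h1, h3]
  show bl J x x' + _ + _ + _ + _ = bl J x x'
  ring

theorem za_eroot (h2 : (2 : F) ≠ 0) (J : Matrix (Fin m) (Fin m) F) (hJ : Jᵀ = -J)
    (S : Matrix (Fin n) (Fin n) F) (M : Subgroup (GL (Fin m × Fin n) F)) (hH : HasHG J S M)
    (a y : Fin m → F) (hay : bl J a y = 0) :
    InM M (Eay J a y ⊗ₖ (1 : Matrix (Fin n) (Fin n) F)) := by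
  apply hH (Eay J a y) 1 1 1
  · rw [za_eay_isom h2 J hJ a y hay, one_smul]
  · simp
  · simp

/-- `OmG J S` on pure tensors -/
theorem za_om_pt (J : Matrix (Fin m) (Fin m) F) (S : Matrix (Fin n) (Fin n) F)
    (a a' : Fin m → F) (b b' : Fin n → F) :
    bf (OmG J S) (pt a b) (pt a' b') = bl J a a' * bl S b b' :=
  bf_kron_pt J S a a' b b'

/-- symplectic matrices preserve `OmG J S` -/
theorem za_om_isom (J : Matrix (Fin m) (Fin m) F) (S : Matrix (Fin n) (Fin n) F)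
    (g : Matrix (Fin m × Fin n) (Fin m × Fin n) F)
    (hg : IsSpG J S g) (x y : Fin m × Fin n → F) :
    bf (OmG J S) (g *ᵥ x) (g *ᵥ y) = bf (OmG J S) x y := by
  unfold IsSpG at hg
  have e : x ⬝ᵥ (gᵀ * OmG J S * g) *ᵥ y = bf (OmG J S) (g *ᵥ x) (g *ᵥ y) := by
    unfold bf
    rw [Matrix.mul_assoc, ← Matrix.mulVec_mulVec, Matrix.dotProduct_mulVec,
      Matrix.vecMul_transpose, ← Matrix.mulVec_mulVec]
  rw [← e, hg]
  rfl

/-- pairing a general vector with a pure tensor `a ⊗ c`, column by column -/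
theorem za_om_pt_right (J : Matrix (Fin m) (Fin m) F) (S : Matrix (Fin n) (Fin n) F)
    (v : Fin m × Fin n → F) (a : Fin m → F) (c : Fin n → F) :
    bf (OmG J S) v (pt a c) = ∑ k : Fin n, bl J (fun i => v (i, k)) a * (S *ᵥ c) k := by
  have h : OmG J S *ᵥ pt a c = pt (J *ᵥ a) (S *ᵥ c) := kron_mulVec_pt J S a c
  unfold bf
  rw [h]
  simp only [dotProduct, pt, Fintype.sum_prod_type, bl]
  rw [Finset.sum_comm]
  refine Finset.sum_congr rfl fun k _ => ?_
  rw [Finset.sum_mul]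
  refine Finset.sum_congr rfl fun i _ => ?_
  ring

/-- a vector `OmG`-orthogonal to `a ⊗ F^n` has all its columns orthogonal to `a` -/
theorem za_col_perp (J : Matrix (Fin m) (Fin m) F) (S : Matrix (Fin n) (Fin n) F)
    (hdetS : S.det ≠ 0) (v : Fin m × Fin n → F) (a : Fin m → F)
    (h : ∀ c : Fin n → F, bf (OmG J S) v (pt a c) = 0) (k : Fin n) :
    bl J (fun i => v (i, k)) a = 0 := by
  classical
  have h1 := h (S⁻¹ *ᵥ Pi.single k 1)
  rw [za_om_pt_right, Matrix.mulVec_mulVec, Matrix.mul_nonsing_inv _ (isUnit_iff_ne_zero.mpr hdetS),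
    Matrix.one_mulVec] at h1
  rw [Finset.sum_eq_single k] at h1
  · simpa using h1
  · intro l _ hl
    simp [hl]
  · intro hk
    exact absurd (Finset.mem_univ _) hk

/-- the action of `A ⊗ 1` column by column -/
theorem za_kron_one_mulVec (A : Matrix (Fin m) (Fin m) F) (v : Fin m × Fin n → F)
    (i : Fin m) (k : Fin n) :
    ((A ⊗ₖ (1 : Matrix (Fin n) (Fin n) F)) *ᵥ v) (i, k) = (A *ᵥ fun i' => v (i', k)) i := by
  classical
  simp only [Matrix.mulVec, dotProduct, Fintype.sum_prod_type, Matrix.kroneckerMap_apply,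
    Matrix.one_apply]
  refine Finset.sum_congr rfl fun j _ => ?_
  rw [Finset.sum_eq_single k]
  · simp
  · intro l _ hl
    simp [Ne.symm hl]
  · intro h
    exact absurd (Finset.mem_univ _) h

/-- `Eay a y ⊗ 1` moves `a^⊥ ⊗ F^n` by elements of `a ⊗ F^n` -/
theorem za_tau_mulVec (J : Matrix (Fin m) (Fin m) F) (a y : Fin m → F)
    (v : Fin m × Fin n → F) (hv : ∀ k : Fin n, bl J (fun i => v (i, k)) a = 0) :
    (Eay J a y ⊗ₖ (1 : Matrix (Fin n) (Fin n) F)) *ᵥ v =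
      v + pt a (fun k => bl J (fun i => v (i, k)) y) := by
  ext ⟨i, k⟩
  rw [za_kron_one_mulVec, za_eay_mulVec, hv k]
  simp [pt, mul_comm]

/-- `pt a ·` is injective for `a ≠ 0` -/
theorem za_pt_right_inj (a : Fin m → F) (ha : a ≠ 0) (b b' : Fin n → F) (h : pt a b = pt a b') :
    b = b' := by
  obtain ⟨i, hi⟩ : ∃ i, a i ≠ 0 := by
    by_contra h0
    push Not at h0
    exact ha (funext h0)
  ext k
  have := congrFun h (i, k)
  simp only [pt] at this
  exact mul_left_cancel₀ hi this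

/-! ## Piece ZA -/
theorem conj_rad (h2 : (2 : F) ≠ 0) (J : Matrix (Fin m) (Fin m) F) (hJ : Jᵀ = -J)
    (hdetJ : J.det ≠ 0) (S : Matrix (Fin n) (Fin n) F) (hS : Sᵀ = S) (hdetS : S.det ≠ 0)
    (M : Subgroup (GL (Fin m × Fin n) F)) (hSp : SpLEG J S M) (hH : HasHG J S M)
    (a : Fin m → F) (ha : a ≠ 0)
    (hrad : ∀ ρ : GL (Fin m × Fin n) F, ρ ∈ M →
      (∀ b : Fin n → F, (ρ : Matrix (Fin m × Fin n) (Fin m × Fin n) F) *ᵥ pt a b = pt a b) →
      (∀ (y : Fin m → F) (b : Fin n → F), bl J a y = 0 → ∃ b' : Fin n → F,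
        (ρ : Matrix (Fin m × Fin n) (Fin m × Fin n) F) *ᵥ pt y b = pt y b + pt a b') →
      ∃ y₀ : Fin m → F, bl J a y₀ = 0 ∧ (ρ : Matrix (Fin m × Fin n) (Fin m × Fin n) F)
        = Eay J a y₀ ⊗ₖ (1 : Matrix (Fin n) (Fin n) F))
    (k : GL (Fin m × Fin n) F) (hk : k ∈ M)
    (hka : ∀ b : Fin n → F, ∃ b' : Fin n → F,
      (k : Matrix (Fin m × Fin n) (Fin m × Fin n) F) *ᵥ pt a b = pt a b')
    (y : Fin m → F) (hay : bl J a y = 0) :
    ∃ y' : Fin m → F, bl J a y' = 0 ∧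
      (k : Matrix (Fin m × Fin n) (Fin m × Fin n) F)
          * (Eay J a y ⊗ₖ (1 : Matrix (Fin n) (Fin n) F))
        = (Eay J a y' ⊗ₖ (1 : Matrix (Fin n) (Fin n) F))
          * (k : Matrix (Fin m × Fin n) (Fin m × Fin n) F) := by
  classical
  obtain ⟨τ, hτM, hτ⟩ := za_eroot h2 J hJ S M hH a y hay
  choose φ hφ using hka
  have hφadd : ∀ b b', φ (b + b') = φ b + φ b' := by
    intro b b'
    apply za_pt_right_inj a ha
    rw [← hφ, pt_add_right, Matrix.mulVec_add, hφ, hφ, pt_add_right]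
  have hφsmul : ∀ (c : F) b, φ (c • b) = c • φ b := by
    intro c b
    apply za_pt_right_inj a ha
    rw [← hφ, pt_smul_right, Matrix.mulVec_smul, hφ, pt_smul_right]
  let φl : (Fin n → F) →ₗ[F] (Fin n → F) :=
    { toFun := φ, map_add' := hφadd, map_smul' := fun c b => by simpa using hφsmul c b }
  have hkinv : ∀ x, (k⁻¹ : GL (Fin m × Fin n) F).1 *ᵥ (k.1 *ᵥ x) = x := by
    intro x
    rw [Matrix.mulVec_mulVec, ← Units.val_mul, inv_mul_cancel, Units.val_one, Matrix.one_mulVec]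
  have hkinv' : ∀ x, k.1 *ᵥ ((k⁻¹ : GL (Fin m × Fin n) F).1 *ᵥ x) = x := by
    intro x
    rw [Matrix.mulVec_mulVec, ← Units.val_mul, mul_inv_cancel, Units.val_one, Matrix.one_mulVec]
  have hφinj : Function.Injective φl := by
    rw [← LinearMap.ker_eq_bot, LinearMap.ker_eq_bot']
    intro b hb
    have h1 : k.1 *ᵥ pt a b = 0 := by
      rw [hφ]
      change pt a (φl b) = 0
      rw [hb, pt_zero_right]
    have h3 := hkinv (pt a b)
    rw [h1, Matrix.mulVec_zero] at h3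
    apply za_pt_right_inj a ha
    rw [← h3, pt_zero_right]
  have hφsurj : Function.Surjective φl := LinearMap.surjective_of_injective hφinj
  have hρM : k * τ * k⁻¹ ∈ M := M.mul_mem (M.mul_mem hk hτM) (M.inv_mem hk)
  have hρv : ∀ x, (k * τ * k⁻¹ : GL (Fin m × Fin n) F).1 *ᵥ x =
      k.1 *ᵥ ((Eay J a y ⊗ₖ (1 : Matrix (Fin n) (Fin n) F)) *ᵥ
        ((k⁻¹ : GL (Fin m × Fin n) F).1 *ᵥ x)) := by
    intro x
    rw [Units.val_mul, Units.val_mul, hτ, Matrix.mulVec_mulVec, Matrix.mulVec_mulVec]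
  have hEa : Eay J a y *ᵥ a = a := by
    rw [za_eay_mulVec, bl_self h2 J hJ a, hay, zero_smul, zero_smul, add_zero, add_zero]
  have h1 : ∀ b : Fin n → F, (k * τ * k⁻¹ : GL (Fin m × Fin n) F).1 *ᵥ pt a b = pt a b := by
    intro b
    obtain ⟨b₀, hb₀⟩ := hφsurj b
    have hk0 : k.1 *ᵥ pt a b₀ = pt a b := by
      rw [hφ]
      exact congrArg (fun z => pt a z) hb₀
    have hki : (k⁻¹ : GL (Fin m × Fin n) F).1 *ᵥ pt a b = pt a b₀ := by rw [← hk0, hkinv]
    rw [hρv, hki, kron_mulVec_pt, Matrix.one_mulVec, hEa, hk0]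
  have h2' : ∀ (y₁ : Fin m → F) (b : Fin n → F), bl J a y₁ = 0 → ∃ b' : Fin n → F,
      (k * τ * k⁻¹ : GL (Fin m × Fin n) F).1 *ᵥ pt y₁ b = pt y₁ b + pt a b' := by
    intro y₁ b hy₁
    have hkv : k.1 *ᵥ ((k⁻¹ : GL (Fin m × Fin n) F).1 *ᵥ pt y₁ b) = pt y₁ b := hkinv' _
    have hcol : ∀ l : Fin n,
        bl J (fun i => ((k⁻¹ : GL (Fin m × Fin n) F).1 *ᵥ pt y₁ b) (i, l)) a = 0 := by
      apply za_col_perp J S hdetS
      intro c
      rw [← za_om_isom J S k.1 (hSp k hk), hkv, hφ, za_om_pt, bl_skew J hJ y₁ a, hy₁, neg_zero,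
        zero_mul]
    refine ⟨φ (fun l => bl J (fun i => ((k⁻¹ : GL (Fin m × Fin n) F).1 *ᵥ pt y₁ b) (i, l)) y), ?_⟩
    rw [hρv, za_tau_mulVec J a y _ hcol, Matrix.mulVec_add, hkv, hφ]
  obtain ⟨y₀, hy₀, hρy₀⟩ := hrad (k * τ * k⁻¹) hρM h1 h2'
  refine ⟨y₀, hy₀, ?_⟩
  rw [← hρy₀, ← hτ, ← Units.val_mul, ← Units.val_mul]
  congr 1
  group

end Cfsg.Agent.Helper51.SQZA
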