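import Mathlib

set_option autoImplicit false

/-!
# PIECE KerConcave of CALL S5996 (helper43) (helper51)
-/

namespace Cfsg.Agent.Helper51

open Module

/-- Rank–nullity for the restriction of an endomorphism to a subspace. -/
theorem u5996_rank_nullity {K V : Type*} [Field K] [AddCommGroup V] [Module K V]
    [FiniteDimensional K V] (f : Module.End K V) (S : Submodule K V) :
    finrank K ↥(S.map f) + finrank K ↥(S ⊓ LinearMap.ker f) = finrank K ↥S := by
  have h := LinearMap.finrank_range_add_finrank_ker (f.domRestrict S)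
  rw [LinearMap.range_domRestrict, LinearMap.ker_domRestrict] at h
  rw [← h, ← Submodule.finrank_map_subtype_eq S ((LinearMap.ker f).comap S.subtype),
    Submodule.map_comap_subtype]

theorem ker_pow_concave {K V : Type*} [Field K] [AddCommGroup V] [Module K V]
    [FiniteDimensional K V]
    (f : Module.End K V) (W : Submodule K V) (hW : ∀ w ∈ W, f w ∈ W) (l : ℕ) :
    finrank K ↥(W ⊓ LinearMap.ker (f ^ l)) + finrank K ↥(W ⊓ LinearMap.ker (f ^ (l + 2))) ≤
      2 * finrank K ↥(W ⊓ LinearMap.ker (f ^ (l + 1))) := by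
  obtain ⟨S0, hS0⟩ : ∃ S : Submodule K V, S = W ⊓ LinearMap.ker (f ^ l) := ⟨_, rfl⟩
  obtain ⟨S1, hS1⟩ : ∃ S : Submodule K V, S = W ⊓ LinearMap.ker (f ^ (l + 1)) := ⟨_, rfl⟩
  obtain ⟨S2, hS2⟩ : ∃ S : Submodule K V, S = W ⊓ LinearMap.ker (f ^ (l + 2)) := ⟨_, rfl⟩
  rw [← hS0, ← hS1, ← hS2]
  have hmem : ∀ (j : ℕ) (v : V), v ∈ W ⊓ LinearMap.ker (f ^ (j + 1)) ↔
      v ∈ W ∧ f v ∈ W ⊓ LinearMap.ker (f ^ j) := by
    intro j v
    rw [Submodule.mem_inf, Submodule.mem_inf, LinearMap.mem_ker, LinearMap.mem_ker]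
    constructor
    · rintro ⟨hvW, hv⟩
      refine ⟨hvW, hW v hvW, ?_⟩
      rw [← Module.End.mul_apply, ← pow_succ]
      exact hv
    · rintro ⟨hvW, -, hv⟩
      refine ⟨hvW, ?_⟩
      rw [pow_succ, Module.End.mul_apply]
      exact hv
  have hker : ∀ j : ℕ, LinearMap.ker f ≤ LinearMap.ker (f ^ (j + 1)) := by
    intro j v hv
    rw [LinearMap.mem_ker] at hv ⊢
    rw [pow_succ, Module.End.mul_apply, hv, map_zero]
  have h01 : S0 ≤ S1 := by
    intro v hv
    rw [hS0, Submodule.mem_inf, LinearMap.mem_ker] at hv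
    rw [hS1, Submodule.mem_inf, LinearMap.mem_ker]
    refine ⟨hv.1, ?_⟩
    rw [pow_succ', Module.End.mul_apply, hv.2, map_zero]
  have hm21 : S2.map f ≤ S1 := by
    rintro _ ⟨v, hv, rfl⟩
    rw [SetLike.mem_coe, hS2, hmem (l + 1)] at hv
    rw [hS1]
    exact hv.2
  have hcap : S2.map f ⊓ S0 ≤ S1.map f := by
    rintro _ ⟨⟨v, hv, rfl⟩, hv0⟩
    rw [SetLike.mem_coe, hS2] at hv
    rw [SetLike.mem_coe, hS0] at hv0
    exact ⟨v, by rw [SetLike.mem_coe, hS1, hmem l]; exact ⟨hv.1, hv0⟩, rfl⟩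
  have hk1 : S1 ⊓ LinearMap.ker f = W ⊓ LinearMap.ker f := by
    rw [hS1, inf_assoc, inf_eq_right.2 (hker l)]
  have hk2 : S2 ⊓ LinearMap.ker f = W ⊓ LinearMap.ker f := by
    rw [hS2, inf_assoc, inf_eq_right.2 (hker (l + 1))]
  have r1 := u5996_rank_nullity f S1
  have r2 := u5996_rank_nullity f S2
  rw [hk1] at r1
  rw [hk2] at r2
  have hsum := Submodule.finrank_sup_add_finrank_inf_eq (S2.map f) S0
  have hle1 : finrank K ↥(S2.map f ⊔ S0) ≤ finrank K ↥S1 :=
    Submodule.finrank_mono (sup_le hm21 h01)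
  have hle2 : finrank K ↥(S2.map f ⊓ S0) ≤ finrank K ↥(S1.map f) := Submodule.finrank_mono hcap
  omega

end Cfsg.Agent.Helper51
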