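import Mathlib

set_option autoImplicit false

/-!
# PIECE KerSplit of CALL S5996 (helper43) (helper51)
-/

namespace Cfsg.Agent.Helper51

open Module

theorem u5996_pow_mem {K V : Type*} [Field K] [AddCommGroup V] [Module K V]
    (f : Module.End K V) (U : Submodule K V) (hU : ∀ w ∈ U, f w ∈ U) (n : ℕ) :
    ∀ w ∈ U, (f ^ n) w ∈ U := by
  induction n with
  | zero => intro w hw; simpa using hw
  | succ n ih =>
    intro w hw
    rw [pow_succ, Module.End.mul_apply]
    exact ih _ (hU w hw)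

theorem ker_pow_split {K V : Type*} [Field K] [AddCommGroup V] [Module K V] [FiniteDimensional K V]
    (f : Module.End K V) (W W' : Submodule K V) (hc : IsCompl W W')
    (hW : ∀ w ∈ W, f w ∈ W) (hW' : ∀ w ∈ W', f w ∈ W') (l : ℕ) :
    finrank K ↥(LinearMap.ker (f ^ l)) =
      finrank K ↥(W ⊓ LinearMap.ker (f ^ l)) + finrank K ↥(W' ⊓ LinearMap.ker (f ^ l)) := by
  have hsup : (W ⊓ LinearMap.ker (f ^ l)) ⊔ (W' ⊓ LinearMap.ker (f ^ l)) =
      LinearMap.ker (f ^ l) := by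
    apply le_antisymm
    · exact sup_le inf_le_right inf_le_right
    · intro v hv
      obtain ⟨w, hw, w', hw', rfl⟩ :=
        Submodule.mem_sup.1 (hc.sup_eq_top ▸ Submodule.mem_top : v ∈ W ⊔ W')
      rw [LinearMap.mem_ker, map_add] at hv
      have h1 : (f ^ l) w ∈ W := u5996_pow_mem f W hW l w hw
      have h2 : (f ^ l) w' ∈ W' := u5996_pow_mem f W' hW' l w' hw'
      have h3 : (f ^ l) w ∈ W ⊓ W' :=
        ⟨h1, by rw [eq_neg_of_add_eq_zero_left hv]; exact W'.neg_mem h2⟩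
      rw [hc.inf_eq_bot, Submodule.mem_bot] at h3
      have h4 : (f ^ l) w' = 0 := by rwa [h3, zero_add] at hv
      exact Submodule.add_mem_sup ⟨hw, LinearMap.mem_ker.2 h3⟩ ⟨hw', LinearMap.mem_ker.2 h4⟩
  have hinf : (W ⊓ LinearMap.ker (f ^ l)) ⊓ (W' ⊓ LinearMap.ker (f ^ l)) = ⊥ := by
    rw [eq_bot_iff]
    intro v hv
    have : v ∈ W ⊓ W' := ⟨hv.1.1, hv.2.1⟩
    rwa [hc.inf_eq_bot] at this
  have h := Submodule.finrank_sup_add_finrank_inf_eq (W ⊓ LinearMap.ker (f ^ l))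
    (W' ⊓ LinearMap.ker (f ^ l))
  rw [hsup, hinf, finrank_bot, add_zero] at h
  exact h

end Cfsg.Agent.Helper51
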