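import Mathlib
import Cfsg.Agent.Helper13.TLDefs
import Cfsg.Agent.Helper20.TLUXFER

/-!
S5954 piece UNORMCNT (helper51): the number of norm-one vectors of a nondegenerate Hermitian
subspace.
-/

set_option autoImplicit false
set_option linter.unusedSectionVars false
set_option linter.unusedVariables false

namespace Cfsg.Agent.Helper51.TI5954

open Module Polynomial
open Cfsg.Agent.Helper13.TIu Cfsg.Agent.Helper13.TIsp

variable {F : Type*} [Field F] {σ : F →+* F} {V : Type*} [AddCommGroup V] [Module F V]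
  [FiniteDimensional F V] (B : V →ₛₗ[σ] V →ₗ[F] F)

/-- UXFERSUB (local copy for UNORMCNT; uses UXFER on the restricted form). -/
theorem u_xfer_sub_aux [Finite F] (hσ2 : ∀ a, σ (σ a) = a) (hσne : σ ≠ RingHom.id F)
    (hS : B.IsSymm) (U : Submodule F V) (hU : UNd B U) :
    ∃ Φ : U ≃ₗ[F] (Fin (finrank F U) → F),
      ∀ u v : U, stdH σ (finrank F U) (Φ u) (Φ v) = B (u : V) (v : V) := by
  have hS' : (B.domRestrict₁₂ U U).IsSymm := by
    rw [LinearMap.isSymm_def]
    intro x y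
    simp only [LinearMap.domRestrict₁₂_apply]
    exact hS.eq x y
  have hnd : UNd (B.domRestrict₁₂ U U) ⊤ := by
    intro v _ hv
    have h0 := hU v.1 v.2 (fun w hw => by
      have h1 := hv ⟨w, hw⟩ Submodule.mem_top
      simpa only [LinearMap.domRestrict₁₂_apply] using h1)
    exact Subtype.ext h0
  obtain ⟨Φ, hΦ⟩ := Cfsg.Agent.Helper20.TI5954.u_xfer (B.domRestrict₁₂ U U) hσ2 hσne hS' hnd
    (finrank F U) rfl
  exact ⟨Φ, fun u v => by rw [hΦ u v]; rfl⟩

/-- UNORMCNT (case D; uses UXFERSUB, `Cfsg.Agent.Helper44.card_normOne`, `stdH x x = hfg σ x x`). -/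
theorem u_norm_count [Fintype F] (q : ℕ) (hq : Fintype.card F = q ^ 2) (hσ : ∀ a, σ a = a ^ q)
    (hσ2 : ∀ a, σ (σ a) = a) (hσne : σ ≠ RingHom.id F) (hS : B.IsSymm) (U : Submodule F V)
    (hU : UNd B U) :
    (Nat.card {v : V // v ∈ U ∧ B v v = 1} : ℤ) = Cfsg.Agent.Helper44.unitVal q (finrank F U) := by
  obtain ⟨Φ, hΦ⟩ := u_xfer_sub_aux B hσ2 hσne hS U hU
  have hΦ' : ∀ u : U, Cfsg.Agent.Helper44.hfg σ (Φ u) (Φ u) = B (u : V) (u : V) :=
    fun u => hΦ u u
  let e : {v : V // v ∈ U ∧ B v v = 1} ≃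
      {x : Fin (finrank F U) → F // Cfsg.Agent.Helper44.hfg σ x x = 1} :=
    { toFun := fun v => ⟨Φ ⟨v.1, v.2.1⟩, by rw [hΦ' ⟨v.1, v.2.1⟩]; exact v.2.2⟩
      invFun := fun x => ⟨(Φ.symm x.1 : V), (Φ.symm x.1).2, by
        have h := hΦ' (Φ.symm x.1)
        rw [Φ.apply_symm_apply] at h
        rw [← h]; exact x.2⟩
      left_inv := fun v => by
        apply Subtype.ext
        simp
      right_inv := fun x => by
        apply Subtype.ext
        simp }
  rw [Nat.card_congr e]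
  exact Cfsg.Agent.Helper44.card_normOne hq σ hσ _ (Fin _) (Fintype.card_fin _)

end Cfsg.Agent.Helper51.TI5954
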