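import Mathlib
import Cfsg.Agent.Helper13.TLDefs
import Cfsg.Agent.Helper20.TLUFREE
import Cfsg.Agent.Helper51.TLUNORMCNT

/-!
S5954 piece UNOIRR (helper51): an isometry of prime order `r ∤ q` without fixed vectors on a
nondegenerate invariant subspace `U` forces `r ∣ q ^ d - (-1) ^ d`, `d = dim U`.
-/

set_option autoImplicit false
set_option linter.unusedSectionVars false
set_option linter.unusedVariables false

namespace Cfsg.Agent.Helper51.TI5954

open Module Polynomial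
open Cfsg.Agent.Helper13.TIu Cfsg.Agent.Helper13.TIsp

variable {F : Type*} [Field F] {σ : F →+* F} {V : Type*} [AddCommGroup V] [Module F V]
  [FiniteDimensional F V] (B : V →ₛₗ[σ] V →ₗ[F] F)

/-- UNOIRR (case D; uses UNORMCNT, UFREE): `T` acts freely on the norm-one vectors of `U`, whose number
is `q ^ (d-1) * (q ^ d - (-1) ^ d)`. -/
theorem u_noirr [Fintype F] (q : ℕ) (hq : Fintype.card F = q ^ 2) (hσ : ∀ a, σ a = a ^ q)
    (hσ2 : ∀ a, σ (σ a) = a) (hσne : σ ≠ RingHom.id F) (hS : B.IsSymm) (T : Module.End F V)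
    (hT : UPres B T) (r : ℕ) [Fact r.Prime] (hrq : ¬ r ∣ q) (hTr : T ^ r = 1)
    (U : Submodule F V) (hUT : U.map T ≤ U) (hU : UNd B U)
    (hUk : U ⊓ LinearMap.ker (T - 1) = ⊥) :
    (r : ℤ) ∣ (q : ℤ) ^ finrank F U - (-1) ^ finrank F U := by
  have hcount := u_norm_count B q hq hσ hσ2 hσne hS U hU
  have hfree : r ∣ Nat.card ({v : V | v ∈ U ∧ B v v = 1} : Set V) := by
    refine Cfsg.Agent.Helper20.TI5954.u_free_count T r hTr _ ?_ ?_
    · rintro v ⟨hvU, hv1⟩
      exact ⟨hUT (Submodule.mem_map_of_mem hvU), by rw [hT v v]; exact hv1⟩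
    · rintro v ⟨hvU, hv1⟩ hTv
      have hk : v ∈ U ⊓ LinearMap.ker (T - 1) :=
        Submodule.mem_inf.mpr ⟨hvU, by
          rw [LinearMap.mem_ker, LinearMap.sub_apply, hTv]
          simp⟩
      rw [hUk, Submodule.mem_bot] at hk
      rw [hk] at hv1
      simp at hv1
  have hdvd : (r : ℤ) ∣ Cfsg.Agent.Helper44.unitVal q (finrank F U) := by
    rw [← hcount]
    exact Int.natCast_dvd_natCast.mpr hfree
  rcases Nat.eq_zero_or_pos (finrank F U) with h0 | hpos
  · rw [h0]; simp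
  · obtain ⟨k, hk⟩ := Nat.exists_eq_succ_of_ne_zero (Nat.pos_iff_ne_zero.mp hpos)
    rw [hk] at hdvd ⊢
    have hdef : Cfsg.Agent.Helper44.unitVal q (k + 1) =
        (q : ℤ) ^ k * ((q : ℤ) ^ (k + 1) - (-1) ^ (k + 1)) := rfl
    rw [hdef] at hdvd
    have hrp : Prime (r : ℤ) := Nat.prime_iff_prime_int.mp (Fact.out : r.Prime)
    rcases hrp.dvd_or_dvd hdvd with h | h
    · exfalso
      have h2 := hrp.dvd_of_dvd_pow h
      exact hrq (Int.natCast_dvd_natCast.mp h2)
    · exact h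

end Cfsg.Agent.Helper51.TI5954
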