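import Mathlib
import Cfsg.Agent.Helper13.TLDefs
import Cfsg.Agent.Helper41.TLUFIX
import Cfsg.Agent.Helper53.TLUARC
import Cfsg.Agent.Helper51.TLUNOIRR

/-!
S5954 piece UCDVD (helper51): `c` divides the codimension of the fixed space in a nondegenerate
invariant subspace.
-/

set_option autoImplicit false
set_option linter.unusedSectionVars false
set_option linter.unusedVariables false

namespace Cfsg.Agent.Helper51.TI5954

open Module Polynomial
open Cfsg.Agent.Helper13.TIu Cfsg.Agent.Helper13.TIsp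

variable {F : Type*} [Field F] {σ : F →+* F} {V : Type*} [AddCommGroup V] [Module F V]
  [FiniteDimensional F V] (B : V →ₛₗ[σ] V →ₗ[F] F)

/-- UCDVD (case D; uses UFIX, UNOIRR, UARC): `N = (N ⊓ ker (T - 1)) ⊕ P`, `c ∣ finrank P`. -/
theorem u_cdvd [Fintype F] (q : ℕ) (hq : Fintype.card F = q ^ 2) (hσ : ∀ a, σ a = a ^ q)
    (hσ2 : ∀ a, σ (σ a) = a) (hσne : σ ≠ RingHom.id F) (hS : B.IsSymm) (T : Module.End F V)
    (hT : UPres B T) (r : ℕ) [Fact r.Prime] (hr2 : 2 < r) (hrq : ¬ r ∣ q) (hrF : (r : F) ≠ 0)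
    (hTr : T ^ r = 1) (i c : ℕ) (hi : i = orderOf (q : ZMod r))
    (hc : c = if i % 4 = 0 then i else if i % 4 = 2 then i / 2 else 2 * i)
    (N : Submodule F V) (hNT : N.map T ≤ N) (hN : UNd B N) :
    c ∣ finrank F N - finrank F (N ⊓ LinearMap.ker (T - 1) : Submodule F V) := by
  obtain ⟨-, P, hPN, hPT, hP, hPk, -, -, -, hdim⟩ :=
    Cfsg.Agent.Helper41.TI5954.u_fix B hσ2 hS T hT r (by omega) hrF hTr N hNT hN
  have h1 := u_noirr B q hq hσ hσ2 hσne hS T hT r hrq hTr P hPT hP hPk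
  obtain ⟨-, -, harc⟩ := Cfsg.Agent.Helper53.TI5954.u_arith_c q r hr2 hrq i c hi hc
  have h2 : c ∣ finrank F P := (harc _).mp h1
  have e : finrank F N - finrank F (N ⊓ LinearMap.ker (T - 1) : Submodule F V) = finrank F P := by
    omega
  rw [e]; exact h2

end Cfsg.Agent.Helper51.TI5954
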