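import Mathlib
import Cfsg.Agent.Helper13.TLDefs
import Cfsg.Agent.Helper73.TLUGROW
import Cfsg.Agent.Helper26.TLUISO

/-!
S5954 piece UEXND (helper51): a nondegenerate Hermitian subspace contains nondegenerate subspaces
of every smaller dimension.
-/

set_option autoImplicit false
set_option linter.unusedSectionVars false
set_option linter.unusedVariables false

namespace Cfsg.Agent.Helper51.TI5954

open Module Polynomial
open Cfsg.Agent.Helper13.TIu Cfsg.Agent.Helper13.TIsp

variable {F : Type*} [Field F] {σ : F →+* F} {V : Type*} [AddCommGroup V] [Module F V]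
  [FiniteDimensional F V] (B : V →ₛₗ[σ] V →ₗ[F] F)

/-- UEXND (uses UGROW with `T = 1`, `c₀ = 1`, UISO: `span {v}` with `B v v ≠ 0`). -/
theorem u_exists_nd (hσ2 : ∀ a, σ (σ a) = a) (hσne : σ ≠ RingHom.id F) (hS : B.IsSymm)
    (E : Submodule F V) (hE : UNd B E) (m : ℕ) (hm : m ≤ finrank F E) :
    ∃ W : Submodule F V, W ≤ E ∧ UNd B W ∧ finrank F W = m := by
  have hT : UPres B (1 : Module.End F V) := fun u v => rfl
  have hmap : ∀ N : Submodule F V, N.map (1 : Module.End F V) ≤ N := by
    intro N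
    rintro _ ⟨x, hx, rfl⟩
    exact hx
  have hatom : ∀ N : Submodule F V, N ≤ E → N.map (1 : Module.End F V) ≤ N → UNd B N → N ≠ ⊥ →
      ∃ E' : Submodule F V, E' ≤ N ∧ E'.map (1 : Module.End F V) ≤ E' ∧ UNd B E' ∧
        finrank F E' = 1 := by
    intro N _ _ hN hN0
    obtain ⟨v, hvN, hv⟩ := Cfsg.Agent.Helper26.TI5954.u_noniso B hσ2 hσne hS N hN hN0
    have hv0 : v ≠ 0 := by
      rintro rfl
      simp at hv
    refine ⟨Submodule.span F {v}, ?_, hmap _, ?_, finrank_span_singleton hv0⟩
    · rw [Submodule.span_singleton_le_iff_mem]; exact hvN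
    · intro w hw hall
      obtain ⟨a, rfl⟩ := Submodule.mem_span_singleton.mp hw
      have h1 := hall v (Submodule.mem_span_singleton_self v)
      rw [map_smulₛₗ, LinearMap.smul_apply, smul_eq_mul] at h1
      rcases mul_eq_zero.mp h1 with h | h
      · have ha : a = 0 := by
          have := congrArg σ h
          rw [hσ2, map_zero] at this
          exact this
        rw [ha, zero_smul]
      · exact absurd h hv
  obtain ⟨N₁, hN₁E, -, hN₁, hdim⟩ :=
    Cfsg.Agent.Helper73.TI5954.u_grow B hσ2 hS 1 hT 1 one_pos (pow_one _) 1 one_pos E hatom E le_rfl (hmap E) hE m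
      (by omega)
  exact ⟨N₁, hN₁E, hN₁, by rw [hdim, one_mul]⟩

end Cfsg.Agent.Helper51.TI5954
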