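import Mathlib

set_option autoImplicit false

universe u

namespace Cfsg.Agent.Helper51

/-- P3a of CALL S4460: in a solvable non-abelian finite group whose nontrivial normal subgroups
all contain the commutator subgroup, the commutator subgroup is an abelian `p`-group. -/
theorem cd3_frob_abelian {Q : Type u} [Group Q] [Finite Q] (hsol : Group.IsSolvable Q)
    (hna : ∃ x y : Q, x * y ≠ y * x)
    (hmin : ∀ N : Subgroup Q, N.Normal → N ≠ ⊥ → commutator Q ≤ N) :
    ∃ p : ℕ, p.Prime ∧ IsPGroup p (commutator Q) ∧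
      (∀ x ∈ commutator Q, ∀ y ∈ commutator Q, x * y = y * x) := by
  have hM1 : commutator Q ≠ ⊥ := by
    intro h
    obtain ⟨x, y, hxy⟩ := hna
    apply hxy
    have hc : _ ∈ commutator Q :=
      Subgroup.commutator_mem_commutator (Subgroup.mem_top x) (Subgroup.mem_top y)
    rw [h, Subgroup.mem_bot, commutatorElement_eq_one_iff_mul_comm] at hc
    exact hc
  have hMM : ⁅commutator Q, commutator Q⁆ = ⊥ := by
    by_contra hne
    have hle := hmin _ inferInstance hne
    have hlt : ⁅commutator Q, commutator Q⁆ < commutator Q :=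
      Group.IsSolvable.commutator_lt_of_ne_bot hM1
    exact (not_le_of_gt hlt) hle
  have hMab : ∀ x ∈ commutator Q, ∀ y ∈ commutator Q, x * y = y * x := by
    intro x hx y hy
    have hc := Subgroup.commutator_mem_commutator hx hy
    rw [hMM, Subgroup.mem_bot, commutatorElement_eq_one_iff_mul_comm] at hc
    exact hc
  have hcard : Nat.card (commutator Q) ≠ 1 :=
    fun h => hM1 ((Subgroup.eq_bot_iff_card _).2 h)
  obtain ⟨p, hp, hpd⟩ := Nat.exists_prime_and_dvd hcard
  have hpF : Fact p.Prime := ⟨hp⟩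
  obtain ⟨x₀, hx₀⟩ := exists_prime_orderOf_dvd_card' p hpd
  let Ω : Subgroup Q :=
    { carrier := {x | x ∈ commutator Q ∧ ∃ k : ℕ, x ^ (p ^ k) = 1}
      one_mem' := ⟨Subgroup.one_mem _, 0, by simp⟩
      mul_mem' := by
        rintro a b ⟨ha, k, hk⟩ ⟨hb, l, hl⟩
        refine ⟨Subgroup.mul_mem _ ha hb, k + l, ?_⟩
        have hab : Commute a b := hMab a ha b hb
        rw [hab.mul_pow, pow_add, pow_mul, hk, one_pow, one_mul, mul_comm (p ^ k), pow_mul, hl,
          one_pow]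
      inv_mem' := by
        rintro a ⟨ha, k, hk⟩
        exact ⟨Subgroup.inv_mem _ ha, k, by rw [inv_pow, hk, inv_one]⟩ }
  have hΩmem : ∀ x, x ∈ Ω ↔ (x ∈ commutator Q ∧ ∃ k : ℕ, x ^ (p ^ k) = 1) := fun _ => Iff.rfl
  have hΩn : Ω.Normal := ⟨by
    intro a ha t
    rw [hΩmem] at ha ⊢
    obtain ⟨ha, k, hk⟩ := ha
    refine ⟨(inferInstance : (commutator Q).Normal).conj_mem a ha t, k, ?_⟩
    rw [conj_pow, hk]
    simp⟩
  have hΩ1 : Ω ≠ ⊥ := by
    intro h
    have hx : (x₀ : Q) ∈ Ω := by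
      rw [hΩmem]
      refine ⟨x₀.2, 1, ?_⟩
      rw [pow_one, ← Subgroup.coe_pow, ← hx₀, pow_orderOf_eq_one]
      rfl
    rw [h, Subgroup.mem_bot] at hx
    have h1 : x₀ = 1 := Subtype.ext hx
    rw [h1, orderOf_one] at hx₀
    exact hp.one_lt.ne hx₀
  have hle := hmin Ω hΩn hΩ1
  refine ⟨p, hp, ?_, hMab⟩
  intro x
  obtain ⟨-, k, hk⟩ := (hΩmem _).1 (hle x.2)
  exact ⟨k, Subtype.ext (by rw [Subgroup.coe_pow]; exact hk)⟩

end Cfsg.Agent.Helper51
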