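import Mathlib

set_option autoImplicit false

universe u

namespace Cfsg.Agent.Helper51

/-- P3b of CALL S4460: if the commutator subgroup is a `p`-group contained in every nontrivial
normal subgroup and the centre is nontrivial, the whole group is a `p`-group. -/
theorem cd3_frob_center {Q : Type u} [Group Q] [Finite Q]
    (hmin : ∀ N : Subgroup Q, N.Normal → N ≠ ⊥ → commutator Q ≤ N)
    (p : ℕ) (hp : p.Prime) (hM : IsPGroup p (commutator Q)) (hM1 : commutator Q ≠ ⊥)
    (hZ : Subgroup.center Q ≠ ⊥) : IsPGroup p Q := by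
  have hMZ : commutator Q ≤ Subgroup.center Q := hmin _ inferInstance hZ
  obtain ⟨x₁, hx₁M, hx₁⟩ : ∃ x ∈ commutator Q, x ≠ 1 := by
    by_contra h
    push Not at h
    exact hM1 ((Subgroup.eq_bot_iff_forall _).2 h)
  intro g
  have hg0 : orderOf g ≠ 0 := (orderOf_pos g).ne'
  obtain ⟨a, n, hn, hgn⟩ := Nat.exists_eq_pow_mul_and_not_dvd hg0 p hp.ne_one
  refine ⟨a, ?_⟩
  obtain ⟨h, hh⟩ : ∃ h, h = g ^ (p ^ a) := ⟨_, rfl⟩
  rw [← hh]
  have hhn : h ^ n = 1 := by rw [hh, ← pow_mul, ← hgn, pow_orderOf_eq_one]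
  have hcop : Nat.Coprime n p := ((Nat.Prime.coprime_iff_not_dvd hp).2 hn).symm
  have hMn : ∀ c ∈ commutator Q, c ^ n = 1 → c = 1 := by
    intro c hc hcn
    obtain ⟨k, hk⟩ := hM ⟨c, hc⟩
    have hk' : c ^ (p ^ k) = 1 := by
      have := congrArg Subtype.val hk
      rwa [Subgroup.coe_pow] at this
    have h1 : orderOf c ∣ n := orderOf_dvd_of_pow_eq_one hcn
    have h2 : orderOf c ∣ p ^ k := orderOf_dvd_of_pow_eq_one hk'
    have h3 : orderOf c ∣ 1 := by
      have h4 := Nat.dvd_gcd h1 h2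
      rwa [Nat.Coprime.pow_right k hcop] at h4
    exact orderOf_eq_one_iff.1 (Nat.dvd_one.1 h3)
  have hcen : ∀ y : Q, y * h = h * y := by
    intro y
    obtain ⟨c, hcdef⟩ : ∃ c, c = h * y * h⁻¹ * y⁻¹ := ⟨_, rfl⟩
    have hc : c ∈ commutator Q := by
      have := Subgroup.commutator_mem_commutator (Subgroup.mem_top h) (Subgroup.mem_top y)
      rw [commutatorElement_def] at this
      rw [hcdef]
      exact this
    have hcz : Commute h c := Subgroup.mem_center_iff.1 (hMZ hc) h
    have hyc : h * y * h⁻¹ = c * y := by rw [hcdef]; group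
    have hpow : ∀ i : ℕ, h ^ i * y * (h ^ i)⁻¹ = c ^ i * y := by
      intro i
      induction i with
      | zero => simp
      | succ i ih =>
        calc h ^ (i + 1) * y * (h ^ (i + 1))⁻¹ = h * (h ^ i * y * (h ^ i)⁻¹) * h⁻¹ := by
              rw [pow_succ']; group
          _ = h * (c ^ i * y) * h⁻¹ := by rw [ih]
          _ = (h * c ^ i) * y * h⁻¹ := by group
          _ = (c ^ i * h) * y * h⁻¹ := by rw [(hcz.pow_right i).eq]
          _ = c ^ i * (h * y * h⁻¹) := by group
          _ = c ^ i * (c * y) := by rw [hyc]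
          _ = c ^ (i + 1) * y := by rw [pow_succ]; group
    have h1 := hpow n
    rw [hhn] at h1
    have h2 : c ^ n = 1 := by
      have h3 : c ^ n * y = 1 * y := by rw [← h1]; simp
      exact mul_right_cancel h3
    have h3 := hMn c hc h2
    rw [h3, one_mul] at hyc
    calc y * h = (h * y * h⁻¹) * h := by rw [hyc]
      _ = h * y := by group
  by_contra hne
  have hNn : (Subgroup.zpowers h).Normal := ⟨by
    intro x hx t
    obtain ⟨i, rfl⟩ := Subgroup.mem_zpowers_iff.1 hx
    have hc : Commute t (h ^ i) := Commute.zpow_right (hcen t) i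
    rw [hc.eq, mul_inv_cancel_right]
    exact Subgroup.zpow_mem_zpowers h i⟩
  have hN1 : Subgroup.zpowers h ≠ ⊥ := Subgroup.zpowers_ne_bot.2 hne
  have hle := hmin _ hNn hN1
  obtain ⟨i, hi⟩ := Subgroup.mem_zpowers_iff.1 (hle hx₁M)
  apply hx₁
  apply hMn x₁ hx₁M
  rw [← hi, ← zpow_natCast, ← zpow_mul, mul_comm, zpow_mul, zpow_natCast, hhn, one_zpow]

end Cfsg.Agent.Helper51
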