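import Mathlib

set_option autoImplicit false

universe u

namespace Cfsg.Agent.Helper51

/-- For any `g`, the centraliser of `g` in the abelian commutator subgroup is normal. -/
theorem cd3f_cent_normal {Q : Type u} [Group Q]
    (hMab : ∀ x ∈ commutator Q, ∀ y ∈ commutator Q, x * y = y * x) (g : Q) :
    ∃ C : Subgroup Q, C.Normal ∧ ∀ x, x ∈ C ↔ (x ∈ commutator Q ∧ g * x = x * g) := by
  let C : Subgroup Q :=
    { carrier := {x | x ∈ commutator Q ∧ g * x = x * g}
      one_mem' := ⟨Subgroup.one_mem _, by simp⟩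
      mul_mem' := by
        rintro a b ⟨ha, hga⟩ ⟨hb, hgb⟩
        refine ⟨Subgroup.mul_mem _ ha hb, ?_⟩
        rw [← mul_assoc, hga, mul_assoc, hgb, mul_assoc]
      inv_mem' := by
        rintro a ⟨ha, hga⟩
        refine ⟨Subgroup.inv_mem _ ha, ?_⟩
        calc g * a⁻¹ = a⁻¹ * (a * g) * a⁻¹ := by group
          _ = a⁻¹ * (g * a) * a⁻¹ := by rw [hga]
          _ = a⁻¹ * g := by group }
  have hCmem : ∀ x, x ∈ C ↔ (x ∈ commutator Q ∧ g * x = x * g) := fun _ => Iff.rfl
  refine ⟨C, ⟨?_⟩, hCmem⟩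
  intro x hx t
  rw [hCmem] at hx ⊢
  obtain ⟨hxM, hgx⟩ := hx
  have hm : g⁻¹ * t⁻¹ * g * t ∈ commutator Q := by
    have := Subgroup.commutator_mem_commutator (Subgroup.mem_top g⁻¹) (Subgroup.mem_top t⁻¹)
    rw [commutatorElement_def, inv_inv, inv_inv] at this
    exact this
  have h1 : (g⁻¹ * t⁻¹ * g * t) * x = x * (g⁻¹ * t⁻¹ * g * t) := hMab _ hm _ hxM
  refine ⟨(inferInstance : (commutator Q).Normal).conj_mem x hxM t, ?_⟩
  calc g * (t * x * t⁻¹) = t * (g * ((g⁻¹ * t⁻¹ * g * t) * x)) * t⁻¹ := by group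
    _ = t * (g * (x * (g⁻¹ * t⁻¹ * g * t))) * t⁻¹ := by rw [h1]
    _ = t * ((g * x) * (g⁻¹ * t⁻¹ * g * t)) * t⁻¹ := by group
    _ = t * ((x * g) * (g⁻¹ * t⁻¹ * g * t)) * t⁻¹ := by rw [hgx]
    _ = (t * x * t⁻¹) * g := by group

/-- Every element acts on the commutator subgroup either without fixed points or trivially. -/
theorem cd3f_dichotomy {Q : Type u} [Group Q]
    (hmin : ∀ N : Subgroup Q, N.Normal → N ≠ ⊥ → commutator Q ≤ N)
    (hMab : ∀ x ∈ commutator Q, ∀ y ∈ commutator Q, x * y = y * x) (g : Q) :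
    (∀ x ∈ commutator Q, g * x = x * g → x = 1) ∨ (∀ x ∈ commutator Q, g * x = x * g) := by
  obtain ⟨C, hCn, hC⟩ := cd3f_cent_normal hMab g
  by_cases hC1 : C = ⊥
  · left
    intro x hx hgx
    have : x ∈ C := (hC x).2 ⟨hx, hgx⟩
    rw [hC1, Subgroup.mem_bot] at this
    exact this
  · right
    intro x hx
    exact ((hC x).1 (hmin C hCn hC1 hx)).2

/-- The centraliser of the commutator subgroup is the commutator subgroup. -/
theorem cd3f_centralizer_le {Q : Type u} [Group Q] [Finite Q]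
    (hmin : ∀ N : Subgroup Q, N.Normal → N ≠ ⊥ → commutator Q ≤ N)
    (hM1 : commutator Q ≠ ⊥)
    (hMab : ∀ x ∈ commutator Q, ∀ y ∈ commutator Q, x * y = y * x)
    (hZ : Subgroup.center Q = ⊥) (g : Q) (hg : ∀ x ∈ commutator Q, g * x = x * g) :
    g ∈ commutator Q := by
  have hMn : (commutator Q).Normal := inferInstance
  obtain ⟨s, hs⟩ : ∃ s : Q, ¬ ∀ x ∈ commutator Q, s * x = x * s := by
    by_contra h
    push Not at h
    apply hM1
    rw [Subgroup.eq_bot_iff_forall]
    intro x hx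
    have hxc : x ∈ Subgroup.center Q := Subgroup.mem_center_iff.2 (fun t => h t x hx)
    rw [hZ, Subgroup.mem_bot] at hxc
    exact hxc
  have hCs : ∀ x ∈ commutator Q, s * x = x * s → x = 1 := by
    rcases cd3f_dichotomy hmin hMab s with h | h
    · exact h
    · exact absurd h hs
  let κ : commutator Q → commutator Q := fun x =>
    ⟨s * x.1 * s⁻¹ * x.1⁻¹,
      Subgroup.mul_mem _ (hMn.conj_mem x.1 x.2 s) (Subgroup.inv_mem _ x.2)⟩
  have hκ : ∀ x : commutator Q, ((κ x : commutator Q) : Q) = s * x.1 * s⁻¹ * x.1⁻¹ :=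
    fun _ => rfl
  have hκinj : Function.Injective κ := by
    intro x x' hxx'
    have h1 : s * x.1 * s⁻¹ * x.1⁻¹ = s * x'.1 * s⁻¹ * x'.1⁻¹ := by
      rw [← hκ, ← hκ, hxx']
    have hd : x'.1⁻¹ * x.1 ∈ commutator Q :=
      Subgroup.mul_mem _ (Subgroup.inv_mem _ x'.2) x.2
    have h2 : s * (x'.1⁻¹ * x.1) = (x'.1⁻¹ * x.1) * s := by
      calc s * (x'.1⁻¹ * x.1)
          = x'.1⁻¹ * ((s * x'.1 * s⁻¹ * x'.1⁻¹)⁻¹ * (s * x.1 * s⁻¹ * x.1⁻¹)) * x.1 * s := by
            group
        _ = x'.1⁻¹ * ((s * x'.1 * s⁻¹ * x'.1⁻¹)⁻¹ * (s * x'.1 * s⁻¹ * x'.1⁻¹)) * x.1 * s := by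
            rw [h1]
        _ = (x'.1⁻¹ * x.1) * s := by group
    have h3 := hCs _ hd h2
    apply Subtype.ext
    exact (inv_mul_eq_one.1 h3).symm
  have hκsurj : Function.Surjective κ := Finite.injective_iff_surjective.1 hκinj
  obtain ⟨c, hcdef⟩ : ∃ c, c = s * g * s⁻¹ * g⁻¹ := ⟨_, rfl⟩
  have hcM : c ∈ commutator Q := by
    have := Subgroup.commutator_mem_commutator (Subgroup.mem_top s) (Subgroup.mem_top g)
    rw [commutatorElement_def] at this
    rw [hcdef]
    exact this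
  obtain ⟨m', hm'⟩ := hκsurj ⟨c⁻¹, Subgroup.inv_mem _ hcM⟩
  have hkey : s * m'.1 * s⁻¹ * m'.1⁻¹ = c⁻¹ := by
    rw [← hκ, hm']
  have hgc : g * c⁻¹ = c⁻¹ * g := hg _ (Subgroup.inv_mem _ hcM)
  have e1 : s * g = c * g * s := by rw [hcdef]; group
  have e2 : s * m'.1 = c⁻¹ * m'.1 * s := by rw [← hkey]; group
  -- a := g * m' commutes with s
  have h1 : s * (g * m'.1) = (g * m'.1) * s := by
    calc s * (g * m'.1) = (s * g) * m'.1 := by group
      _ = c * g * (s * m'.1) := by rw [e1]; group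
      _ = c * (g * c⁻¹) * m'.1 * s := by rw [e2]; group
      _ = c * (c⁻¹ * g) * m'.1 * s := by rw [hgc]
      _ = (g * m'.1) * s := by group
  have ha : ∀ x ∈ commutator Q, (g * m'.1) * x = x * (g * m'.1) := by
    intro x hx
    calc g * m'.1 * x = g * (m'.1 * x) := by group
      _ = g * (x * m'.1) := by rw [hMab m'.1 m'.2 x hx]
      _ = (g * x) * m'.1 := by group
      _ = (x * g) * m'.1 := by rw [hg x hx]
      _ = x * (g * m'.1) := by group
  obtain ⟨a, hadef⟩ : ∃ a, a = g * m'.1 := ⟨_, rfl⟩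
  rw [← hadef] at h1 ha
  have hacen : a ∈ Subgroup.center Q := by
    rw [Subgroup.mem_center_iff]
    intro t
    obtain ⟨mt, hmt⟩ : ∃ mt, mt = a⁻¹ * t * a * t⁻¹ := ⟨_, rfl⟩
    obtain ⟨nt, hnt⟩ : ∃ nt, nt = s⁻¹ * t * s * t⁻¹ := ⟨_, rfl⟩
    have hmtM : mt ∈ commutator Q := by
      have := Subgroup.commutator_mem_commutator (Subgroup.mem_top a⁻¹) (Subgroup.mem_top t)
      rw [commutatorElement_def, inv_inv] at this
      rw [hmt]
      exact this
    have hntM : nt ∈ commutator Q := by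
      have := Subgroup.commutator_mem_commutator (Subgroup.mem_top s⁻¹) (Subgroup.mem_top t)
      rw [commutatorElement_def, inv_inv] at this
      rw [hnt]
      exact this
    have hta : t * a * t⁻¹ = a * mt := by rw [hmt]; group
    have hts : t * s * t⁻¹ = s * nt := by rw [hnt]; group
    have h2 : (s * nt) * (a * mt) = (a * mt) * (s * nt) := by
      rw [← hta, ← hts]
      calc t * s * t⁻¹ * (t * a * t⁻¹) = t * (s * a) * t⁻¹ := by group
        _ = t * (a * s) * t⁻¹ := by rw [h1]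
        _ = t * a * t⁻¹ * (t * s * t⁻¹) := by group
    have hmn : nt * mt = mt * nt := hMab nt hntM mt hmtM
    have e3 : (s * nt) * (a * mt) = a * (s * mt * nt) := by
      calc (s * nt) * (a * mt) = s * (nt * a) * mt := by group
        _ = s * (a * nt) * mt := by rw [ha nt hntM]
        _ = (s * a) * (nt * mt) := by group
        _ = (a * s) * (mt * nt) := by rw [h1, hmn]
        _ = a * (s * mt * nt) := by group
    have e4 : (a * mt) * (s * nt) = a * (mt * s * nt) := by group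
    have e5 : s * mt * nt = mt * s * nt := mul_left_cancel (e3.symm.trans (h2.trans e4))
    have e6 : s * mt = mt * s := mul_right_cancel e5
    have e7 := hCs mt hmtM e6
    rw [hmt] at e7
    calc t * a = a * (a⁻¹ * t * a * t⁻¹) * t := by group
      _ = a * t := by rw [e7, mul_one]
  rw [hZ, Subgroup.mem_bot, hadef] at hacen
  have : g = m'.1⁻¹ := eq_inv_of_mul_eq_one_left hacen
  rw [this]
  exact Subgroup.inv_mem _ m'.2

/-- P3c of CALL S4460: the Frobenius structure. -/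
theorem cd3_frob_fpf {Q : Type u} [Group Q] [Finite Q]
    (hmin : ∀ N : Subgroup Q, N.Normal → N ≠ ⊥ → commutator Q ≤ N)
    (p : ℕ) (hp : p.Prime) (hM : IsPGroup p (commutator Q)) (hM1 : commutator Q ≠ ⊥)
    (hMab : ∀ x ∈ commutator Q, ∀ y ∈ commutator Q, x * y = y * x)
    (hZ : Subgroup.center Q = ⊥) :
    ¬ p ∣ (commutator Q).index ∧
      ∀ g : Q, g ∉ commutator Q → ∀ x ∈ commutator Q, g * x = x * g → x = 1 := by
  have hfpf : ∀ g : Q, g ∉ commutator Q → ∀ x ∈ commutator Q, g * x = x * g → x = 1 := by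
    intro g hg
    rcases cd3f_dichotomy hmin hMab g with h | h
    · exact h
    · exact absurd (cd3f_centralizer_le hmin hM1 hMab hZ g h) hg
  refine ⟨?_, hfpf⟩
  intro hpd
  have hpF : Fact p.Prime := ⟨hp⟩
  have hMn : (commutator Q).Normal := inferInstance
  rw [Subgroup.index_eq_card] at hpd
  obtain ⟨gbar, hgbar⟩ := exists_prime_orderOf_dvd_card' p hpd
  obtain ⟨g, rfl⟩ := QuotientGroup.mk_surjective gbar
  have hgM : g ∉ commutator Q := by
    intro h
    have h1 : (g : Q ⧸ commutator Q) = 1 := (QuotientGroup.eq_one_iff g).2 h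
    rw [h1, orderOf_one] at hgbar
    exact hp.one_lt.ne hgbar
  have hgp : g ^ p ∈ commutator Q := by
    rw [← QuotientGroup.eq_one_iff, QuotientGroup.mk_pow]
    conv_lhs => rw [← hgbar]
    exact pow_orderOf_eq_one _
  have hgp1 : g ^ p = 1 := hfpf g hgM _ hgp (by rw [← pow_succ', ← pow_succ])
  classical
  let f : Function.End (commutator Q) := fun x => ⟨g * x.1 * g⁻¹, hMn.conj_mem x.1 x.2 g⟩
  have hfpow : ∀ (n : ℕ) (x : commutator Q),
      (((f ^ n) x : commutator Q) : Q) = g ^ n * x.1 * (g ^ n)⁻¹ := by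
    intro n
    induction n with
    | zero =>
      intro x
      rw [pow_zero, pow_zero, one_mul, inv_one, mul_one]
      rfl
    | succ n ih =>
      intro x
      rw [pow_succ]
      change (((f ^ n) (f x) : commutator Q) : Q) = _
      rw [ih (f x)]
      change g ^ n * (g * x.1 * g⁻¹) * (g ^ n)⁻¹ = _
      rw [pow_succ]
      group
  have hf : f ^ p ^ 1 = 1 := by
    funext x
    apply Subtype.ext
    rw [pow_one, hfpow p x, hgp1]
    simp only [one_mul, inv_one, mul_one]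
    rfl
  haveI : Fintype (commutator Q) := Fintype.ofFinite _
  have hmod := Equiv.Perm.card_fixedPoints_modEq (p := p) (n := 1) (f := f) hf
  have hpM : p ∣ Fintype.card (commutator Q) := by
    obtain ⟨k, hk⟩ := IsPGroup.iff_card.1 hM
    rw [← Nat.card_eq_fintype_card, hk]
    have hk0 : k ≠ 0 := by
      rintro rfl
      rw [pow_zero] at hk
      exact hM1 ((Subgroup.eq_bot_iff_card _).2 hk)
    exact dvd_pow_self p hk0
  have hfix0 : p ∣ Fintype.card (Function.fixedPoints f) :=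
    (Nat.modEq_zero_iff_dvd).1 (hmod.symm.trans (Nat.modEq_zero_iff_dvd.2 hpM))
  have h1fix : (1 : commutator Q) ∈ Function.fixedPoints f := by
    change f 1 = 1
    apply Subtype.ext
    change g * 1 * g⁻¹ = 1
    group
  have hpos : 0 < Fintype.card (Function.fixedPoints f) :=
    Fintype.card_pos_iff.2 ⟨⟨_, h1fix⟩⟩
  have hone : 1 < Fintype.card (Function.fixedPoints f) :=
    lt_of_lt_of_le hp.one_lt (Nat.le_of_dvd hpos hfix0)
  obtain ⟨c, hc⟩ := Fintype.exists_ne_of_one_lt_card hone ⟨_, h1fix⟩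
  have hcfix : g * c.1.1 * g⁻¹ = c.1.1 := congrArg Subtype.val c.2
  have hc1 : c.1.1 = 1 := hfpf g hgM c.1.1 c.1.2 (by
    calc g * c.1.1 = (g * c.1.1 * g⁻¹) * g := by group
      _ = c.1.1 * g := by rw [hcfix])
  apply hc
  apply Subtype.ext
  apply Subtype.ext
  exact hc1

end Cfsg.Agent.Helper51
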