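import Mathlib
import Cfsg.Agent.Helper13.SympBasis

/-!
# PIECE AltOdd of CALL S2700 (helper51): an alternating matrix of odd size is singular
(+ shared lemmas for PIECE AltCongr)
-/

set_option autoImplicit false

namespace Cfsg.Agent.Helper51

open Matrix

/-- A skew matrix with zero diagonal gives an alternating form (any characteristic). -/
theorem ga_alt_self {F : Type*} [Field F] {n : ℕ} (M : Matrix (Fin n) (Fin n) F)
    (hskew : Mᵀ = -M) (hdiag : ∀ i, M i i = 0) (v : Fin n → F) : v ⬝ᵥ (M *ᵥ v) = 0 := by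
  let A : Matrix (Fin n) (Fin n) F := Matrix.of fun i j => if i < j then M i j else 0
  have hA : ∀ i j, A i j = if i < j then M i j else 0 := fun _ _ => rfl
  have hMA : M = A - Aᵀ := by
    ext i j
    have hji : M j i = - M i j := by
      have := congrFun (congrFun hskew i) j
      rw [Matrix.transpose_apply, Matrix.neg_apply] at this
      exact this
    rw [Matrix.sub_apply, Matrix.transpose_apply, hA, hA]
    rcases lt_trichotomy i j with h | h | h
    · rw [if_pos h, if_neg (not_lt.2 h.le), sub_zero]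
    · subst h
      rw [if_neg (lt_irrefl _), sub_zero, hdiag]
    · rw [if_neg (not_lt.2 h.le), if_pos h, zero_sub, hji, neg_neg]
  rw [hMA, Matrix.sub_mulVec, dotProduct_sub, Matrix.dotProduct_mulVec v Aᵀ,
    Matrix.vecMul_transpose, dotProduct_comm (A *ᵥ v) v, sub_self]

/-- Antisymmetry of the form of a skew matrix. -/
theorem ga_alt_swap {F : Type*} [Field F] {n : ℕ} (M : Matrix (Fin n) (Fin n) F)
    (hskew : Mᵀ = -M) (u v : Fin n → F) : u ⬝ᵥ (M *ᵥ v) = -(v ⬝ᵥ (M *ᵥ u)) := by
  rw [Matrix.dotProduct_mulVec, ← Matrix.mulVec_transpose, hskew, Matrix.neg_mulVec,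
    neg_dotProduct, dotProduct_comm]

/-- A symplectic family for a nonsingular alternating matrix. -/
theorem ga_symp_family {F : Type*} [Field F] {n : ℕ} (M : Matrix (Fin n) (Fin n) F)
    (hdet : M.det ≠ 0) (hskew : Mᵀ = -M) (hdiag : ∀ i, M i i = 0) :
    ∃ (m : ℕ) (ef : Fin m ⊕ Fin m → (Fin n → F)), n = 2 * m ∧
      (∀ i j : Fin m, ef (Sum.inl i) ⬝ᵥ (M *ᵥ ef (Sum.inr j)) = if i = j then 1 else 0) ∧
      (∀ i j : Fin m, ef (Sum.inl i) ⬝ᵥ (M *ᵥ ef (Sum.inl j)) = 0) ∧
      (∀ i j : Fin m, ef (Sum.inr i) ⬝ᵥ (M *ᵥ ef (Sum.inr j)) = 0) := by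
  have hA : (Matrix.toBilin' M).IsAlt := by
    intro v
    rw [Matrix.toBilin'_apply']
    exact ga_alt_self M hskew hdiag v
  obtain ⟨m, k, b, h1, h2, h3, h4⟩ := Cfsg.Agent.Helper13.exists_symplectic_basis
    (Matrix.toBilin' M) hA
  have hk : k = 0 := by
    by_contra hk
    have hkpos : 0 < k := Nat.pos_of_ne_zero hk
    have hr := h4 ⟨0, hkpos⟩
    have hr0 : b (Sum.inr ⟨0, hkpos⟩) ᵥ* M = 0 := by
      funext i
      have := hr (Pi.single i 1)
      rw [Matrix.toBilin'_apply', Matrix.dotProduct_mulVec, dotProduct_single_one] at this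
      exact this
    exact b.ne_zero _ (Matrix.eq_zero_of_vecMul_eq_zero hdet hr0)
  have hn : n = 2 * m := by
    have h5 := Module.finrank_eq_card_basis b
    rw [Module.finrank_fin_fun, Fintype.card_sum, Fintype.card_sum, Fintype.card_fin,
      Fintype.card_fin, hk] at h5
    omega
  refine ⟨m, fun x => b (Sum.inl x), hn, ?_, ?_, ?_⟩
  · intro i j
    have := h1 i j
    rw [Matrix.toBilin'_apply'] at this
    exact this
  · intro i j
    have := h2 i j
    rw [Matrix.toBilin'_apply'] at this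
    exact this
  · intro i j
    have := h3 i j
    rw [Matrix.toBilin'_apply'] at this
    exact this

theorem alt_odd_det {F : Type*} [Field F] {n : ℕ} (hn : Odd n) (M : Matrix (Fin n) (Fin n) F)
    (hskew : Mᵀ = -M) (hdiag : ∀ i, M i i = 0) : M.det = 0 := by
  by_contra hdet
  obtain ⟨m, ef, h2m, -⟩ := ga_symp_family M hdet hskew hdiag
  rw [h2m] at hn
  exact (Nat.not_odd_iff_even.2 (even_two_mul m)) hn

end Cfsg.Agent.Helper51
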