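import Mathlib
import Cfsg.Agent.Helper51.GAAltOdd

/-!
# PIECE AltCongr of CALL S2700 (helper51): symplectic normal form of an alternating matrix
-/

set_option autoImplicit false

namespace Cfsg.Agent.Helper51

open Matrix

theorem alt_congr {F : Type*} [Field F] {n m : ℕ} (e : Fin m ⊕ Fin m ≃ Fin n)
    (M : Matrix (Fin n) (Fin n) F) (hdet : M.det ≠ 0) (hskew : Mᵀ = -M) (hdiag : ∀ i, M i i = 0) :
    ∃ k : GL (Fin n) F, (k : Matrix (Fin n) (Fin n) F)ᵀ * M * (k : Matrix (Fin n) (Fin n) F)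
      = Matrix.reindex e e (Matrix.J (Fin m) F) := by
  obtain ⟨m', ef, hn, h1, h2, h3⟩ := ga_symp_family M hdet hskew hdiag
  have hm : m' = m := by
    have h4 := Fintype.card_congr e
    rw [Fintype.card_sum, Fintype.card_fin, Fintype.card_fin] at h4
    omega
  subst hm
  -- the columns
  obtain ⟨c, hc⟩ : ∃ c : Fin n → (Fin n → F), ∀ x, c (e x) = ef (Sum.swap x) :=
    ⟨fun q => ef (Sum.swap (e.symm q)), fun x => by simp⟩
  obtain ⟨K, hK⟩ : ∃ K : Matrix (Fin n) (Fin n) F, ∀ i j, K i j = c j i :=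
    ⟨Matrix.of fun i j => c j i, fun _ _ => rfl⟩
  have hentry : ∀ p q, (Kᵀ * M * K) p q = c p ⬝ᵥ (M *ᵥ c q) := by
    intro p q
    simp only [Matrix.mul_apply, Matrix.transpose_apply, dotProduct, Matrix.mulVec,
      Finset.sum_mul, Finset.mul_sum, hK]
    rw [Finset.sum_comm]
    refine Finset.sum_congr rfl fun i _ => Finset.sum_congr rfl fun j _ => ?_
    ring
  have hmain : Kᵀ * M * K = Matrix.reindex e e (Matrix.J (Fin m') F) := by
    ext p q
    obtain ⟨x, rfl⟩ := e.surjective p
    obtain ⟨y, rfl⟩ := e.surjective q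
    rw [hentry, hc, hc]
    have hre : Matrix.reindex e e (Matrix.J (Fin m') F) (e x) (e y) = Matrix.J (Fin m') F x y := by
      simp [Matrix.reindex_apply, Matrix.submatrix_apply]
    rw [hre]
    rcases x with i | i <;> rcases y with j | j
    · -- (inl, inl): f f
      rw [Sum.swap_inl, Sum.swap_inl, h3]
      simp [Matrix.J]
    · -- (inl i, inr j): B (f_i) (e_j) = - δ
      rw [Sum.swap_inl, Sum.swap_inr, ga_alt_swap M hskew, h1]
      simp [Matrix.J, Matrix.one_apply, eq_comm]
    · -- (inr i, inl j): B (e_i) (f_j) = δ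
      rw [Sum.swap_inr, Sum.swap_inl, h1]
      simp [Matrix.J, Matrix.one_apply]
    · rw [Sum.swap_inr, Sum.swap_inr, h2]
      simp [Matrix.J]
  have hdetK : IsUnit K.det := by
    have h4 := congrArg Matrix.det hmain
    rw [Matrix.det_mul, Matrix.det_mul, Matrix.det_transpose, Matrix.det_reindex_self] at h4
    have h5 : (Matrix.J (Fin m') F).det ≠ 0 := by
      intro h0
      have := Matrix.J_det_mul_J_det (Fin m') F
      rw [h0, mul_zero] at this
      exact zero_ne_one this
    rw [isUnit_iff_ne_zero]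
    intro h0
    rw [h0, zero_mul, zero_mul] at h4
    exact h5 h4.symm
  refine ⟨⟨K, K⁻¹, Matrix.mul_nonsing_inv K hdetK, Matrix.nonsing_inv_mul K hdetK⟩, ?_⟩
  exact hmain

end Cfsg.Agent.Helper51
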