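import Mathlib
import Cfsg.Agent.Helper87.SFDefs

/-!
# CALL S2752 piece HYPER (helper51)
-/

set_option autoImplicit false

namespace Cfsg.Agent.Helper51

open Cfsg.Agent.Helper87.SF

/-- adjoin an element `t ∉ B` of the elementary abelian 2-group `A` to `B ≤ A`. -/
theorem sf_adjoin {G : Type*} [Group G] [Finite G] (A B : Subgroup G) (hA : EA2 A) (hB : B ≤ A)
    (t : G) (ht : t ∈ A) (htB : t ∉ B) :
    ∃ B' : Subgroup G, B ≤ B' ∧ B' ≤ A ∧ t ∈ B' ∧ Nat.card B' = 2 * Nat.card B ∧
      ∀ x ∈ B', x ∈ B ∨ t * x ∈ B := by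
  have htt : t * t = 1 := hA.2 t ht
  have hcomm : ∀ x ∈ A, t * x = x * t := fun x hx => hA.1 t ht x hx
  let B' : Subgroup G :=
    { carrier := {x | x ∈ A ∧ (x ∈ B ∨ t * x ∈ B)}
      one_mem' := ⟨A.one_mem, Or.inl B.one_mem⟩
      mul_mem' := by
        rintro x z ⟨hxA, hx⟩ ⟨hzA, hz⟩
        refine ⟨A.mul_mem hxA hzA, ?_⟩
        rcases hx with hx | hx <;> rcases hz with hz | hz
        · exact Or.inl (B.mul_mem hx hz)
        · right
          have h1 : t * (x * z) = x * (t * z) := by rw [← mul_assoc, hcomm x hxA, mul_assoc]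
          rw [h1]
          exact B.mul_mem hx hz
        · right
          rw [← mul_assoc]
          exact B.mul_mem hx hz
        · left
          have h1 : (t * x) * (t * z) = x * z := by
            rw [hcomm x hxA, mul_assoc, ← mul_assoc t t z, htt, one_mul]
          rw [← h1]
          exact B.mul_mem hx hz
      inv_mem' := by
        rintro x ⟨hxA, hx⟩
        refine ⟨A.inv_mem hxA, ?_⟩
        have hxinv : x⁻¹ = x := inv_eq_of_mul_eq_one_left (hA.2 x hxA)
        rw [hxinv]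
        exact hx }
  have htB' : t ∈ B' := ⟨ht, Or.inr (by rw [htt]; exact B.one_mem)⟩
  have hle : B ≤ B' := fun x hx => ⟨hB hx, Or.inl hx⟩
  refine ⟨B', hle, fun x hx => hx.1, htB', ?_, fun x hx => hx.2⟩
  have hidx : (B.subgroupOf B').index = 2 := by
    rw [Subgroup.index_eq_two_iff]
    refine ⟨⟨t, htB'⟩, ?_⟩
    rintro ⟨b, hbA, hb⟩
    simp only [Subgroup.mem_subgroupOf, Subgroup.coe_mul]
    by_cases hbB : b ∈ B
    · right
      refine ⟨hbB, fun h => htB ?_⟩
      have h1 := B.mul_mem (B.inv_mem hbB) h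
      rwa [inv_mul_cancel_left] at h1
    · left
      rcases hb with hb | hb
      · exact absurd hb hbB
      · exact ⟨by rw [← hcomm b hbA]; exact hb, hbB⟩
  have h1 := Subgroup.card_mul_index (B.subgroupOf B')
  rw [hidx, Nat.card_congr (Subgroup.subgroupOfEquivOfLe hle).toEquiv] at h1
  omega

/-- HYPER -/
theorem sf_hyper {G : Type*} [Group G] [Finite G] (A D : Subgroup G) (hA : EA2 A) (hD : D < A) :
    ∃ B : Subgroup G, D ≤ B ∧ B ≤ A ∧ Nat.card A = 2 * Nat.card B := by
  induction D using WellFoundedGT.induction with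
  | ind D ih =>
    obtain ⟨t, htA, htD⟩ := SetLike.exists_of_lt hD
    obtain ⟨D', hDD', hD'A, htD', hcard, _⟩ := sf_adjoin A D hA hD.le t htA htD
    rcases eq_or_lt_of_le hD'A with heq | hlt
    · exact ⟨D, le_rfl, hD.le, by rw [← heq, hcard]⟩
    · have hlt' : D < D' := lt_of_le_of_ne hDD' (fun h => htD (h ▸ htD'))
      obtain ⟨B, hB1, hB2, hB3⟩ := ih D' hlt' hlt
      exact ⟨B, hDD'.trans hB1, hB2, hB3⟩

end Cfsg.Agent.Helper51
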