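import Mathlib
import Cfsg.Agent.Helper87.SFDefs
import Cfsg.Agent.Helper51.SFHYPER

/-!
# CALL S2752 piece COMPL (helper51)
-/

set_option autoImplicit false

namespace Cfsg.Agent.Helper51

open Cfsg.Agent.Helper87.SF

/-- COMPL -/
theorem sf_compl {G : Type*} [Group G] [Finite G] (A D : Subgroup G) (hA : EA2 A) (hD : D ≤ A) :
    ∃ T : Subgroup G, T ≤ A ∧ D ⊓ T = ⊥ ∧ D ⊔ T = A ∧
      Nat.card D * Nat.card T = Nat.card A := by
  induction D using WellFoundedGT.induction with
  | ind D ih =>
    rcases eq_or_lt_of_le hD with heq | hlt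
    · exact ⟨⊥, bot_le, inf_bot_eq _, by rw [sup_bot_eq, heq],
        by rw [Subgroup.card_bot, mul_one, heq]⟩
    · obtain ⟨t, htA, htD⟩ := SetLike.exists_of_lt hlt
      obtain ⟨D', hDD', hD'A, htD', hcard, hD'⟩ := sf_adjoin A D hA hD t htA htD
      have hlt' : D < D' := lt_of_le_of_ne hDD' (fun h => htD (h ▸ htD'))
      obtain ⟨T', hT'A, hinf, hsup, hcard'⟩ := ih D' hlt' hD'A
      have htT' : t ∉ T' := by
        intro h
        have h1 : t ∈ D' ⊓ T' := ⟨htD', h⟩
        rw [hinf, Subgroup.mem_bot] at h1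
        exact htD (h1 ▸ D.one_mem)
      obtain ⟨T, hT'T, hTA, htT, hcardT, hT⟩ := sf_adjoin A T' hA hT'A t htA htT'
      have htt : t * t = 1 := hA.2 t htA
      refine ⟨T, hTA, ?_, ?_, ?_⟩
      · rw [eq_bot_iff]
        intro x hx
        obtain ⟨hxD, hxT⟩ := Subgroup.mem_inf.1 hx
        rw [Subgroup.mem_bot]
        rcases hT x hxT with h1 | h1
        · have h2 : x ∈ D' ⊓ T' := ⟨hDD' hxD, h1⟩
          rwa [hinf, Subgroup.mem_bot] at h2
        · exfalso
          have h2 : t * x ∈ D' ⊓ T' := ⟨D'.mul_mem htD' (hDD' hxD), h1⟩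
          rw [hinf, Subgroup.mem_bot] at h2
          apply htD
          have h3 : t = x⁻¹ := eq_inv_of_mul_eq_one_left h2
          rw [h3]
          exact D.inv_mem hxD
      · apply le_antisymm (sup_le hD hTA)
        rw [← hsup]
        apply sup_le
        · intro x hx
          rcases hD' x hx with h1 | h1
          · exact Subgroup.mem_sup_left h1
          · have h2 : x = t * (t * x) := by rw [← mul_assoc, htt, one_mul]
            rw [h2]
            exact Subgroup.mul_mem _ (Subgroup.mem_sup_right htT) (Subgroup.mem_sup_left h1)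
        · exact hT'T.trans le_sup_right
      · rw [hcardT, ← hcard', hcard]
        ring

end Cfsg.Agent.Helper51
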