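import Mathlib
import Cfsg.Prelude.Def_GeometricClasses
import Cfsg.Agent.Helper96.T5Defs

/-!
# CALL S5704 piece L6P (helper51)
-/

set_option autoImplicit false
set_option linter.unusedVariables false

namespace Cfsg.Agent.Helper51.T5L6P

open Matrix Cfsg Cfsg.Geo Cfsg.Agent.Helper71.T4 Cfsg.Agent.Helper96.T5
open scoped Kronecker

variable {F : Type*} [Field F] {a b : ℕ}

/-- two matrices with the same action on vectors are equal. -/
theorem ext_mulVec {n : ℕ} (M N : Matrix (Fin n) (Fin n) F) (h : ∀ w, M *ᵥ w = N *ᵥ w) :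
    M = N := by
  apply Matrix.toLin'.injective
  apply LinearMap.ext
  intro w
  rw [Matrix.toLin'_apply, Matrix.toLin'_apply]
  exact h w

/-- PIECE L6P: conjugating an alternating self-adjoint `A` by a transvection. -/
theorem l6p (J₁ : Matrix (Fin a) (Fin a) F) (A : Matrix (Fin a) (Fin a) F)
    (hself : ∀ x y, bf J₁ (A *ᵥ x) y = bf J₁ x (A *ᵥ y)) (hA : ∀ x, bf J₁ (A *ᵥ x) x = 0)
    (e : Fin a → F) (c : F) :
    tv J₁ e c * A * tv J₁ e (-c) - A = c • dm J₁ e (A *ᵥ e) := by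
  apply ext_mulVec
  intro w
  have h1 : tv J₁ e (-c) *ᵥ w = w + (-c * bf J₁ w e) • e := tv_mulVec _ _ _ _
  rw [Matrix.sub_mulVec, ← Matrix.mulVec_mulVec, ← Matrix.mulVec_mulVec, h1,
    Matrix.mulVec_add, Matrix.mulVec_smul, tv_mulVec, bf_add_left, bf_smul_left, hA e, mul_zero,
    add_zero, Matrix.smul_mulVec, dm_mulVec, hself w e]
  ext i
  simp only [Pi.add_apply, Pi.sub_apply, Pi.smul_apply, smul_eq_mul]
  ring

end Cfsg.Agent.Helper51.T5L6P
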