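import Mathlib
import Cfsg.Prelude.Def_GeometricClasses
import Cfsg.Agent.Helper96.T5Defs
import Cfsg.Agent.Helper4.T4CRCore

/-!
# CALL S5704 piece NSV (helper51)
-/

set_option autoImplicit false
set_option linter.unusedVariables false

namespace Cfsg.Agent.Helper51.T5NSV

open Matrix Cfsg Cfsg.Geo Cfsg.Agent.Helper71.T4 Cfsg.Agent.Helper96.T5
open scoped Kronecker

/-- PIECE NSV: a non-scalar matrix has a vector which is not an eigenvector. -/
theorem nsv {F : Type*} [Field F] {n : ℕ} (A : Matrix (Fin n) (Fin n) F)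
    (hA : ¬ ∃ c : F, A = c • (1 : Matrix (Fin n) (Fin n) F)) :
    ∃ e : Fin n → F, e ≠ 0 ∧ ∀ c : F, A *ᵥ e ≠ c • e := by
  have hn : 1 ≤ n := by
    rcases Nat.eq_zero_or_pos n with h0 | h0
    · subst h0
      exact absurd ⟨0, Subsingleton.elim _ _⟩ hA
    · exact h0
  obtain ⟨u, α, h1, h2⟩ := Cfsg.Agent.Helper4.T4CRCore.exists_of_not_scalar hn A hA
  refine ⟨u, ?_, ?_⟩
  · intro h
    rw [h, Matrix.mulVec_zero, dotProduct_zero] at h2
    exact zero_ne_one h2
  · intro c hc
    rw [hc, dotProduct_smul, h1, smul_zero] at h2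
    exact zero_ne_one h2

end Cfsg.Agent.Helper51.T5NSV
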