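import Mathlib
import Cfsg.Agent.Helper5.UnitSU

/-!
# CALL S5984 piece DET1 (helper51)
-/

set_option autoImplicit false
open Cfsg Matrix
open scoped MatrixGroups

namespace Cfsg.Agent.Helper51

universe u

variable {F : Type u} [Field F]

/-- DET1 -/
theorem bu_det_one [Fintype F] {q r k : ℕ} (hF : Fintype.card F = q ^ 2) (hr : r.Prime)
    (hrq : ¬ r ∣ q + 1) (a : GL (Fin k) F) (ha : a ∈ GU k F q) (har : a ^ r = 1) :
    (a : Matrix (Fin k) (Fin k) F).det = 1 := by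
  have h1 : (a : Matrix (Fin k) (Fin k) F).det ^ (q + 1) = 1 :=
    Cfsg.Agent.Helper5.det_pow_of_mem_GU hF a ha
  have h2 : (a : Matrix (Fin k) (Fin k) F).det ^ r = 1 := by
    rw [← Matrix.det_pow, ← Units.val_pow_eq_pow_val, har, Units.val_one, Matrix.det_one]
  have h3 : (a : Matrix (Fin k) (Fin k) F).det ^ Nat.gcd r (q + 1) = 1 := pow_gcd_eq_one.2 ⟨h2, h1⟩
  have h4 : Nat.gcd r (q + 1) = 1 := (Nat.Prime.coprime_iff_not_dvd hr).2 hrq
  rw [h4, pow_one] at h3
  exact h3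

end Cfsg.Agent.Helper51
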