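import Mathlib

/-!
# CALL S5984 piece NT (helper51)
-/

set_option autoImplicit false

namespace Cfsg.Agent.Helper51

/-- NT -/
theorem bu_nt {q r k j : ℕ} (hr : r.Prime) (hr2 : r ≠ 2) (hk : Odd k) (hrk : r ∣ q ^ k + 1)
    (hmin : ∀ i, Odd i → i < k → ¬ r ∣ q ^ i + 1) (hj0 : 0 < j) (hjk : j ≤ k)
    (hj : r ∣ q ^ (2 * j) - 1) : j = k := by
  by_contra hne
  have hlt : j < k := lt_of_le_of_ne hjk hne
  have : Fact r.Prime := ⟨hr⟩
  have : Fact (2 < r) := ⟨by have := hr.two_le; omega⟩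
  have hk0 : 0 < k := hk.pos
  have hq0 : 0 < q := by
    rcases Nat.eq_zero_or_pos q with h0 | h0
    · rw [h0, zero_pow hk0.ne', zero_add] at hrk
      exact absurd (Nat.dvd_one.1 hrk) hr.one_lt.ne'
    · exact h0
  obtain ⟨u, hu⟩ : ∃ u : ZMod r, u = (q : ZMod r) := ⟨_, rfl⟩
  have huk : u ^ k = -1 := by
    have h1 : ((q ^ k + 1 : ℕ) : ZMod r) = 0 := (ZMod.natCast_eq_zero_iff _ _).2 hrk
    push_cast at h1
    rw [← hu] at h1
    exact eq_neg_of_add_eq_zero_left h1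
  have hu2j : u ^ (2 * j) = 1 := by
    have h1 : ((q ^ (2 * j) - 1 : ℕ) : ZMod r) = 0 := (ZMod.natCast_eq_zero_iff _ _).2 hj
    have h2 : 1 ≤ q ^ (2 * j) := Nat.one_le_pow _ _ hq0
    rw [Nat.cast_sub h2] at h1
    push_cast at h1
    rw [← hu] at h1
    exact sub_eq_zero.1 h1
  have hu2k : u ^ (2 * k) = 1 := by
    rw [mul_comm, pow_mul, huk]
    norm_num
  have hg : u ^ Nat.gcd (2 * j) (2 * k) = 1 := pow_gcd_eq_one.2 ⟨hu2j, hu2k⟩
  rw [Nat.gcd_mul_left] at hg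
  have hgk : Nat.gcd j k ∣ k := Nat.gcd_dvd_right j k
  have hgodd : Odd (Nat.gcd j k) := hk.of_dvd_nat hgk
  have hglt : Nat.gcd j k < k :=
    lt_of_le_of_lt (Nat.le_of_dvd hj0 (Nat.gcd_dvd_left j k)) hlt
  have hsq : u ^ (Nat.gcd j k) * u ^ (Nat.gcd j k) = 1 := by
    rw [← pow_two, ← pow_mul, mul_comm]
    exact hg
  rcases mul_self_eq_one_iff.1 hsq with h1 | h1
  · obtain ⟨c, hc⟩ := hgk
    have h3 : u ^ k = 1 := by
      rw [hc, pow_mul, h1, one_pow]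
    rw [huk] at h3
    exact ZMod.neg_one_ne_one h3
  · apply hmin (Nat.gcd j k) hgodd hglt
    rw [← ZMod.natCast_eq_zero_iff]
    push_cast
    rw [← hu, h1]
    ring

end Cfsg.Agent.Helper51
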