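import Mathlib

set_option autoImplicit false

namespace Cfsg.Agent.Helper51

/-- A fixed point count: if `M / Z` is an `r`-group with `Z` central, `g` of order dividing `r`
normalises `M` and does not centralise it, then some commutator `u⁻¹ g u g⁻¹ ≠ 1` (`u ∈ M`)
commutes with `g`. -/
theorem c6e_fixed {G : Type*} [Group G] [Finite G] (M Z : Subgroup G) (hZM : Z ≤ M)
    (hZc : ∀ z ∈ Z, ∀ x : G, x * z = z * x) {r : ℕ} (hr : r.Prime)
    (hidx : ∃ k, Z.relIndex M = r ^ k) (g : G) (hgM : ∀ x, x ∈ M ↔ g * x * g⁻¹ ∈ M)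
    (hgr : g ^ r = 1) (hne : ∃ x ∈ M, x⁻¹ * g * x * g⁻¹ ≠ 1) :
    ∃ u ∈ M, u⁻¹ * g * u * g⁻¹ ≠ 1 ∧ Commute g (u⁻¹ * g * u * g⁻¹) := by
  classical
  have : Fact r.Prime := ⟨hr⟩
  obtain ⟨k, hk⟩ := hidx
  set Mc : Subgroup (MulAut G) := M.map (MulAut.conj : G →* MulAut G) with hMc
  have hZker : Z ≤ (MulAut.conj : G →* MulAut G).ker := by
    intro z hz
    rw [MonoidHom.mem_ker]
    ext x
    simp only [MulAut.conj_apply, MulAut.one_apply]
    rw [← hZc z hz x, mul_inv_cancel_right]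
  have hcard : Nat.card Mc ∣ r ^ k := by
    rw [hMc, ← Subgroup.relIndex_ker, ← hk]
    exact Subgroup.relIndex_dvd_of_le_left M hZker
  obtain ⟨j, -, hj⟩ := (Nat.dvd_prime_pow hr).1 hcard
  have hP : IsPGroup r Mc := IsPGroup.of_card hj
  have hOmem : ∀ c : G, c ∈ MulAction.orbit Mc g ↔ ∃ x ∈ M, c = x⁻¹ * g * x := by
    intro c
    constructor
    · rintro ⟨⟨φ, y, hy, rfl⟩, rfl⟩
      refine ⟨y⁻¹, M.inv_mem hy, ?_⟩
      change (MulAut.conj y) g = _
      simp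
    · rintro ⟨x, hx, rfl⟩
      refine ⟨⟨MulAut.conj x⁻¹, x⁻¹, M.inv_mem hx, rfl⟩, ?_⟩
      change (MulAut.conj x⁻¹) g = _
      simp
  obtain ⟨n, hn⟩ := hP.card_orbit g
  have hgO : g ∈ MulAction.orbit Mc g := MulAction.mem_orbit_self g
  -- the orbit has at least two points
  obtain ⟨x₀, hx₀M, hx₀⟩ := hne
  have hx₀O : x₀⁻¹ * g * x₀ ∈ MulAction.orbit Mc g := (hOmem _).2 ⟨x₀, hx₀M, rfl⟩
  have hx₀g : x₀⁻¹ * g * x₀ ≠ g := by
    intro h
    apply hx₀
    rw [h, mul_inv_cancel]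
  have hn0 : n ≠ 0 := by
    rintro rfl
    rw [pow_zero, Nat.card_eq_one_iff_unique] at hn
    obtain ⟨hsub, -⟩ := hn
    have := hsub.elim (⟨x₀⁻¹ * g * x₀, hx₀O⟩ : MulAction.orbit Mc g) ⟨g, hgO⟩
    exact hx₀g (congrArg Subtype.val this)
  have hrdvd : r ∣ Nat.card (MulAction.orbit Mc g) := by
    rw [hn]
    exact dvd_pow_self r hn0
  -- conjugation by g on the orbit
  have hinv : ∀ c : G, c ∈ MulAction.orbit Mc g → g * c * g⁻¹ ∈ MulAction.orbit Mc g := by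
    intro c hc
    obtain ⟨x, hx, rfl⟩ := (hOmem c).1 hc
    refine (hOmem _).2 ⟨g * x * g⁻¹, (hgM x).1 hx, ?_⟩
    group
  let f : Function.End (MulAction.orbit Mc g) := fun c => ⟨g * c.1 * g⁻¹, hinv c.1 c.2⟩
  have hfpow : ∀ (m : ℕ) (c : MulAction.orbit Mc g),
      (((f ^ m) c : MulAction.orbit Mc g) : G) = g ^ m * c.1 * (g ^ m)⁻¹ := by
    intro m
    induction m with
    | zero =>
      intro c
      rw [pow_zero, pow_zero, one_mul, inv_one, mul_one]
      rfl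
    | succ m ih =>
      intro c
      rw [pow_succ]
      change (((f ^ m) (f c) : MulAction.orbit Mc g) : G) = _
      rw [ih (f c)]
      change g ^ m * (g * c.1 * g⁻¹) * (g ^ m)⁻¹ = _
      rw [pow_succ]
      group
  have hf : f ^ r ^ 1 = 1 := by
    funext c
    apply Subtype.ext
    rw [pow_one, hfpow r c, hgr]
    simp only [one_mul, inv_one, mul_one]
    rfl
  haveI : Fintype (MulAction.orbit Mc g) := Fintype.ofFinite _
  have hmod := Equiv.Perm.card_fixedPoints_modEq (p := r) (n := 1) (f := f) hf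
  rw [← Nat.card_eq_fintype_card] at hmod
  have hfix0 : r ∣ Fintype.card (Function.fixedPoints f) :=
    (Nat.modEq_zero_iff_dvd).1 (hmod.symm.trans (Nat.modEq_zero_iff_dvd.2 hrdvd))
  have hgfix : (⟨g, hgO⟩ : MulAction.orbit Mc g) ∈ Function.fixedPoints f := by
    change f ⟨g, hgO⟩ = ⟨g, hgO⟩
    apply Subtype.ext
    change g * g * g⁻¹ = g
    group
  have hpos : 0 < Fintype.card (Function.fixedPoints f) :=
    Fintype.card_pos_iff.2 ⟨⟨_, hgfix⟩⟩
  have hone : 1 < Fintype.card (Function.fixedPoints f) :=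
    lt_of_lt_of_le hr.one_lt (Nat.le_of_dvd hpos hfix0)
  obtain ⟨c, hc⟩ := Fintype.exists_ne_of_one_lt_card hone ⟨_, hgfix⟩
  obtain ⟨u, huM, hu⟩ := (hOmem c.1.1).1 c.1.2
  have hcfix : g * c.1.1 * g⁻¹ = c.1.1 := congrArg Subtype.val c.2
  have hcg : c.1.1 ≠ g := by
    intro h
    apply hc
    apply Subtype.ext
    apply Subtype.ext
    exact h
  refine ⟨u, huM, ?_, ?_⟩
  · intro h
    apply hcg
    rw [hu]
    have := congrArg (· * g) h
    simpa using this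
  · rw [← hu]
    change g * (c.1.1 * g⁻¹) = c.1.1 * g⁻¹ * g
    rw [← mul_assoc, hcfix]
    group

end Cfsg.Agent.Helper51
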