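import Mathlib
import Cfsg.Agent.Helper20.IMMB

/-!
# CALL S5981 (helper98), PIECE NSQCONJ: `nsq_conj` (helper51)
-/

set_option autoImplicit false
set_option linter.unusedSectionVars false
open Matrix Polynomial

namespace Cfsg.Agent.Helper51.THNSQCONJ

variable {F : Type*} [Field F] [Fintype F]

/-- NSQCONJ -/
theorem nsq_conj {n : ℕ} (z : F) (hz : ¬ IsSquare z) (x y : Matrix (Fin n) (Fin n) F)
    (hx : x * x = z • (1 : Matrix (Fin n) (Fin n) F)) (hy : y * y = z • (1 : Matrix (Fin n) (Fin n) F)) :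
    ∃ h : GL (Fin n) F, x = (h : Matrix (Fin n) (Fin n) F) * y *
      ((h⁻¹ : GL (Fin n) F) : Matrix (Fin n) (Fin n) F) := by
  classical
  have hP : Irreducible (X ^ 2 - C z : F[X]) := by
    apply X_pow_sub_C_irreducible_of_prime Nat.prime_two
    intro b hb
    exact hz ⟨b, by rw [← hb, pow_two]⟩
  have hdeg : (X ^ 2 - C z : F[X]).natDegree = 2 := natDegree_X_pow_sub_C
  have hsq : ∀ w : Matrix (Fin n) (Fin n) F, w * w = z • 1 →
      ∀ v, Matrix.toLin' w (Matrix.toLin' w v) = z • v := by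
    intro w hw v
    rw [Matrix.toLin'_apply, Matrix.toLin'_apply, Matrix.mulVec_mulVec, hw, Matrix.smul_mulVec,
      Matrix.one_mulVec]
  have haev : ∀ w : Matrix (Fin n) (Fin n) F, w * w = z • 1 →
      aeval (Matrix.toLin' w) (X ^ 2 - C z : F[X]) = 0 := by
    intro w hw
    rw [map_sub, map_pow, aeval_X, aeval_C]
    apply LinearMap.ext
    intro v
    rw [LinearMap.sub_apply, pow_two, Module.End.mul_apply, hsq w hw v, LinearMap.zero_apply,
      Module.algebraMap_end_apply, sub_self]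
  obtain ⟨s, b, hb⟩ := Cfsg.Agent.Helper20.cyc_basis (Matrix.toLin' x) _ hP (haev x hx) 2 hdeg
    (by norm_num)
  obtain ⟨s', b', hb'⟩ := Cfsg.Agent.Helper20.cyc_basis (Matrix.toLin' y) _ hP (haev y hy) 2 hdeg
    (by norm_num)
  have hs : s = s' := by
    have h1 := Module.finrank_eq_card_basis b
    have h2 := Module.finrank_eq_card_basis b'
    rw [h1] at h2
    simp only [Fintype.card_prod, Fintype.card_fin] at h2
    omega
  subst hs
  have hb1 : ∀ j, b (j, 1) = Matrix.toLin' x (b (j, 0)) := by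
    intro j
    have h1 := hb j 1
    rw [h1]
    rfl
  have hb1' : ∀ j, b' (j, 1) = Matrix.toLin' y (b' (j, 0)) := by
    intro j
    have h1 := hb' j 1
    rw [h1]
    rfl
  have hL : ∀ p, (b'.equiv b (Equiv.refl _)) (b' p) = b p := fun p => by
    rw [Module.Basis.equiv_apply]
    rfl
  have hcomm : (b'.equiv b (Equiv.refl _)).toLinearMap ∘ₗ Matrix.toLin' y
      = Matrix.toLin' x ∘ₗ (b'.equiv b (Equiv.refl _)).toLinearMap := by
    apply b'.ext
    rintro ⟨j, i⟩
    rw [LinearMap.comp_apply, LinearMap.comp_apply, LinearEquiv.coe_coe]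
    fin_cases i
    · show (b'.equiv b (Equiv.refl _)) (Matrix.toLin' y (b' (j, 0)))
        = Matrix.toLin' x ((b'.equiv b (Equiv.refl _)) (b' (j, 0)))
      rw [← hb1' j, hL, hL, hb1]
    · show (b'.equiv b (Equiv.refl _)) (Matrix.toLin' y (b' (j, 1)))
        = Matrix.toLin' x ((b'.equiv b (Equiv.refl _)) (b' (j, 1)))
      rw [hb1' j, hsq y hy, map_smul, hL, ← hb1' j, hL, hb1 j, hsq x hx]
  have hh1 : LinearMap.toMatrix' (b'.equiv b (Equiv.refl _)).toLinearMap
      * LinearMap.toMatrix' (b'.equiv b (Equiv.refl _)).symm.toLinearMap = 1 := by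
    rw [← LinearMap.toMatrix'_comp, LinearEquiv.comp_symm, LinearMap.toMatrix'_id]
  have hh2 : LinearMap.toMatrix' (b'.equiv b (Equiv.refl _)).symm.toLinearMap
      * LinearMap.toMatrix' (b'.equiv b (Equiv.refl _)).toLinearMap = 1 := by
    rw [← LinearMap.toMatrix'_comp, LinearEquiv.symm_comp, LinearMap.toMatrix'_id]
  have hxh : x * LinearMap.toMatrix' (b'.equiv b (Equiv.refl _)).toLinearMap
      = LinearMap.toMatrix' (b'.equiv b (Equiv.refl _)).toLinearMap * y := by
    apply Matrix.toLin'.injective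
    rw [Matrix.toLin'_mul, Matrix.toLin'_mul, Matrix.toLin'_toMatrix', hcomm]
  refine ⟨⟨_, _, hh1, hh2⟩, ?_⟩
  show x = LinearMap.toMatrix' (b'.equiv b (Equiv.refl _)).toLinearMap * y
    * LinearMap.toMatrix' (b'.equiv b (Equiv.refl _)).symm.toLinearMap
  rw [← hxh, mul_assoc, hh1, mul_one]

end Cfsg.Agent.Helper51.THNSQCONJ
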