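import Mathlib
import Cfsg.Prelude.Def_GeometricClasses
import Cfsg.Prelude.Def_LieTypeDatum
import Cfsg.Agent.Helper73.GBOddBlock
import Cfsg.Agent.Helper73.GBOddKer
import Cfsg.Agent.Helper10.GBOddSurj

/-!
# PIECE OddIso of CALL S2699 (helper51): in characteristic 2 the projective similarity group of
the odd-dimensional quadratic form is the symplectic group (assembly of OddBlock, OddKer, OddSurj).
-/

set_option autoImplicit false

namespace Cfsg.Agent.Helper51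

open Matrix Module

theorem pgoOdd_iso_sp {F : Type*} [Field F] [Finite F] (h2 : (2 : F) = 0) (m : ℕ) :
    Nonempty (Cfsg.PGO F (Cfsg.quadFormOdd m F) ≃* ↥(Matrix.symplecticGroup (Fin m) F)) := by
  set H : Subgroup (GL (Unit ⊕ (Fin m ⊕ Fin m)) F) :=
    Cfsg.Geo.quadSimilarityGroup (Cfsg.quadFormOdd m F) with hHdef
  have hstruct : ∀ g : GL (Unit ⊕ (Fin m ⊕ Fin m)) F, g ∈ H →
      g.val.toBlocks₂₁ = 0 ∧
        g.val (Sum.inl ()) (Sum.inl ()) ≠ 0 ∧
        (g.val (Sum.inl ()) (Sum.inl ()))⁻¹ • g.val.toBlocks₂₂ ∈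
          Matrix.symplecticGroup (Fin m) F := fun g hg =>
    Cfsg.Agent.Helper73.oddSim_block h2 m g hg
  have htri : ∀ g : GL (Unit ⊕ (Fin m ⊕ Fin m)) F, g ∈ H →
      g.val = Matrix.fromBlocks g.val.toBlocks₁₁ g.val.toBlocks₁₂ 0
        g.val.toBlocks₂₂ := by
    intro g hg
    obtain ⟨h1, -, -⟩ := hstruct g hg
    conv_lhs => rw [← Matrix.fromBlocks_toBlocks g.val, h1]
  -- the homomorphism
  let φ : ↥H → ↥(Matrix.symplecticGroup (Fin m) F) := fun g =>
    ⟨(g.1.val (Sum.inl ()) (Sum.inl ()))⁻¹ •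
      g.1.val.toBlocks₂₂, (hstruct g.1 g.2).2.2⟩
  have hφ : ∀ g : ↥H, (φ g).1 =
      (g.1.val (Sum.inl ()) (Sum.inl ()))⁻¹ •
        g.1.val.toBlocks₂₂ := fun _ => rfl
  have hmul : ∀ g g' : ↥H, φ (g * g') = φ g * φ g' := by
    intro g g'
    apply Subtype.ext
    rw [Submonoid.coe_mul, hφ, hφ, hφ]
    have e1 := htri g.1 g.2
    have e2 := htri g'.1 g'.2
    have e3 : (g * g').1.val =
        Matrix.fromBlocks
          (g.1.val.toBlocks₁₁ * g'.1.val.toBlocks₁₁)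
          (g.1.val.toBlocks₁₁ * g'.1.val.toBlocks₁₂ + g.1.val.toBlocks₁₂ * g'.1.val.toBlocks₂₂)
          0
          (g.1.val.toBlocks₂₂ * g'.1.val.toBlocks₂₂) := by
      rw [Subgroup.coe_mul, Units.val_mul]
      conv_lhs => rw [e1, e2, Matrix.fromBlocks_multiply]
      simp
    rw [e3, Matrix.toBlocks_fromBlocks₂₂, Matrix.fromBlocks_apply₁₁, Matrix.mul_apply,
      Fintype.sum_unique, Matrix.smul_mul, Matrix.mul_smul, smul_smul, mul_inv]
    rfl
  let Φ : ↥H →* ↥(Matrix.symplecticGroup (Fin m) F) := MonoidHom.mk' φ hmul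
  have hΦ : ∀ g : ↥H, (Φ g).1 =
      (g.1.val (Sum.inl ()) (Sum.inl ()))⁻¹ •
        g.1.val.toBlocks₂₂ := fun _ => rfl
  -- surjective
  have hsurj : Function.Surjective Φ := by
    intro s
    obtain ⟨g₀, hmem, h00, h22⟩ := Cfsg.Agent.Helper10.oddSim_surj h2 m s.1 s.2
    refine ⟨⟨g₀, hmem⟩, ?_⟩
    apply Subtype.ext
    rw [hΦ]
    show (g₀.val (Sum.inl ()) (Sum.inl ()))⁻¹ • g₀.val.toBlocks₂₂ = _
    rw [show g₀.val (Sum.inl ()) (Sum.inl ()) = 1 from h00,
      show g₀.val.toBlocks₂₂ = s.1 from h22, inv_one, one_smul]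
  -- kernel
  have hker : Φ.ker = (Cfsg.Geo.scalars (Unit ⊕ (Fin m ⊕ Fin m)) F).subgroupOf H := by
    ext g
    rw [MonoidHom.mem_ker, Subgroup.mem_subgroupOf, Cfsg.Geo.mem_scalars_iff]
    obtain ⟨-, ha0, -⟩ := hstruct g.1 g.2
    constructor
    · intro h
      have h1 := congrArg Subtype.val h
      rw [hΦ] at h1
      have h3 : g.1.val.toBlocks₂₂ =
          (g.1.val (Sum.inl ()) (Sum.inl ())) • (1 : Matrix (Fin m ⊕ Fin m) (Fin m ⊕ Fin m) F) := by
        have h4 := congrArg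
          (fun X => (g.1.val (Sum.inl ()) (Sum.inl ())) • X) h1
        simp only [smul_smul, mul_inv_cancel₀ ha0, one_smul] at h4
        exact h4
      refine ⟨Units.mk0 _ ha0, ?_⟩
      rw [Units.val_mk0]
      exact Cfsg.Agent.Helper73.oddSim_ker h2 m g.1 g.2 h3
    · rintro ⟨c, hc⟩
      apply Subtype.ext
      rw [hΦ, hc]
      have h6 : ((c : F) • (1 : Matrix (Unit ⊕ (Fin m ⊕ Fin m)) (Unit ⊕ (Fin m ⊕ Fin m)) F)).toBlocks₂₂
          = (c : F) • (1 : Matrix (Fin m ⊕ Fin m) (Fin m ⊕ Fin m) F) := by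
        ext i j
        simp [Matrix.toBlocks₂₂, Matrix.one_apply]
      rw [h6, Matrix.smul_apply, Matrix.one_apply_eq, smul_eq_mul, mul_one, smul_smul,
        inv_mul_cancel₀ c.ne_zero, one_smul]
      rfl
  exact ⟨(QuotientGroup.quotientMulEquivOfEq hker.symm).trans
    (QuotientGroup.quotientKerEquivOfSurjective Φ hsurj)⟩

end Cfsg.Agent.Helper51
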