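import Mathlib
import Cfsg.Prelude.Def_GeometricClasses
import Cfsg.Prelude.Def_LieTypeDatum
import Cfsg.Agent.Helper41.GABilSim

/-!
# PIECE SimDSp of CALL S2699 (helper51): the similarity group of `x₀y₀ + xᵀJy` modulo scalars
is the symplectic group.
-/

set_option autoImplicit false

namespace Cfsg.Agent.Helper51

open Matrix

/-- `J` is alternating. -/
theorem gb_J_alt {F : Type*} [Field F] (m : ℕ) (x : Fin m ⊕ Fin m → F) :
    x ⬝ᵥ (Matrix.J (Fin m) F *ᵥ x) = 0 := by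
  have h1 : Matrix.J (Fin m) F *ᵥ x = Sum.elim (-(x ∘ Sum.inr)) (x ∘ Sum.inl) := by
    rw [Matrix.J, Matrix.fromBlocks_mulVec]
    simp only [Matrix.zero_mulVec, Matrix.neg_mulVec, Matrix.one_mulVec, zero_add, add_zero]
  rw [h1, dotProduct, Fintype.sum_sum_type, ← Finset.sum_add_distrib]
  apply Finset.sum_eq_zero
  intro i _
  simp only [Sum.elim_inl, Sum.elim_inr, Pi.neg_apply, Function.comp_apply]
  ring

theorem gb_congr_entry {F : Type*} [Field F] {κ κ' : Type*} [Fintype κ] [Fintype κ']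
    (S : Matrix κ κ' F) (G : Matrix κ κ F) (p q : κ') :
    (Sᵀ * G * S) p q = (fun i => S i p) ⬝ᵥ (G *ᵥ (fun i => S i q)) := by
  simp only [Matrix.mul_apply, Matrix.transpose_apply, dotProduct, Matrix.mulVec,
    Finset.sum_mul, Finset.mul_sum]
  rw [Finset.sum_comm]
  refine Finset.sum_congr rfl fun i _ => Finset.sum_congr rfl fun j _ => ?_
  ring

theorem gb_J_det_ne {F : Type*} [Field F] (m : ℕ) : (Matrix.J (Fin m) F).det ≠ 0 := by
  intro h0
  have := Matrix.J_det_mul_J_det (Fin m) F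
  rw [h0, mul_zero] at this
  exact zero_ne_one this

theorem gb_D_det_ne {F : Type*} [Field F] (m : ℕ) :
    (Matrix.fromBlocks (1 : Matrix Unit Unit F) 0 0 (Matrix.J (Fin m) F)).det ≠ 0 := by
  rw [Matrix.det_fromBlocks_zero₂₁, Matrix.det_one, one_mul]
  exact gb_J_det_ne m

/-- Structure of the similarities of `D = 1 ⊕ J`. -/
theorem gb_simD_struct {F : Type*} [Field F] (m : ℕ)
    (g : Matrix (Unit ⊕ (Fin m ⊕ Fin m)) (Unit ⊕ (Fin m ⊕ Fin m)) F) (hgdet : g.det ≠ 0) (c : F)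
    (h : gᵀ * Matrix.fromBlocks (1 : Matrix Unit Unit F) 0 0 (Matrix.J (Fin m) F) * g =
      c • Matrix.fromBlocks (1 : Matrix Unit Unit F) 0 0 (Matrix.J (Fin m) F)) :
    g.toBlocks₁₂ = 0 ∧ g.toBlocks₂₁ = 0 ∧ g (Sum.inl ()) (Sum.inl ()) ≠ 0 ∧
      (g (Sum.inl ()) (Sum.inl ()))⁻¹ • g.toBlocks₂₂ ∈ Matrix.symplecticGroup (Fin m) F := by
  have hc : c ≠ 0 := by
    rintro rfl
    rw [zero_smul] at h
    have h1 := congrArg Matrix.det h
    rw [Matrix.det_mul, Matrix.det_mul, Matrix.det_transpose, Matrix.det_zero] at h1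
    exact mul_ne_zero (mul_ne_zero hgdet (gb_D_det_ne m)) hgdet h1
  obtain ⟨A, hA⟩ : ∃ A, A = g.toBlocks₁₁ := ⟨_, rfl⟩
  obtain ⟨B, hB⟩ : ∃ B, B = g.toBlocks₁₂ := ⟨_, rfl⟩
  obtain ⟨C, hC⟩ : ∃ C, C = g.toBlocks₂₁ := ⟨_, rfl⟩
  obtain ⟨S, hS⟩ : ∃ S, S = g.toBlocks₂₂ := ⟨_, rfl⟩
  have hg : g = Matrix.fromBlocks A B C S := by
    rw [hA, hB, hC, hS, Matrix.fromBlocks_toBlocks]
  have ha : g (Sum.inl ()) (Sum.inl ()) = A () () := by rw [hA]; rfl
  rw [← hB, ← hC, ← hS, ha]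
  rw [hg, Matrix.fromBlocks_transpose, Matrix.fromBlocks_multiply, Matrix.fromBlocks_multiply,
    Matrix.fromBlocks_smul, Matrix.fromBlocks_inj] at h
  simp only [Matrix.mul_one, Matrix.mul_zero, add_zero, zero_add, smul_zero] at h
  obtain ⟨h11, h12, h21, h22⟩ := h
  -- B = 0
  have hB0 : B = 0 := by
    ext u j
    have h1 := congrFun (congrFun h22 j) j
    rw [Matrix.add_apply, gb_congr_entry, gb_J_alt, add_zero, Matrix.smul_apply] at h1
    have hJ : Matrix.J (Fin m) F j j = 0 := by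
      rcases j with i | i <;> simp [Matrix.J]
    rw [hJ, smul_zero, Matrix.mul_apply, Fintype.sum_unique, Matrix.transpose_apply] at h1
    have h2 : B default j = 0 := mul_self_eq_zero.1 h1
    have hu : u = default := Subsingleton.elim _ _
    rw [hu, h2]
    rfl
  rw [hB0] at h12 h22
  simp only [Matrix.transpose_zero, Matrix.zero_mul, Matrix.mul_zero, zero_add] at h12 h22
  -- S invertible
  have hSdet : S.det ≠ 0 := by
    intro h0
    have h1 := congrArg Matrix.det h22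
    rw [Matrix.det_mul, Matrix.det_mul, h0, mul_zero, Matrix.det_smul] at h1
    exact mul_ne_zero (pow_ne_zero _ hc) (gb_J_det_ne m) h1.symm
  have hSu : IsUnit S.det := isUnit_iff_ne_zero.2 hSdet
  -- C = 0
  have hC0 : C = 0 := by
    have h1 : Cᵀ * Matrix.J (Fin m) F = 0 := by
      have h2 := congrArg (fun X => X * S⁻¹) h12
      simp only [Matrix.zero_mul] at h2
      rw [Matrix.mul_assoc, Matrix.mul_nonsing_inv S hSu, Matrix.mul_one] at h2
      exact h2
    have h3 : Cᵀ = 0 := by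
      have h4 := congrArg (fun X => X * (-Matrix.J (Fin m) F)) h1
      simp only [Matrix.zero_mul] at h4
      rw [Matrix.mul_assoc, Matrix.mul_neg, Matrix.J_squared, neg_neg, Matrix.mul_one] at h4
      exact h4
    exact Matrix.transpose_eq_zero.1 h3
  rw [hC0] at h11
  simp only [Matrix.transpose_zero, Matrix.zero_mul, Matrix.mul_zero, add_zero] at h11
  have haa : A () () * A () () = c := by
    have h1 := congrFun (congrFun h11 ()) ()
    rw [Matrix.mul_apply, Fintype.sum_unique, Matrix.transpose_apply, Matrix.smul_apply,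
      Matrix.one_apply_eq, smul_eq_mul, mul_one] at h1
    exact h1
  have ha0 : A () () ≠ 0 := by
    intro h0
    rw [h0, mul_zero] at haa
    exact hc haa.symm
  refine ⟨hB0, hC0, ha0, ?_⟩
  rw [SymplecticGroup.mem_iff', Matrix.transpose_smul, Matrix.smul_mul, Matrix.smul_mul,
    Matrix.mul_smul, smul_smul, h22, smul_smul, ← haa]
  have : (A () ())⁻¹ * (A () ())⁻¹ * (A () () * A () ()) = 1 := by
    field_simp
  rw [this, one_smul]

theorem gb_simD_iso {F : Type*} [Field F] (m : ℕ)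
    (H : Subgroup (GL (Unit ⊕ (Fin m ⊕ Fin m)) F))
    (hH : ∀ g : GL (Unit ⊕ (Fin m ⊕ Fin m)) F, g ∈ H ↔ ∃ c : F,
      g.valᵀ * Matrix.fromBlocks (1 : Matrix Unit Unit F) 0 0 (Matrix.J (Fin m) F) *
        g.val =
      c • Matrix.fromBlocks (1 : Matrix Unit Unit F) 0 0 (Matrix.J (Fin m) F)) :
    Nonempty (Cfsg.projQuot H ≃* ↥(Matrix.symplecticGroup (Fin m) F)) := by
  have hstruct : ∀ g : GL (Unit ⊕ (Fin m ⊕ Fin m)) F, g ∈ H →
      g.val.toBlocks₁₂ = 0 ∧ g.val.toBlocks₂₁ = 0 ∧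
        g.val (Sum.inl ()) (Sum.inl ()) ≠ 0 ∧
        (g.val (Sum.inl ()) (Sum.inl ()))⁻¹ • g.val.toBlocks₂₂ ∈
          Matrix.symplecticGroup (Fin m) F := by
    intro g hg
    obtain ⟨c, hc⟩ := (hH g).1 hg
    have hgdet : g.val.det ≠ 0 := by
      have := (Matrix.isUnit_iff_isUnit_det _).1 g.isUnit
      exact this.ne_zero
    exact gb_simD_struct m _ hgdet c hc
  have hdiag : ∀ g : GL (Unit ⊕ (Fin m ⊕ Fin m)) F, g ∈ H →
      g.val = Matrix.fromBlocks g.val.toBlocks₁₁ 0 0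
        g.val.toBlocks₂₂ := by
    intro g hg
    obtain ⟨h1, h2, -, -⟩ := hstruct g hg
    conv_lhs => rw [← Matrix.fromBlocks_toBlocks g.val, h1, h2]
  -- the homomorphism
  let φ : ↥H → ↥(Matrix.symplecticGroup (Fin m) F) := fun g =>
    ⟨(g.1.val (Sum.inl ()) (Sum.inl ()))⁻¹ •
      g.1.val.toBlocks₂₂, (hstruct g.1 g.2).2.2.2⟩
  have hφ : ∀ g : ↥H, (φ g).1 =
      (g.1.val (Sum.inl ()) (Sum.inl ()))⁻¹ •
        g.1.val.toBlocks₂₂ := fun _ => rfl
  have hmul : ∀ g g' : ↥H, φ (g * g') = φ g * φ g' := by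
    intro g g'
    apply Subtype.ext
    rw [Submonoid.coe_mul, hφ, hφ, hφ]
    have e1 := hdiag g.1 g.2
    have e2 := hdiag g'.1 g'.2
    have e3 : (g * g').1.val =
        Matrix.fromBlocks
          (g.1.val.toBlocks₁₁ * g'.1.val.toBlocks₁₁)
          0 0
          (g.1.val.toBlocks₂₂ * g'.1.val.toBlocks₂₂) := by
      rw [Subgroup.coe_mul, Units.val_mul]
      conv_lhs => rw [e1, e2, Matrix.fromBlocks_multiply]
      simp
    rw [e3, Matrix.toBlocks_fromBlocks₂₂, Matrix.fromBlocks_apply₁₁, Matrix.mul_apply,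
      Fintype.sum_unique, Matrix.smul_mul, Matrix.mul_smul, smul_smul, mul_inv]
    rfl
  let Φ : ↥H →* ↥(Matrix.symplecticGroup (Fin m) F) := MonoidHom.mk' φ hmul
  have hΦ : ∀ g : ↥H, (Φ g).1 =
      (g.1.val (Sum.inl ()) (Sum.inl ()))⁻¹ •
        g.1.val.toBlocks₂₂ := fun _ => rfl
  -- surjective
  have hsurj : Function.Surjective Φ := by
    intro s
    have hsdet : IsUnit (Matrix.fromBlocks (1 : Matrix Unit Unit F) 0 0
        s.1).det := by
      rw [Matrix.det_fromBlocks_zero₂₁, Matrix.det_one, one_mul]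
      exact SymplecticGroup.symplectic_det s.2
    let g₀ : GL (Unit ⊕ (Fin m ⊕ Fin m)) F :=
      ⟨Matrix.fromBlocks (1 : Matrix Unit Unit F) 0 0 s.1,
        (Matrix.fromBlocks (1 : Matrix Unit Unit F) 0 0 s.1)⁻¹,
        Matrix.mul_nonsing_inv _ hsdet, Matrix.nonsing_inv_mul _ hsdet⟩
    have hg₀ : g₀.val = Matrix.fromBlocks (1 : Matrix Unit Unit F) 0 0
        s.1 := rfl
    have hmem : g₀ ∈ H := by
      rw [hH]
      refine ⟨1, ?_⟩
      rw [hg₀, Matrix.fromBlocks_transpose, Matrix.fromBlocks_multiply, Matrix.fromBlocks_multiply,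
        one_smul]
      have hs := SymplecticGroup.mem_iff'.1 s.2
      simp [hs]
    refine ⟨⟨g₀, hmem⟩, ?_⟩
    apply Subtype.ext
    rw [hΦ]
    show (g₀.val (Sum.inl ()) (Sum.inl ()))⁻¹ • g₀.val.toBlocks₂₂ = _
    rw [hg₀, Matrix.toBlocks_fromBlocks₂₂, Matrix.fromBlocks_apply₁₁, Matrix.one_apply_eq,
      inv_one, one_smul]
  -- kernel
  have hker : Φ.ker = (Cfsg.Geo.scalars (Unit ⊕ (Fin m ⊕ Fin m)) F).subgroupOf H := by
    ext g
    rw [MonoidHom.mem_ker, Subgroup.mem_subgroupOf, Cfsg.Geo.mem_scalars_iff]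
    obtain ⟨-, -, ha0, -⟩ := hstruct g.1 g.2
    have e1 := hdiag g.1 g.2
    constructor
    · intro h
      have h1 := congrArg Subtype.val h
      rw [hΦ] at h1
      have h3 : g.1.val.toBlocks₂₂ =
          (g.1.val (Sum.inl ()) (Sum.inl ())) • (1 : Matrix (Fin m ⊕ Fin m) (Fin m ⊕ Fin m) F) := by
        have h4 := congrArg
          (fun X => (g.1.val (Sum.inl ()) (Sum.inl ())) • X) h1
        simp only [smul_smul, mul_inv_cancel₀ ha0, one_smul] at h4
        exact h4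
      refine ⟨Units.mk0 _ ha0, ?_⟩
      rw [Units.val_mk0]
      have h5 : g.1.val.toBlocks₁₁ =
          (g.1.val (Sum.inl ()) (Sum.inl ())) • (1 : Matrix Unit Unit F) := by
        ext u v
        simp [Matrix.toBlocks₁₁]
      have e1' : g.1.val = Matrix.fromBlocks
          ((g.1.val (Sum.inl ()) (Sum.inl ())) • (1 : Matrix Unit Unit F)) 0 0
          ((g.1.val (Sum.inl ()) (Sum.inl ())) • (1 : Matrix (Fin m ⊕ Fin m) (Fin m ⊕ Fin m) F)) := by
        rw [← h3, ← h5]; exact e1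
      rw [← Matrix.fromBlocks_one, Matrix.fromBlocks_smul, smul_zero, smul_zero]
      exact e1'
    · rintro ⟨c, hc⟩
      apply Subtype.ext
      rw [hΦ, hc]
      have h6 : ((c : F) • (1 : Matrix (Unit ⊕ (Fin m ⊕ Fin m)) (Unit ⊕ (Fin m ⊕ Fin m)) F)).toBlocks₂₂
          = (c : F) • (1 : Matrix (Fin m ⊕ Fin m) (Fin m ⊕ Fin m) F) := by
        ext i j
        simp [Matrix.toBlocks₂₂, Matrix.one_apply]
      rw [h6, Matrix.smul_apply, Matrix.one_apply_eq, smul_eq_mul, mul_one, smul_smul,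
        inv_mul_cancel₀ c.ne_zero, one_smul]
      rfl
  exact ⟨(QuotientGroup.quotientMulEquivOfEq hker.symm).trans
    (QuotientGroup.quotientKerEquivOfSurjective Φ hsurj)⟩

theorem simD_iso_sp {F : Type*} [Field F] [Finite F] (h2 : (2 : F) = 0) (m : ℕ) :
    Nonempty (Cfsg.projQuot (Cfsg.Geo.similarityGroup
      (fun u v : Unit ⊕ (Fin m ⊕ Fin m) → F =>
        u ⬝ᵥ (Matrix.fromBlocks (1 : Matrix Unit Unit F) 0 0 (Matrix.J (Fin m) F) *ᵥ v)))
      ≃* ↥(Matrix.symplecticGroup (Fin m) F)) :=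
  gb_simD_iso m _ (fun g => Cfsg.Agent.Helper41.mem_sim_iff _ (gb_D_det_ne m) g)

end Cfsg.Agent.Helper51
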