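import Mathlib
import Cfsg.Agent.Helper43.OrthEven

/-!
# PIECE SumSqPlus of CALL S2700 (helper51): a totally singular subspace for a sum of squares
-/

set_option autoImplicit false

namespace Cfsg.Agent.Helper51

open Module Cfsg.Agent.Helper43 Cfsg.Agent.Helper43.OrthEven

theorem ga_hasTS_of_neg_isom {F : Type*} [Field F] {κ : Type*} [Fintype κ] [DecidableEq κ]
    {ι : Type} [Fintype ι] (hκ : Fintype.card κ = 2 * Fintype.card ι)
    (Q : QuadraticForm F (κ → F)) (c : F) (hQ : ∀ v, Q v = c * ∑ i, v i ^ 2)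
    (N : (ι → F) →ₗ[F] (ι → F)) (hN : ∀ z, ∑ i, (N z i) ^ 2 = - ∑ i, z i ^ 2) :
    HasTS Q (Fintype.card ι) := by
  classical
  have hcard : Fintype.card (ι ⊕ ι) = Fintype.card κ := by
    rw [Fintype.card_sum, hκ]
    ring
  let ε : ι ⊕ ι ≃ κ := Fintype.equivOfCardEq hcard
  let L : (ι → F) →ₗ[F] (κ → F) :=
    { toFun := fun z q => Sum.elim z (N z) (ε.symm q)
      map_add' := fun z z' => by
        funext q
        rcases h : ε.symm q with j | j <;> simp [h]
      map_smul' := fun a z => by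
        funext q
        rcases h : ε.symm q with j | j <;> simp [h] }
  have hL : ∀ z q, L z q = Sum.elim z (N z) (ε.symm q) := fun _ _ => rfl
  have hLinj : Function.Injective L := by
    intro z z' h
    funext j
    have := congrFun h (ε (Sum.inl j))
    rw [hL, hL, Equiv.symm_apply_apply] at this
    exact this
  have h0 : ∀ z, Q (L z) = 0 := by
    intro z
    rw [hQ]
    have h1 : ∑ q, (L z q) ^ 2 = ∑ x : ι ⊕ ι, (Sum.elim z (N z) x) ^ 2 := by
      rw [← Equiv.sum_comp ε]
      refine Finset.sum_congr rfl fun x _ => ?_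
      rw [hL, Equiv.symm_apply_apply]
    rw [h1, Fintype.sum_sum_type]
    simp only [Sum.elim_inl, Sum.elim_inr]
    rw [hN, add_neg_cancel, mul_zero]
  have := hasTS_of_map Q L hLinj h0
  rwa [Module.finrank_fintype_fun_eq_card] at this

theorem hasTS_sumsq {F : Type*} [Field F] [Finite F] {κ : Type*} [Fintype κ] [DecidableEq κ]
    (h2 : (2 : F) ≠ 0) {m : ℕ} (hκ : Fintype.card κ = 2 * m) (Q : QuadraticForm F (κ → F)) (c : F)
    (hQ : ∀ v, Q v = c * ∑ i, v i ^ 2) (h : Even m ∨ IsSquare (-1 : F)) : HasTS Q m := by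
  rcases h with hm | ⟨i, hi⟩
  · obtain ⟨k, hk⟩ := hm
    obtain ⟨a, b, hab⟩ : ∃ a b : F, a ^ 2 + b ^ 2 = -1 := by
      have hp : NeZero (ringChar F) := ⟨CharP.char_ne_zero_of_finite F (ringChar F)⟩
      obtain ⟨a, b, hab⟩ := CharP.sq_add_sq F (ringChar F) (-1)
      exact ⟨a, b, by rw [hab]; simp⟩
    let N : (Fin k ⊕ Fin k → F) →ₗ[F] (Fin k ⊕ Fin k → F) :=
      { toFun := fun z => Sum.elim (fun j => a * z (Sum.inl j) - b * z (Sum.inr j))
          (fun j => b * z (Sum.inl j) + a * z (Sum.inr j))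
        map_add' := fun z z' => by
          funext x
          rcases x with j | j <;> simp <;> ring
        map_smul' := fun t z => by
          funext x
          rcases x with j | j <;> simp <;> ring }
    have hN : ∀ z, ∑ x, (N z x) ^ 2 = - ∑ x, z x ^ 2 := by
      intro z
      rw [Fintype.sum_sum_type, Fintype.sum_sum_type]
      show ∑ j, (a * z (Sum.inl j) - b * z (Sum.inr j)) ^ 2 +
        ∑ j, (b * z (Sum.inl j) + a * z (Sum.inr j)) ^ 2 = _
      rw [← Finset.sum_add_distrib, ← Finset.sum_add_distrib, ← Finset.sum_neg_distrib]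
      refine Finset.sum_congr rfl fun j _ => ?_
      linear_combination (z (Sum.inl j) ^ 2 + z (Sum.inr j) ^ 2) * hab
    have := ga_hasTS_of_neg_isom (ι := Fin k ⊕ Fin k)
      (by rw [hκ, Fintype.card_sum, Fintype.card_fin, hk]) Q c hQ N hN
    rw [Fintype.card_sum, Fintype.card_fin, ← hk] at this
    exact this
  · let N : (Fin m → F) →ₗ[F] (Fin m → F) := i • LinearMap.id
    have hN : ∀ z, ∑ x, (N z x) ^ 2 = - ∑ x, z x ^ 2 := by
      intro z
      rw [← Finset.sum_neg_distrib]
      refine Finset.sum_congr rfl fun j _ => ?_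
      show (i * z j) ^ 2 = - z j ^ 2
      linear_combination (- z j ^ 2) * hi
    have := ga_hasTS_of_neg_isom (ι := Fin m) (by rw [hκ, Fintype.card_fin]) Q c hQ N hN
    rwa [Fintype.card_fin] at this

end Cfsg.Agent.Helper51
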