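import Mathlib
import Cfsg.Agent.Helper44.SPUDefs

set_option autoImplicit false
open Classical

/-!
CALL S2316 (helper44), piece ISON: the closed formula for `isoN` (pure arithmetic).
-/

namespace Cfsg.Agent.Helper51.SPUISON

open Matrix Cfsg.Agent.Helper44.SPU

theorem isoN_eq_zero (q : ℕ) : ∀ m k : ℕ, m < k → isoN q m k = 0 := by
  intro m
  induction m with
  | zero =>
    intro k hk
    obtain ⟨k', rfl⟩ := Nat.exists_eq_succ_of_ne_zero (by omega : k ≠ 0)
    simp [isoN]
  | succ m ih =>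
    intro k hk
    obtain ⟨k', rfl⟩ := Nat.exists_eq_succ_of_ne_zero (by omega : k ≠ 0)
    rw [isoN, ih k' (by omega), ih (k' + 1) (by omega)]
    simp

theorem g_succ (q k : ℕ) :
    ∏ j ∈ Finset.range (k + 1), (q ^ (k + 1) - q ^ j) =
      (q ^ (k + 1) - 1) * q ^ k * ∏ j ∈ Finset.range k, (q ^ k - q ^ j) := by
  rw [Finset.prod_range_succ']
  have h : ∀ j ∈ Finset.range k, q ^ (k + 1) - q ^ (j + 1) = q * (q ^ k - q ^ j) := by
    intro j _
    rw [Nat.mul_sub, pow_succ, pow_succ, mul_comm q, mul_comm q]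
  rw [Finset.prod_congr rfl h, Finset.prod_mul_distrib, Finset.prod_const, Finset.card_range]
  simp only [pow_zero]
  ring

theorem F_succ (q m k : ℕ) (hk : k ≤ m) :
    ∏ j ∈ Finset.range (k + 1), (q ^ (2 * (m + 1) - j) - q ^ j) =
      (q ^ (2 * m + 2) - 1) * q ^ k * ∏ j ∈ Finset.range k, (q ^ (2 * m - j) - q ^ j) := by
  rw [Finset.prod_range_succ']
  have h : ∀ j ∈ Finset.range k,
      q ^ (2 * (m + 1) - (j + 1)) - q ^ (j + 1) = q * (q ^ (2 * m - j) - q ^ j) := by
    intro j hj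
    have hj' := Finset.mem_range.mp hj
    have : 2 * (m + 1) - (j + 1) = (2 * m - j) + 1 := by omega
    rw [this, Nat.mul_sub, pow_succ, pow_succ, mul_comm q, mul_comm q]
  rw [Finset.prod_congr rfl h, Finset.prod_mul_distrib, Finset.prod_const, Finset.card_range]
  simp only [pow_zero, Nat.sub_zero]
  rw [show 2 * (m + 1) = 2 * m + 2 by ring]
  ring

theorem arith (q a b F I g I' : ℕ) (hq : 0 < q) (ha : 1 ≤ a) (hab : a ≤ b) (h1 : I * g = F)
    (h2 : I' * ((q * a - 1) * a * g) = F * (b - a)) :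
    ((1 + q * b) * I + q * a * I') * ((q * a - 1) * a * g) = (q * q * a * b - 1) * a * F := by
  have e : ((1 + q * b) * I + q * a * I') * ((q * a - 1) * a * g) =
      (1 + q * b) * (q * a - 1) * a * (I * g) + q * a * (I' * ((q * a - 1) * a * g)) := by ring
  rw [e, h1, h2]
  have hqa : 1 ≤ q * a := Nat.mul_pos hq ha
  have hb : 1 ≤ b := le_trans ha hab
  have hqqab : 1 ≤ q * q * a * b := Nat.mul_pos (Nat.mul_pos (Nat.mul_pos hq hq) ha) hb
  zify [hqa, hab, hqqab]
  ring

/-- ISON: the closed formula for `isoN` (pure arithmetic). -/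
theorem spu_ison (q : ℕ) (hq : 2 ≤ q) (m k : ℕ) (hk : k ≤ m) :
    isoN q m k * ∏ j ∈ Finset.range k, (q ^ k - q ^ j) =
      ∏ j ∈ Finset.range k, (q ^ (2 * m - j) - q ^ j) := by
  induction m generalizing k with
  | zero =>
    obtain rfl : k = 0 := by omega
    simp [isoN]
  | succ m ih =>
    rcases Nat.eq_zero_or_pos k with rfl | hkpos
    · simp [isoN]
    obtain ⟨k', rfl⟩ := Nat.exists_eq_succ_of_ne_zero (by omega : k ≠ 0)
    have hk' : k' ≤ m := by omega
    have hqpos : 0 < q := by omega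
    have h1 := ih k' hk'
    have h2 : isoN q m (k' + 1) * ∏ j ∈ Finset.range (k' + 1), (q ^ (k' + 1) - q ^ j) =
        (∏ j ∈ Finset.range k', (q ^ (2 * m - j) - q ^ j)) * (q ^ (2 * m - k') - q ^ k') := by
      rcases Nat.lt_or_ge k' m with hlt | hge
      · rw [ih (k' + 1) (by omega), Finset.prod_range_succ]
      · obtain rfl : k' = m := by omega
        rw [isoN_eq_zero q k' (k' + 1) (by omega)]
        have : 2 * k' - k' = k' := by omega
        rw [this]; simp
    have e1 : q ^ (2 * (m + 1) - (k' + 1)) = q * q ^ (2 * m - k') := by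
      rw [show 2 * (m + 1) - (k' + 1) = (2 * m - k') + 1 by omega, pow_succ, mul_comm]
    have e2 : q ^ (k' + 1) = q * q ^ k' := by rw [pow_succ, mul_comm]
    have e3 : q ^ (2 * m + 2) = q * q * q ^ k' * q ^ (2 * m - k') := by
      rw [show 2 * m + 2 = 1 + 1 + k' + (2 * m - k') by omega, pow_add, pow_add, pow_add, pow_one]
    have hab : q ^ k' ≤ q ^ (2 * m - k') := Nat.pow_le_pow_right hqpos (by omega)
    have ha1 : 1 ≤ q ^ k' := Nat.one_le_pow _ _ hqpos
    rw [g_succ q k', e2] at h2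
    rw [isoN, F_succ q m k' hk', g_succ q k', e1, e2, e3]
    exact arith q (q ^ k') (q ^ (2 * m - k')) _ _ _ _ hqpos ha1 hab h1 h2

end Cfsg.Agent.Helper51.SPUISON
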