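import Mathlib

/-!
# PIECE A of CALL S2425 (helper51): a basis adapted to a chain of subspaces
-/

set_option autoImplicit false

universe u

namespace Cfsg.Agent.Helper51

theorem adapted_chain_aux {F : Type u} [Field F] :
    ∀ (n : ℕ) (V : Type u) [AddCommGroup V] [Module F V] [FiniteDimensional F V],
      Module.finrank F V = n → ∀ (W : ℕ → Submodule F V), Monotone W →
      ∃ e : (Fin n → F) ≃ₗ[F] V, ∀ a, W a = Submodule.map e.toLinearMap
        (Submodule.span F ((fun i : Fin n => (Pi.single i 1 : Fin n → F)) ''
          {i : Fin n | i.val < Module.finrank F (W a)})) := by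
  intro n
  induction n with
  | zero =>
    intro V _ _ _ hV W hW
    have hsub : Subsingleton V := Module.finrank_zero_iff.1 hV
    refine ⟨LinearEquiv.ofSubsingleton _ _, fun a => ?_⟩
    ext x
    have hx : x = 0 := Subsingleton.elim _ _
    rw [hx]
    exact ⟨fun _ => Submodule.zero_mem _, fun _ => Submodule.zero_mem _⟩
  | succ n ih =>
    intro V _ _ _ hV W hW
    have hnt : Nontrivial V := Module.nontrivial_of_finrank_pos (R := F) (by rw [hV]; omega)
    obtain ⟨U, hU, hWU⟩ : ∃ U : Submodule F V, U ≠ ⊤ ∧ ∀ a, W a = ⊤ ∨ W a ≤ U := by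
      by_cases hex : ∃ a, W a = ⊤
      · rcases Nat.eq_zero_or_pos (Nat.find hex) with h0 | hpos
        · refine ⟨⊥, bot_ne_top, fun a => Or.inl ?_⟩
          have h1 := Nat.find_spec hex
          rw [h0] at h1
          rw [eq_top_iff, ← h1]
          exact hW (Nat.zero_le a)
        · refine ⟨W (Nat.find hex - 1), Nat.find_min hex (by omega), fun a => ?_⟩
          rcases Nat.lt_or_ge a (Nat.find hex) with h | h
          · exact Or.inr (hW (by omega))
          · refine Or.inl ?_
            rw [eq_top_iff, ← Nat.find_spec hex]
            exact hW h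
      · push Not at hex
        obtain ⟨m, hm⟩ := monotone_stabilizes_iff_noetherian.2
          (inferInstance : IsNoetherian F V) ⟨W, hW⟩
        refine ⟨W m, hex m, fun a => Or.inr ?_⟩
        rcases Nat.le_total a m with h | h
        · exact hW h
        · exact (hm a h).symm.le
    obtain ⟨f, hf0, hUf⟩ := Submodule.exists_le_ker_of_lt_top U (lt_top_iff_ne_top.2 hU)
    obtain ⟨v₀, hv₀⟩ : ∃ v₀, f v₀ ≠ 0 := by
      by_contra h
      push Not at h
      exact hf0 (LinearMap.ext h)
    obtain ⟨v, hv⟩ : ∃ v, f v = 1 :=
      ⟨(f v₀)⁻¹ • v₀, by rw [map_smul, smul_eq_mul, inv_mul_cancel₀ hv₀]⟩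
    have hfinH : Module.finrank F (LinearMap.ker f) = n := by
      have h1 := LinearMap.finrank_range_add_finrank_ker f
      have h2 : LinearMap.range f = ⊤ := by
        rw [LinearMap.range_eq_top]
        intro c
        exact ⟨c • v, by rw [map_smul, hv, smul_eq_mul, mul_one]⟩
      rw [h2, finrank_top, Module.finrank_self, hV] at h1
      omega
    obtain ⟨e', he'⟩ := ih (LinearMap.ker f) hfinH
      (fun a => Submodule.comap (LinearMap.ker f).subtype (W a))
      (fun a b hab => Submodule.comap_mono (hW hab))
    let E : (Fin (n + 1) → F) →ₗ[F] V :=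
      ((LinearMap.ker f).subtype.comp e'.toLinearMap).comp (LinearMap.funLeft F F Fin.castSucc) +
        (LinearMap.proj (Fin.last n)).smulRight v
    have hE : ∀ x : Fin (n + 1) → F,
        E x = ((e' (fun j => x (Fin.castSucc j)) : LinearMap.ker f) : V) + x (Fin.last n) • v :=
      fun x => rfl
    have hEinj : Function.Injective E := by
      rw [← LinearMap.ker_eq_bot, LinearMap.ker_eq_bot']
      intro x hx
      rw [hE] at hx
      have h1 := congrArg f hx
      rw [map_add, map_zero, map_smul, hv, LinearMap.mem_ker.1 (e' _).2, zero_add, smul_eq_mul,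
        mul_one] at h1
      rw [h1, zero_smul, add_zero] at hx
      have h2 : e' (fun j => x (Fin.castSucc j)) = 0 := Subtype.ext hx
      have h3 : (fun j => x (Fin.castSucc j)) = 0 := e'.injective (h2.trans (map_zero e').symm)
      funext i
      refine Fin.lastCases ?_ (fun j => ?_) i
      · exact h1
      · exact congrFun h3 j
    let e : (Fin (n + 1) → F) ≃ₗ[F] V :=
      LinearMap.linearEquivOfInjective E hEinj (by rw [Module.finrank_fin_fun, hV])
    have he : ∀ x, e x = E x := fun x => rfl
    have hEsingle : ∀ j : Fin n, E (Pi.single (Fin.castSucc j) 1) =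
        ((e' (Pi.single j 1) : LinearMap.ker f) : V) := by
      intro j
      rw [hE]
      have h1 : (fun k => (Pi.single (Fin.castSucc j) (1 : F) : Fin (n + 1) → F)
          (Fin.castSucc k)) = Pi.single j 1 := by
        funext k
        simp [Pi.single_apply, Fin.castSucc_inj]
      have h2 : (Pi.single (Fin.castSucc j) (1 : F) : Fin (n + 1) → F) (Fin.last n) = 0 := by
        rw [Pi.single_apply, if_neg]
        exact (Fin.castSucc_lt_last j).ne'
      rw [h1, h2, zero_smul, add_zero]
    refine ⟨e, fun a => ?_⟩
    rcases hWU a with htop | hle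
    · rw [htop, finrank_top, hV]
      have hset : {i : Fin (n + 1) | i.val < n + 1} = Set.univ := by
        ext i
        simp only [Set.mem_setOf_eq, Set.mem_univ, iff_true]
        exact i.isLt
      rw [hset, Set.image_univ]
      have hspan : Submodule.span F
          (Set.range (fun i : Fin (n + 1) => (Pi.single i 1 : Fin (n + 1) → F))) = ⊤ := by
        have h1 := (Pi.basisFun F (Fin (n + 1))).span_eq
        have h2 : Set.range (fun i : Fin (n + 1) => (Pi.single i 1 : Fin (n + 1) → F)) =
            Set.range (Pi.basisFun F (Fin (n + 1))) := by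
          congr 1
          funext i
          rw [Pi.basisFun_apply]
        rw [h2, h1]
      rw [hspan, Submodule.map_top, LinearEquiv.range]
    · have hleH : W a ≤ LinearMap.ker f := hle.trans hUf
      have hfr : Module.finrank F (Submodule.comap (LinearMap.ker f).subtype (W a)) =
          Module.finrank F (W a) :=
        (Submodule.comapSubtypeEquivOfLe hleH).finrank_eq
      have hd : Module.finrank F (W a) ≤ n := by
        rw [← hfinH]
        exact Submodule.finrank_mono hleH
      have hWa : W a = Submodule.map (LinearMap.ker f).subtype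
          (Submodule.comap (LinearMap.ker f).subtype (W a)) := by
        rw [Submodule.map_comap_subtype, inf_eq_right.2 hleH]
      have h1 := he' a
      rw [hfr] at h1
      generalize Module.finrank F (W a) = d at h1 hd ⊢
      have hL : W a = Submodule.span F ((fun j : Fin n =>
          ((e' (Pi.single j 1) : LinearMap.ker f) : V)) '' {j : Fin n | j.val < d}) := by
        conv_lhs => rw [hWa, h1]
        rw [Submodule.map_span, Submodule.map_span, Set.image_image, Set.image_image]
        rfl
      have hR : Submodule.map e.toLinearMap (Submodule.span F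
          ((fun i : Fin (n + 1) => (Pi.single i 1 : Fin (n + 1) → F)) ''
            {i : Fin (n + 1) | i.val < d})) =
          Submodule.span F ((fun i : Fin (n + 1) => E (Pi.single i 1)) ''
            {i : Fin (n + 1) | i.val < d}) := by
        rw [Submodule.map_span, Set.image_image]
        rfl
      rw [hR, hL]
      congr 1
      ext y
      constructor
      · rintro ⟨j, hj, rfl⟩
        exact ⟨Fin.castSucc j, hj, hEsingle j⟩
      · rintro ⟨i, hi, rfl⟩
        have hi' : i.val < n := lt_of_lt_of_le hi hd
        have hi2 : Fin.castSucc ⟨i.val, hi'⟩ = i := Fin.ext rfl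
        refine ⟨⟨i.val, hi'⟩, hi, ?_⟩
        exact (hEsingle ⟨i.val, hi'⟩).symm.trans
          (congrArg (fun t => E (Pi.single t 1)) hi2)

theorem exists_adapted_gl {F : Type*} [Field F] {n : ℕ} (W : ℕ → Submodule F (Fin n → F))
    (hW : Monotone W) :
    ∃ g : GL (Fin n) F, ∀ a, W a = Submodule.map (Matrix.toLin' (g : Matrix (Fin n) (Fin n) F))
      (Submodule.span F ((fun i : Fin n => (Pi.single i 1 : Fin n → F)) ''
        {i : Fin n | i.val < Module.finrank F (W a)})) := by
  obtain ⟨e, he⟩ := adapted_chain_aux n (Fin n → F) (Module.finrank_fin_fun F) W hW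
  have h1 : LinearMap.toMatrix' e.toLinearMap * LinearMap.toMatrix' e.symm.toLinearMap = 1 := by
    rw [← LinearMap.toMatrix'_comp]
    have : e.toLinearMap.comp e.symm.toLinearMap = LinearMap.id := by
      ext x
      simp
    rw [this, LinearMap.toMatrix'_id]
  have h2 : LinearMap.toMatrix' e.symm.toLinearMap * LinearMap.toMatrix' e.toLinearMap = 1 := by
    rw [← LinearMap.toMatrix'_comp]
    have : e.symm.toLinearMap.comp e.toLinearMap = LinearMap.id := by
      ext x
      simp
    rw [this, LinearMap.toMatrix'_id]
  have hg : Matrix.toLin' (LinearMap.toMatrix' e.toLinearMap) = e.toLinearMap :=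
    Matrix.toLin'_toMatrix' _
  refine ⟨⟨LinearMap.toMatrix' e.toLinearMap, LinearMap.toMatrix' e.symm.toLinearMap, h1, h2⟩,
    fun a => ?_⟩
  show W a = Submodule.map (Matrix.toLin' (LinearMap.toMatrix' e.toLinearMap)) _
  rw [hg]
  exact he a

end Cfsg.Agent.Helper51
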