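import Mathlib
import Cfsg.Prelude.Def_OddOrderLocal
import Cfsg.Agent.Helper62.BG72B

/-! CALL S1356 (helper99), piece CPC: the index of a complemented subgroup. -/

set_option autoImplicit false

namespace Cfsg.Agent.Helper51

open Cfsg Subgroup

universe u

variable {G : Type u} [Group G] [Finite G]

/-- CPC [S, PURE]. `IsComplIn Q D S → Q.relIndex S = |D|`. -/
theorem bg56_card_compl {S Q D : Subgroup G} (hD : IsComplIn Q D S) :
    Q.relIndex S = Nat.card D := by
  have h1 : Nat.card S = Nat.card Q * Nat.card D := Cfsg.Agent.Helper62.bg72_card_compl hD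
  have h2 : Nat.card (Q.subgroupOf S) * (Q.subgroupOf S).index = Nat.card S :=
    Subgroup.card_mul_index _
  have h3 : Nat.card (Q.subgroupOf S) = Nat.card Q :=
    Nat.card_congr (Subgroup.subgroupOfEquivOfLe hD.1).toEquiv
  rw [h3, h1] at h2
  have hpos : 0 < Nat.card Q := Nat.card_pos
  exact Nat.eq_of_mul_eq_mul_left hpos h2

end Cfsg.Agent.Helper51
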