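import Mathlib
import Cfsg.Prelude.Def_OddOrderLocal

/-! CALL S1356 (helper99), piece CPS: complements generate. -/

set_option autoImplicit false

namespace Cfsg.Agent.Helper51

open Cfsg Subgroup

universe u

variable {G : Type u} [Group G] [Finite G]

/-- CPS [S, PURE]. Complements generate: `IsComplIn A B M → A ⊔ B = M`. -/
theorem bg56_compl_sup {A B M : Subgroup G} (h : IsComplIn A B M) : A ⊔ B = M := by
  obtain ⟨hA, hB, -, hm⟩ := h
  apply le_antisymm (sup_le hA hB)
  intro m hmM
  obtain ⟨a, ha, b, hb, rfl⟩ := hm m hmM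
  exact Subgroup.mul_mem_sup ha hb

end Cfsg.Agent.Helper51
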