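import Mathlib
import Cfsg.Prelude.Def_OddOrderLocal

/-! CALL S1356 (helper99), piece DNORM: `M'`, `M''` lie in `M` and are normalized by `M`. -/

set_option autoImplicit false

namespace Cfsg.Agent.Helper51

open Cfsg Subgroup
open scoped commutatorElement

universe u

variable {G : Type u} [Group G] [Finite G]

omit [Finite G] in
/-- a subgroup normalizing `H` and `K` normalizes `⁅H, K⁆` -/
theorem bg56_le_normalizer_comm {A H K : Subgroup G} (hH : A ≤ normalizer (H : Set G))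
    (hK : A ≤ normalizer (K : Set G)) : A ≤ normalizer ((⁅H, K⁆ : Subgroup G) : Set G) := by
  have key : ∀ a ∈ A, ∀ g ∈ (⁅H, K⁆ : Subgroup G), a * g * a⁻¹ ∈ (⁅H, K⁆ : Subgroup G) := by
    intro a ha
    have h1 : (⁅H, K⁆ : Subgroup G) ≤ (⁅H, K⁆ : Subgroup G).comap (MulAut.conj a).toMonoidHom := by
      rw [Subgroup.commutator_le]
      intro x hx y hy
      rw [Subgroup.mem_comap]
      have e : (MulAut.conj a).toMonoidHom ⁅x, y⁆ = ⁅a * x * a⁻¹, a * y * a⁻¹⁆ := by
        simp only [MulEquiv.coe_toMonoidHom, MulAut.conj_apply, commutatorElement_def]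
        group
      rw [e]
      exact Subgroup.commutator_mem_commutator ((Subgroup.mem_normalizer_iff.mp (hH ha) x).mp hx)
        ((Subgroup.mem_normalizer_iff.mp (hK ha) y).mp hy)
    intro g hg
    have := h1 hg
    rw [Subgroup.mem_comap] at this
    simpa [MulAut.conj_apply] using this
  intro a ha
  rw [Subgroup.mem_normalizer_iff]
  intro g
  constructor
  · exact key a ha g
  · intro hg
    have := key a⁻¹ (A.inv_mem ha) _ hg
    have e : a⁻¹ * (a * g * a⁻¹) * a⁻¹⁻¹ = g := by group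
    rwa [e] at this

/-- DNORM [S, PURE]. `M' ≤ M`, `M'' ≤ M`, both normalized by `M`. -/
theorem bg56_der_norm (M : Subgroup G) :
    ⁅M, M⁆ ≤ M ∧ M ≤ normalizer ((⁅M, M⁆ : Subgroup G) : Set G) ∧ ⁅⁅M, M⁆, ⁅M, M⁆⁆ ≤ M ∧
      M ≤ normalizer ((⁅⁅M, M⁆, ⁅M, M⁆⁆ : Subgroup G) : Set G) := by
  have h1 : ⁅M, M⁆ ≤ M := Subgroup.commutator_le_self M
  have h2 : M ≤ normalizer ((⁅M, M⁆ : Subgroup G) : Set G) :=
    bg56_le_normalizer_comm Subgroup.le_normalizer Subgroup.le_normalizer
  refine ⟨h1, h2, ?_, bg56_le_normalizer_comm h2 h2⟩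
  exact (Subgroup.commutator_mono h1 h1).trans h1

end Cfsg.Agent.Helper51
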