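import Mathlib
import Cfsg.Prelude.Def_OddOrderLocal
import Cfsg.Agent.Helper25.CN

/-! CALL S1356 (helper99), piece FIT (double): a nilpotent `F` between a normal Hall subgroup `H`
and `M` lies in `C_M(H) H`. -/

set_option autoImplicit false

namespace Cfsg.Agent.Helper51

open Cfsg Subgroup

universe u

variable {G : Type u} [Group G] [Finite G]

/-- FIT [S-M, PURE]. A nilpotent `F` with `H ≤ F ≤ M`, `H` a normal Hall subgroup of `M`, lies in
`C_M(H) H`. -/
theorem bg56_fit_le {M H F : Subgroup G} (hHF : H ≤ F) (hFM : F ≤ M)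
    (hHn : M ≤ normalizer (H : Set G)) (hF : Group.IsNilpotent ↥F)
    (hcop : (Nat.card H).Coprime (H.relIndex M)) :
    F ≤ (M ⊓ centralizer (H : Set G)) ⊔ H := by
  intro x hx
  have hmM : H.relIndex F ∣ H.relIndex M :=
    ⟨F.relIndex M, (Subgroup.relIndex_mul_relIndex H F M hHF hFM).symm⟩
  have hnm : Nat.Coprime (Nat.card H) (H.relIndex F) := Nat.Coprime.coprime_dvd_right hmM hcop
  have hnorm : (H.subgroupOf F).Normal :=
    Subgroup.normal_subgroupOf_of_le_normalizer (hFM.trans hHn)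
  have h1 : (⟨x, hx⟩ : ↥F) ^ (H.subgroupOf F).index ∈ H.subgroupOf F := Subgroup.pow_index_mem _ _
  rw [Subgroup.mem_subgroupOf] at h1
  have hxm : x ^ H.relIndex F ∈ H := by
    have h2 : x ^ (H.subgroupOf F).index ∈ H := by simpa using h1
    exact h2
  have hxnm : (x ^ Nat.card H) ^ H.relIndex F = 1 := by
    rw [← pow_mul, mul_comm, pow_mul]
    have h3 : (⟨x ^ H.relIndex F, hxm⟩ : ↥H) ^ Nat.card ↥H = 1 := pow_card_eq_one'
    have h4 : (((⟨x ^ H.relIndex F, hxm⟩ : ↥H) ^ Nat.card ↥H : ↥H) : G) = ((1 : ↥H) : G) :=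
      congrArg Subtype.val h3
    rw [Subgroup.coe_pow, Subgroup.coe_one] at h4
    exact h4
  have hzF : x ^ Nat.card H ∈ F := F.pow_mem hx _
  have hzc : x ^ Nat.card H ∈ centralizer (H : Set G) := by
    rw [Subgroup.mem_centralizer_iff]
    intro h hh
    have hordz : orderOf (x ^ Nat.card H) ∣ H.relIndex F := orderOf_dvd_of_pow_eq_one hxnm
    have hordh : orderOf h ∣ Nat.card H := by
      have := orderOf_dvd_natCard (⟨h, hh⟩ : ↥H)
      rwa [← Subgroup.orderOf_coe] at this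
    have hc : (orderOf (x ^ Nat.card H)).Coprime (orderOf h) :=
      Nat.Coprime.coprime_dvd_left hordz (Nat.Coprime.coprime_dvd_right hordh hnm.symm)
    exact (Cfsg.Agent.Helper25.commute_of_coprime_of_mem_nilpotent F hF hzF (hHF hh) hc).eq.symm
  have hb : (1 : ℤ) = (H.relIndex F : ℤ) * Nat.gcdA (H.relIndex F) (Nat.card H) +
      (Nat.card H : ℤ) * Nat.gcdB (H.relIndex F) (Nat.card H) := by
    have h4 := Nat.gcd_eq_gcd_ab (H.relIndex F) (Nat.card H)
    rw [hnm.symm.gcd_eq_one] at h4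
    exact_mod_cast h4
  have hx' : x = (x ^ Nat.card H) ^ (Nat.gcdB (H.relIndex F) (Nat.card H)) *
      (x ^ H.relIndex F) ^ (Nat.gcdA (H.relIndex F) (Nat.card H)) := by
    rw [← zpow_natCast x (Nat.card H), ← zpow_natCast x (H.relIndex F), ← zpow_mul, ← zpow_mul,
      ← zpow_add, add_comm, ← hb, zpow_one]
  rw [hx']
  exact Subgroup.mul_mem_sup (Subgroup.zpow_mem _ (Subgroup.mem_inf.mpr ⟨hFM hzF, hzc⟩) _)
    (H.zpow_mem hxm _)

end Cfsg.Agent.Helper51
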