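import Mathlib
import Cfsg.Prelude.Def_OddOrderLocal
import Cfsg.Agent.Helper51.BG56CPC

/-! CALL S1356 (helper99), piece FPF (double): `K` of prime order acts fixed-point-freely on the
complement `D`. -/

set_option autoImplicit false

namespace Cfsg.Agent.Helper51

open Cfsg Subgroup

universe u

variable {G : Type u} [Group G] [Finite G]

/-- FPF [S-M, PURE]. `K` of prime order acts fixed-point-freely on the complement `D` of the Sylow
`q`-subgroup `Q` of `S` when `C_S(K)` has order `q`. -/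
theorem bg56_fpf {S Q D K : Subgroup G} {q : ℕ} (hD : IsComplIn Q D S) (hQi : ¬ q ∣ Q.relIndex S)
    (hKs : Nat.card ↥(S ⊓ centralizer (K : Set G)) = q) (hq : q.Prime) (hKp : (Nat.card K).Prime) :
    ∀ r ∈ K, r ≠ 1 → D ⊓ centralizer ({r} : Set G) = ⊥ := by
  intro r hr hr1
  have hfact : Fact (Nat.card K).Prime := ⟨hKp⟩
  have hgen : ∀ k ∈ K, k ∈ Subgroup.zpowers r := by
    intro k hk
    have h1 : Subgroup.zpowers (⟨r, hr⟩ : ↥K) = ⊤ :=
      zpowers_eq_top_of_prime_card rfl (fun h => hr1 (congrArg Subtype.val h))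
    have h2 : (⟨k, hk⟩ : ↥K) ∈ Subgroup.zpowers (⟨r, hr⟩ : ↥K) := by rw [h1]; trivial
    obtain ⟨n, hn⟩ := Subgroup.mem_zpowers_iff.mp h2
    exact Subgroup.mem_zpowers_iff.mpr ⟨n, by have := congrArg Subtype.val hn; simpa using this⟩
  have hle : D ⊓ centralizer ({r} : Set G) ≤ S ⊓ centralizer (K : Set G) := by
    intro x hx
    refine Subgroup.mem_inf.mpr ⟨hD.2.1 (Subgroup.mem_inf.mp hx).1, ?_⟩
    rw [Subgroup.mem_centralizer_iff]
    intro k hk
    obtain ⟨n, rfl⟩ := Subgroup.mem_zpowers_iff.mp (hgen k hk)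
    have hxr : r * x = x * r :=
      (Subgroup.mem_centralizer_iff.mp (Subgroup.mem_inf.mp hx).2) r (Set.mem_singleton r)
    have hc : Commute r x := hxr
    exact (hc.zpow_left n).eq
  have hdvd : Nat.card ↥(D ⊓ centralizer ({r} : Set G)) ∣ q := by
    rw [← hKs]; exact Subgroup.card_dvd_of_le hle
  rcases (Nat.dvd_prime hq).mp hdvd with h1 | hqc
  · exact Subgroup.card_eq_one.mp h1
  · exfalso
    apply hQi
    rw [bg56_card_compl hD, ← hqc]
    exact Subgroup.card_dvd_of_le inf_le_left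

end Cfsg.Agent.Helper51
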