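import Mathlib
import Cfsg.Prelude.Def_OddOrderLocal

/-! CALL S1356 (helper99), piece LCOP: a subgroup of order coprime to the index of a normal
subgroup lies in it. -/

set_option autoImplicit false

namespace Cfsg.Agent.Helper51

open Cfsg Subgroup

universe u

variable {G : Type u} [Group G] [Finite G]

/-- LCOP [S, PURE]. A subgroup `Y ≤ M` of order coprime to the index of the normal subgroup `N` of
`M` lies in `N`. -/
theorem bg56_le_of_coprime {M N Y : Subgroup G} (hNM : N ≤ M) (hn : M ≤ normalizer (N : Set G))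
    (hYM : Y ≤ M) (hcop : (Nat.card Y).Coprime (N.relIndex M)) : Y ≤ N := by
  intro y hy
  haveI : (N.subgroupOf M).Normal := Subgroup.normal_subgroupOf_of_le_normalizer hn
  have h1 : (⟨y, hYM hy⟩ : ↥M) ^ (N.subgroupOf M).index ∈ N.subgroupOf M :=
    Subgroup.pow_index_mem _ _
  rw [Subgroup.mem_subgroupOf] at h1
  have h1' : y ^ N.relIndex M ∈ N := by
    have h2 : y ^ (N.subgroupOf M).index ∈ N := by simpa using h1
    exact h2
  have hord : orderOf y ∣ Nat.card Y := by
    have := orderOf_dvd_natCard (⟨y, hy⟩ : ↥Y)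
    rwa [← Subgroup.orderOf_coe] at this
  have hc : (N.relIndex M).Coprime (orderOf y) :=
    (Nat.Coprime.coprime_dvd_left hord hcop).symm
  obtain ⟨m, hm⟩ := exists_pow_eq_self_of_coprime hc
  rw [← hm]
  exact N.pow_mem h1' m

end Cfsg.Agent.Helper51
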