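import Mathlib
import Cfsg.Prelude.Def_OddOrderLocal

/-! CALL S1356 (helper99), piece NSUP: two nilpotent subgroups centralizing each other generate a
nilpotent subgroup. -/

set_option autoImplicit false

namespace Cfsg.Agent.Helper51

open Cfsg Subgroup

universe u

variable {G : Type u} [Group G] [Finite G]

/-- NSUP [S, PURE]. Two nilpotent subgroups centralizing each other generate a nilpotent
subgroup. -/
theorem bg56_nil_sup {A B : Subgroup G} (hA : Group.IsNilpotent ↥A) (hB : Group.IsNilpotent ↥B)
    (hBA : B ≤ centralizer (A : Set G)) : Group.IsNilpotent ↥(A ⊔ B) := by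
  have comm : ∀ (a : ↥A) (b : ↥B), Commute (A.subtype a) (B.subtype b) := by
    intro a b
    exact ((Subgroup.mem_centralizer_iff.mp (hBA b.2)) a a.2)
  let f : ↥A × ↥B →* G := MonoidHom.noncommCoprod A.subtype B.subtype comm
  have hrange : f.range = A ⊔ B := by
    rw [MonoidHom.noncommCoprod_range, Subgroup.range_subtype, Subgroup.range_subtype]
  have hnil : Group.IsNilpotent ↥f.range :=
    Group.nilpotent_of_surjective f.rangeRestrict f.rangeRestrict_surjective
  rw [hrange] at hnil
  exact hnil

end Cfsg.Agent.Helper51
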