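import Mathlib
import Cfsg.Prelude.Def_OddOrderLocal

/-! CALL S1356 (helper99), piece STAB: stable series, coprime action. -/

set_option autoImplicit false

namespace Cfsg.Agent.Helper51

open Cfsg Subgroup

universe u

variable {G : Type u} [Group G] [Finite G]

/-- STAB [S, PURE]. Stable series, coprime: a `q'`-group `A` centralizing `Q₀ ≤ Q` and `Q` modulo
`Q₀` centralizes the `q`-group `Q`. -/
theorem bg56_stable {A Q Q₀ : Subgroup G} {q : ℕ} (hq : q.Prime) (hQ : IsPGroup q Q) (hQ₀ : Q₀ ≤ Q)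
    (hAq : ¬ q ∣ Nat.card A) (hA₀ : A ≤ centralizer (Q₀ : Set G))
    (hst : ∀ a ∈ A, ∀ x ∈ Q, a * x * a⁻¹ * x⁻¹ ∈ Q₀) : A ≤ centralizer (Q : Set G) := by
  intro a ha
  rw [Subgroup.mem_centralizer_iff]
  intro x hx
  have hzQ₀ : a * x * a⁻¹ * x⁻¹ ∈ Q₀ := hst a ha x hx
  set z := a * x * a⁻¹ * x⁻¹ with hz
  have hza : z * a = a * z := (Subgroup.mem_centralizer_iff.mp (hA₀ ha)) z hzQ₀
  have hax : a * x = z * x * a := by rw [hz]; group
  have hzna : ∀ n : ℕ, a * z ^ n = z ^ n * a := by
    intro n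
    induction n with
    | zero => simp
    | succ n ih => rw [pow_succ, ← mul_assoc, ih, mul_assoc, ← hza, ← mul_assoc]
  have key : ∀ n : ℕ, a ^ n * x = z ^ n * x * a ^ n := by
    intro n
    induction n with
    | zero => simp
    | succ n ih =>
      calc a ^ (n + 1) * x = a * (a ^ n * x) := by rw [pow_succ']; group
        _ = a * (z ^ n * x * a ^ n) := by rw [ih]
        _ = (a * z ^ n) * x * a ^ n := by group
        _ = z ^ n * (a * x) * a ^ n := by rw [hzna n]; group
        _ = z ^ n * (z * x * a) * a ^ n := by rw [hax]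
        _ = z ^ (n + 1) * x * a ^ (n + 1) := by rw [pow_succ, pow_succ]; group
  have h1 := key (orderOf a)
  rw [pow_orderOf_eq_one, one_mul, mul_one] at h1
  have hzn : z ^ orderOf a = 1 := by
    have : z ^ orderOf a * x = 1 * x := by rw [one_mul]; exact h1.symm
    exact mul_right_cancel this
  obtain ⟨k, hk⟩ := hQ ⟨z, hQ₀ hzQ₀⟩
  have hzq : z ^ q ^ k = 1 := by
    have := congrArg Subtype.val hk
    simpa using this
  have hord : orderOf a ∣ Nat.card A := by
    have := orderOf_dvd_natCard (⟨a, ha⟩ : ↥A)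
    rwa [← Subgroup.orderOf_coe] at this
  have hcop : Nat.Coprime (orderOf a) (q ^ k) := by
    apply Nat.Coprime.pow_right
    rw [Nat.coprime_comm, Nat.Prime.coprime_iff_not_dvd hq]
    exact fun h => hAq (dvd_trans h hord)
  have hz1 : z = 1 := by
    have := pow_gcd_eq_one.mpr ⟨hzn, hzq⟩
    rwa [hcop, pow_one] at this
  have : a * x = x * a := by rw [hax, hz1, one_mul]
  exact this.symm

end Cfsg.Agent.Helper51
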