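import Mathlib

/-!
# CALL BGC piece PO (helper51)
-/

set_option autoImplicit false

namespace Cfsg.Agent.Helper51

open Subgroup

universe u

variable {G : Type u} [Group G] [Finite G]

/-- PO (PURE). A subgroup of prime order inside `⟨x⟩`. -/
theorem bgc_exists_prime_sub {x : G} (hx1 : x ≠ 1) :
    ∃ (u : ℕ) (X₀ : Subgroup G), u.Prime ∧ X₀ ≤ zpowers x ∧ Nat.card X₀ = u := by
  have ho1 : orderOf x ≠ 1 := by
    intro h
    exact hx1 (orderOf_eq_one_iff.1 h)
  have ho0 : orderOf x ≠ 0 := (orderOf_pos x).ne'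
  have hu : (orderOf x).minFac.Prime := Nat.minFac_prime ho1
  refine ⟨(orderOf x).minFac, zpowers (x ^ (orderOf x / (orderOf x).minFac)), hu, ?_, ?_⟩
  · rw [zpowers_le]
    exact Subgroup.pow_mem _ (mem_zpowers x) _
  · rw [Nat.card_zpowers]
    exact orderOf_pow_orderOf_div ho0 (Nat.minFac_dvd _)

end Cfsg.Agent.Helper51
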