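import Mathlib
import Cfsg.Agent.Helper1.C9Defs
import Cfsg.Agent.Helper25.CN

/-!
# CALL S1376 / C9 (helper1), piece G3 (`c9_cent`), double by helper51

A nilpotent `D` centralizes an `r`-subgroup `A ≤ D` when all `r`-subgroups of `G` are abelian.
-/

set_option autoImplicit false

namespace Cfsg.Agent.Helper51

open Cfsg Subgroup

universe u

variable {G : Type u} [Group G] [Finite G]

/-- G3 (pure).  `D` nilpotent, `A ≤ D` an `r`-group, all `r`-subgroups of `G` abelian: `D`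
centralizes `A` (the Sylow `r`-subgroup of `D` is normal and abelian and contains `A`; `r'`-elements
of `D` commute with `r`-elements). -/
theorem c9_cent {D A : Subgroup G} {r : ℕ} (hr : r.Prime) (hD : Group.IsNilpotent ↥D)
    (hAD : A ≤ D) (hA : IsPGroup r A)
    (hab : ∀ P : Subgroup G, IsPGroup r P → ∀ a ∈ P, ∀ b ∈ P, a * b = b * a) :
    D ≤ centralizer (A : Set G) := by
  haveI : Fact r.Prime := ⟨hr⟩
  haveI := hD
  intro d hd
  rw [mem_centralizer_iff]
  intro a ha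
  obtain ⟨j, hj⟩ := hA ⟨a, ha⟩
  have haj : a ^ r ^ j = 1 := by
    have h := congrArg Subtype.val hj
    simpa using h
  have hdpos : 0 < orderOf d := orderOf_pos d
  obtain ⟨k, m, hm, hkm⟩ := Nat.exists_eq_pow_mul_and_not_dvd hdpos.ne' r hr.ne_one
  have hrm : Nat.Coprime r m := (Nat.Prime.coprime_iff_not_dvd hr).mpr hm
  have hcop : Nat.Coprime (r ^ k) m := Nat.Coprime.pow_left k hrm
  -- the `r'`-part of `d` commutes with `a`
  have hc1 : Commute a (d ^ (r ^ k)) := by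
    have hx : (⟨d ^ (r ^ k), D.pow_mem hd _⟩ : D) ^ m = 1 := by
      apply Subtype.ext
      show (d ^ (r ^ k)) ^ m = 1
      rw [← pow_mul, ← hkm, pow_orderOf_eq_one]
    have hy : (⟨a, hAD ha⟩ : D) ^ (r ^ j) = 1 := by
      apply Subtype.ext
      show a ^ r ^ j = 1
      exact haj
    have hox : orderOf (⟨d ^ (r ^ k), D.pow_mem hd _⟩ : D) ∣ m := orderOf_dvd_of_pow_eq_one hx
    have hoy : orderOf (⟨a, hAD ha⟩ : D) ∣ r ^ j := orderOf_dvd_of_pow_eq_one hy
    have hco : (orderOf (⟨a, hAD ha⟩ : D)).Coprime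
        (orderOf (⟨d ^ (r ^ k), D.pow_mem hd _⟩ : D)) :=
      Nat.Coprime.coprime_dvd_left hoy
        (Nat.Coprime.coprime_dvd_right hox (Nat.Coprime.pow_left j hrm))
    have h := Cfsg.Agent.Helper25.commute_of_coprime_orderOf_of_isNilpotent ↥D
      ⟨a, hAD ha⟩ ⟨d ^ (r ^ k), D.pow_mem hd _⟩ hco
    exact congrArg Subtype.val h.eq
  -- the `r`-part of `d` commutes with `a`
  have hc2 : Commute a (d ^ m) := by
    obtain ⟨P⟩ : Nonempty (Sylow r ↥D) := inferInstance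
    have hPn : (P : Subgroup ↥D).Normal := inferInstance
    haveI := Sylow.unique_of_normal P hPn
    have h1 : ∀ y : ↥D, (∃ n, y ^ r ^ n = 1) → y ∈ (P : Subgroup ↥D) := by
      rintro y ⟨n, hn⟩
      have hz : IsPGroup r ↥(zpowers y) := by
        rintro ⟨g, hg⟩
        obtain ⟨z, rfl⟩ := mem_zpowers_iff.mp hg
        refine ⟨n, Subtype.ext ?_⟩
        show (y ^ z) ^ r ^ n = 1
        rw [← zpow_natCast, ← zpow_mul, mul_comm, zpow_mul, zpow_natCast, hn, one_zpow]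
      obtain ⟨Q, hQ⟩ := hz.exists_le_sylow
      have hQP : Q = P := Subsingleton.elim _ _
      rw [← hQP]
      exact hQ (mem_zpowers y)
    have ha' : (⟨a, hAD ha⟩ : D) ∈ (P : Subgroup ↥D) := by
      refine h1 _ ⟨j, Subtype.ext ?_⟩
      show a ^ r ^ j = 1
      exact haj
    have hd' : (⟨d ^ m, D.pow_mem hd _⟩ : D) ∈ (P : Subgroup ↥D) := by
      refine h1 _ ⟨k, Subtype.ext ?_⟩
      show (d ^ m) ^ r ^ k = 1
      rw [← pow_mul, mul_comm, ← hkm, pow_orderOf_eq_one]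
    have hPG : IsPGroup r ↥((P : Subgroup ↥D).map D.subtype) := P.isPGroup'.map D.subtype
    exact hab _ hPG a ⟨_, ha', rfl⟩ (d ^ m) ⟨_, hd', rfl⟩
  obtain ⟨u, v, huv⟩ : ∃ u v : ℤ, ((r ^ k : ℕ) : ℤ) * u + (m : ℤ) * v = 1 := by
    refine ⟨Int.gcdA ((r ^ k : ℕ) : ℤ) (m : ℤ), Int.gcdB ((r ^ k : ℕ) : ℤ) (m : ℤ), ?_⟩
    rw [← Int.gcd_eq_gcd_ab, Int.gcd_natCast_natCast, Nat.Coprime.gcd_eq_one hcop]
    rfl
  have hd_eq : (d ^ (r ^ k)) ^ u * (d ^ m) ^ v = d := by
    rw [← zpow_natCast d (r ^ k), ← zpow_natCast d m, ← zpow_mul, ← zpow_mul, ← zpow_add, huv,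
      zpow_one]
  have hfin : Commute a d := by
    rw [← hd_eq]
    exact (hc1.zpow_right u).mul_right (hc2.zpow_right v)
  exact hfin.eq

end Cfsg.Agent.Helper51
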