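import Mathlib
import Cfsg.Agent.Helper15.FTLemmaA

/-!
# CALL S0899 piece A1 (helper51)
-/

set_option autoImplicit false
set_option linter.unusedSectionVars false

namespace Cfsg.Agent.Helper51

open Cfsg

universe u

variable {G : Type u} [Group G] [Finite G] {p : ℕ} [Fact p.Prime]

theorem ftb_A1_coe (P : Sylow p G) (c : G) :
    (P : Subgroup G).map (MulAut.conj c).toMonoidHom = ((c • P : Sylow p G) : Subgroup G) := by
  rw [Sylow.coe_subgroup_smul, Subgroup.pointwise_smul_def]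
  rfl

theorem ftb_A1_mem (P : Sylow p G) (c z : G) :
    z ∈ ((c • P : Sylow p G) : Subgroup G) ↔ ∃ k ∈ (P : Subgroup G), c * k * c⁻¹ = z := by
  rw [← ftb_A1_coe, Subgroup.mem_map]
  rfl

/-- A1: (from the conclusions of MIN2 and F2) the Feit–Thompson hypothesis for a Sylow
`p`-subgroup meeting the centre trivially. -/
theorem ftb_A1
    (hmin2 : ∀ K : Subgroup G, K ≠ ⊤ → ∀ (P₁ P₂ : Sylow p G) (x y : G), x ∈ K → y ∈ K →
      x ∈ (P₁ : Subgroup G) → y ∈ (P₂ : Subgroup G) →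
      ∃ P₀ : Sylow p G, x ∈ (P₀ : Subgroup G) ∧ y ∈ (P₀ : Subgroup G))
    (hf2 : ∀ P₁ P₂ : Sylow p G, P₁ ≠ P₂ → ∀ x : G, x ∈ (P₁ : Subgroup G) →
      x ∈ (P₂ : Subgroup G) → x ∈ Subgroup.center G)
    (P : Sylow p G) (hZ : (P : Subgroup G) ⊓ Subgroup.center G = ⊥) :
    Cfsg.Agent.Helper15.FTHyp (P : Subgroup G) := by
  intro g hg a b ha hb
  have hK : Subgroup.centralizer ({g} : Set G) ≠ ⊤ := by
    intro h
    apply hg
    rw [Subgroup.mem_center_iff]
    intro z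
    have hz : z ∈ Subgroup.centralizer ({g} : Set G) := by
      rw [h]
      exact Subgroup.mem_top z
    rw [Subgroup.mem_centralizer_iff] at hz
    exact (hz g rfl).symm
  have key : ∀ c : G, Subgroup.centralizer ({g} : Set G) ⊓
      (P : Subgroup G).map (MulAut.conj c).toMonoidHom ≠ ⊥ →
      ∃ x, x ≠ 1 ∧ x ∈ Subgroup.centralizer ({g} : Set G) ∧
        x ∈ ((c • P : Sylow p G) : Subgroup G) := by
    intro c hc
    by_contra hcon
    push Not at hcon
    apply hc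
    rw [Subgroup.eq_bot_iff_forall]
    intro x hx
    by_contra hx1
    apply hcon x hx1 hx.1
    rw [← ftb_A1_coe]
    exact hx.2
  obtain ⟨x, hx1, hxK, hxa⟩ := key a ha
  obtain ⟨y, hy1, hyK, hyb⟩ := key b hb
  obtain ⟨P₀, hxP₀, hyP₀⟩ := hmin2 _ hK (a • P) (b • P) x y hxK hyK hxa hyb
  have hcent : ∀ (c : G) (z : G), z ≠ 1 → z ∈ ((c • P : Sylow p G) : Subgroup G) →
      z ∈ (P₀ : Subgroup G) → c • P = P₀ := by
    intro c z hz1 hzc hz0
    by_contra hne
    have hzZ := hf2 (c • P) P₀ hne z hzc hz0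
    obtain ⟨k, hk, rfl⟩ := (ftb_A1_mem P c z).1 hzc
    have h1 := Subgroup.mem_center_iff.1 hzZ c
    have h2 : c * k * c⁻¹ = k := by
      have h3 : c * k * c⁻¹ = c⁻¹ * (c * (c * k * c⁻¹)) := by group
      rw [h3, h1]
      group
    rw [h2] at hzZ hz1
    have hkZ : k ∈ (P : Subgroup G) ⊓ Subgroup.center G := ⟨hk, hzZ⟩
    rw [hZ, Subgroup.mem_bot] at hkZ
    exact hz1 hkZ
  have e1 := hcent a x hx1 hxa hxP₀
  have e2 := hcent b y hy1 hyb hyP₀
  rw [ftb_A1_coe, ftb_A1_coe, e1, e2]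

end Cfsg.Agent.Helper51
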