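import Mathlib

set_option autoImplicit false

/-!
Helper51: Hall–Wielandt, part 1: the Engel norm lemma.

If conjugation `c` by `z` satisfies the Engel condition `[t, z; p - 1] = 1` on a group `T`, then
for every homomorphism `ψ` from `T` to a commutative group of exponent `p` the norm
`∏_{i<p} ψ (c^i t)` is trivial, because `1 + c + ⋯ + c^(p-1) = (c - 1)^(p-1)` in characteristic
`p`.
-/

namespace Cfsg.Agent.Helper51

open Finset

/-- In characteristic `p`, `(ξ - 1)^(p-1) = 1 + ξ + ⋯ + ξ^(p-1)`. -/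
theorem hw_geom {R : Type*} [Ring R] {p : ℕ} [Fact p.Prime] [Algebra (ZMod p) R]
    (ξ : R) : (ξ - 1) ^ (p - 1) = ∑ i ∈ range p, ξ ^ i := by
  have hp : p.Prime := Fact.out
  have h : ((Polynomial.X : Polynomial (ZMod p)) - 1) ^ (p - 1) =
      ∑ i ∈ range p, (Polynomial.X : Polynomial (ZMod p)) ^ i := by
    have h1 : ((Polynomial.X : Polynomial (ZMod p)) - 1) ^ (p - 1) * (Polynomial.X - 1) =
        (∑ i ∈ range p, (Polynomial.X : Polynomial (ZMod p)) ^ i) * (Polynomial.X - 1) := by
      rw [← pow_succ, Nat.sub_add_cancel hp.pos, geom_sum_mul, sub_pow_char, one_pow]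
    have hne : (Polynomial.X : Polynomial (ZMod p)) - 1 ≠ 0 := by
      have := Polynomial.X_sub_C_ne_zero (1 : ZMod p)
      simpa using this
    exact mul_right_cancel₀ hne h1
  have h2 := congrArg (Polynomial.aeval ξ) h
  simpa using h2

/-- Engel norm lemma (type version). -/
theorem hw_engel_norm {T : Type*} [Group T] {A : Type*} [CommGroup A] {p : ℕ} [Fact p.Prime]
    (hA : ∀ a : A, a ^ p = 1) (c : T →* T) (ψ : T →* A)
    (hE : ∀ t : T, (fun y : T => y⁻¹ * c y)^[p - 1] t = 1) (t : T) :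
    ∏ i ∈ range p, ψ (c^[i] t) = 1 := by
  classical
  let _ : Module (ZMod p) (Additive A) := AddCommGroup.zmodModule (n := p) (by
    intro a
    have h1 := hA (Additive.toMul a)
    have h2 : p • a = Additive.ofMul ((Additive.toMul a) ^ p) := rfl
    rw [h2, h1]
    rfl)
  let ξ : Module.End (ZMod p) (T → Additive A) := LinearMap.funLeft (ZMod p) (Additive A) c
  have hξ : ∀ (Ψ : T → Additive A) (s : T), ξ Ψ s = Ψ (c s) := fun Ψ s => rfl
  have hpow : ∀ (i : ℕ) (Ψ : T → Additive A), (ξ ^ i) Ψ = fun s => Ψ (c^[i] s) := by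
    intro i
    induction i with
    | zero => intro Ψ; rfl
    | succ i ih =>
      intro Ψ
      rw [pow_succ, Module.End.mul_apply, ih]
      funext s
      rw [Function.iterate_succ_apply', hξ]
  have hsub : ∀ (k : ℕ) (φ : T →* A),
      ((ξ - 1) ^ k) (fun s => Additive.ofMul (φ s)) =
        fun s => Additive.ofMul (φ ((fun y : T => y⁻¹ * c y)^[k] s)) := by
    intro k
    induction k with
    | zero => intro φ; rfl
    | succ k ih =>
      intro φ
      rw [pow_succ, Module.End.mul_apply]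
      have h1 : (ξ - 1) (fun s => Additive.ofMul (φ s)) =
          fun s => Additive.ofMul ((φ.comp c / φ) s) := by
        funext s
        rw [LinearMap.sub_apply, Module.End.one_apply, Pi.sub_apply, hξ]
        rfl
      rw [h1, ih]
      funext s
      rw [Function.iterate_succ_apply']
      congr 1
      rw [MonoidHom.div_apply, MonoidHom.comp_apply, map_mul, map_inv, div_eq_mul_inv, mul_comm]
  have h1 := hw_geom (p := p) ξ
  have h2 : ((ξ - 1) ^ (p - 1)) (fun s => Additive.ofMul (ψ s)) t =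
      (∑ i ∈ range p, ξ ^ i) (fun s => Additive.ofMul (ψ s)) t := by rw [h1]
  rw [hsub] at h2
  beta_reduce at h2
  rw [hE, map_one, LinearMap.sum_apply, Finset.sum_apply] at h2
  have h3 : ∀ i ∈ range p, (ξ ^ i) (fun s => Additive.ofMul (ψ s)) t =
      Additive.ofMul (ψ (c^[i] t)) := by
    intro i _
    rw [hpow]
  rw [Finset.sum_congr rfl h3, ← ofMul_prod] at h2
  exact (Additive.ofMul.injective h2).symm

/-- Engel norm lemma for a subgroup normalised by `z`. -/
theorem hw_engel_norm_sub {G : Type*} [Group G] {A : Type*} [CommGroup A] {p : ℕ} [Fact p.Prime]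
    (hA : ∀ a : A, a ^ p = 1) (T : Subgroup G) (z : G) (hz : ∀ t ∈ T, z⁻¹ * t * z ∈ T)
    (φ : G → A) (hφ : ∀ a ∈ T, ∀ b ∈ T, φ (a * b) = φ a * φ b)
    (hE : ∀ t ∈ T, (fun y : G => y⁻¹ * z⁻¹ * y * z)^[p - 1] t = 1) (t : G) (ht : t ∈ T) :
    ∏ i ∈ range p, φ ((z ^ i)⁻¹ * t * z ^ i) = 1 := by
  let c : T →* T :=
    { toFun := fun y => ⟨z⁻¹ * (y : G) * z, hz y y.2⟩
      map_one' := by
        apply Subtype.ext
        show z⁻¹ * ((1 : T) : G) * z = ((1 : T) : G)
        rw [Subgroup.coe_one, mul_one, inv_mul_cancel]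
      map_mul' := by
        intro a b
        apply Subtype.ext
        show z⁻¹ * ((a * b : T) : G) * z = (z⁻¹ * (a : G) * z) * (z⁻¹ * (b : G) * z)
        rw [Subgroup.coe_mul]
        group }
  have hφ1 : φ 1 = 1 := by
    have h1 := hφ 1 T.one_mem 1 T.one_mem
    rw [mul_one] at h1
    exact left_eq_mul.mp h1
  let ψ : T →* A :=
    { toFun := fun y => φ (y : G)
      map_one' := hφ1
      map_mul' := fun a b => hφ a a.2 b b.2 }
  have hc : ∀ (i : ℕ) (y : T), ((c^[i] y : T) : G) = (z ^ i)⁻¹ * (y : G) * z ^ i := by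
    intro i
    induction i with
    | zero => intro y; simp
    | succ i ih =>
      intro y
      rw [Function.iterate_succ_apply', pow_succ]
      show z⁻¹ * ((c^[i] y : T) : G) * z = _
      rw [ih]
      group
  have hcomm : ∀ (k : ℕ) (y : T), (((fun y : T => y⁻¹ * c y)^[k] y : T) : G) =
      (fun y : G => y⁻¹ * z⁻¹ * y * z)^[k] (y : G) := by
    intro k
    induction k with
    | zero => intro y; rfl
    | succ k ih =>
      intro y
      rw [Function.iterate_succ_apply', Function.iterate_succ_apply', ← ih]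
      show (((fun y : T => y⁻¹ * c y)^[k] y : T) : G)⁻¹ *
        (z⁻¹ * (((fun y : T => y⁻¹ * c y)^[k] y : T) : G) * z) = _
      group
  have h := hw_engel_norm hA c ψ
    (fun y => Subtype.ext (by rw [hcomm]; exact hE y y.2)) ⟨t, ht⟩
  rw [← h]
  refine Finset.prod_congr rfl (fun i _ => ?_)
  show φ _ = φ ((c^[i] ⟨t, ht⟩ : T) : G)
  rw [hc]

end Cfsg.Agent.Helper51
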