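import Mathlib
import Cfsg.Agent.Helper51.StrongAlperin4

set_option autoImplicit false

/-!
Helper51: Hall–Wielandt, part 3: reduction of stability of a function on a Sylow subgroup to
invariance on tame subgroups, through the strong Alperin–Goldschmidt theorem (`rel_all`).
-/

namespace Cfsg.Agent.Helper51

open Subgroup
open Cfsg.Agent.Helper33

variable {G : Type*} [Group G]

theorem hw_ncard_conjSet [Finite G] (g : G) (B : Set G) : (conjSet g B).ncard = B.ncard := by
  unfold conjSet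
  apply Set.ncard_image_of_injective
  intro a b hab
  have h1 : g⁻¹ * a * g = g⁻¹ * b * g := hab
  have h2 : a = g * (g⁻¹ * a * g) * g⁻¹ := by group
  rw [h2, h1]
  group

/-- Invariance along a pure chain. -/
theorem hw_chain_stable [Finite G] {p : ℕ} {P : Subgroup G} {A : Type*} (f : G → A) (k : ℕ)
    (ha : ∀ H X : Subgroup G, GoodPair p P H X → k ≤ Nat.card H →
      ∀ x ∈ normalizer (H : Set G), ∀ h ∈ H, f (x⁻¹ * h * x) = f h) :
    ∀ (l : List (Subgroup G × Subgroup G × G)) (B : Set G), PChain p P B l → k ≤ B.ncard →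
      ∀ b ∈ B, f ((lprod l)⁻¹ * b * lprod l) = f b
  | [], B, _, _, b, _ => by
    rw [lprod_nil, inv_one, one_mul, mul_one]
  | t :: l, B, h, hk, b, hb => by
    rw [lprod_cons]
    have hx : t.2.2 ∈ normalizer (t.1 : Set G) := h.1.mem_normalizer h.2.1
    have hBH : B ⊆ (t.1 : Set G) := h.2.2.1
    have hcard : k ≤ Nat.card t.1 := by
      have h1 := Set.ncard_le_ncard hBH (Set.toFinite _)
      have h2 : Nat.card t.1 = (t.1 : Set G).ncard := Nat.card_coe_set_eq (t.1 : Set G)
      omega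
    have h1 := ha t.1 t.2.1 h.1 hcard t.2.2 hx b (hBH hb)
    have h2 := hw_chain_stable f k ha l (conjSet t.2.2 B) h.2.2.2
      (by rw [hw_ncard_conjSet]; exact hk) (t.2.2⁻¹ * b * t.2.2) ⟨b, hb, rfl⟩
    rw [← h1, ← h2]
    congr 1
    group

/-- Stability of `f` on subgroups of order at least `k`, from invariance on tame subgroups of
order at least `k` and under `N_G(P)`. -/
theorem hw_fusion [Finite G] {p : ℕ} [Fact p.Prime] (P : Sylow p G) {A : Type*} (f : G → A)
    (k : ℕ)
    (ha : ∀ H X : Subgroup G, GoodPair p (P : Subgroup G) H X → k ≤ Nat.card H →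
      ∀ x ∈ normalizer (H : Set G), ∀ h ∈ H, f (x⁻¹ * h * x) = f h)
    (hb : ∀ n ∈ normalizer ((P : Subgroup G) : Set G), ∀ u ∈ (P : Subgroup G),
      f (n⁻¹ * u * n) = f u)
    (U : Subgroup G) (hU : U ≤ (P : Subgroup G)) (hk : k ≤ Nat.card U) (g : G)
    (hg : ∀ u ∈ U, g⁻¹ * u * g ∈ (P : Subgroup G)) :
    ∀ u ∈ U, f (g⁻¹ * u * g) = f u := by
  obtain ⟨w, hw, hwP⟩ := rel_all P (g • P)
  obtain ⟨c, hc, l, hl, rfl⟩ := hw
  have hUle : (U : Set G) ⊆
      (((P : Subgroup G) ⊓ ((g • P : Sylow p G) : Subgroup G) : Subgroup G) : Set G) := by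
    intro u hu
    exact ⟨hU hu, (mem_smul_sylow g P u).mpr (hg u hu)⟩
  have hn : (c * lprod l)⁻¹ * g ∈ normalizer ((P : Subgroup G) : Set G) := by
    rw [smul_smul] at hwP
    exact Sylow.smul_eq_iff_mem_normalizer.mp hwP
  have hkU : k ≤ (((P : Subgroup G) ⊓ ((g • P : Sylow p G) : Subgroup G) : Subgroup G) :
      Set G).ncard := by
    have h1 := Set.ncard_le_ncard hUle (Set.toFinite _)
    have h2 : Nat.card U = (U : Set G).ncard := Nat.card_coe_set_eq (U : Set G)
    omega
  intro u hu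
  have hchain := hw_chain_stable f k ha l _ hl hkU u (hUle hu)
  have hcu : c⁻¹ * u * c = u := by
    have h1 := (mem_centralizer_iff.mp hc) u (hUle hu)
    rw [mul_assoc, h1]
    group
  have hPmem : (lprod l)⁻¹ * u * lprod l ∈ (P : Subgroup G) := by
    have h1 := hl.conj_subset (P := (P : Subgroup G))
      (fun x hx => (show x ∈ (P : Subgroup G) ⊓ ((g • P : Sylow p G) : Subgroup G) from hx).1)
    exact h1 ⟨u, hUle hu, rfl⟩
  have h3 := hb _ hn _ hPmem
  rw [← hchain, ← h3]
  congr 1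
  have e : ((c * lprod l)⁻¹ * g)⁻¹ * ((lprod l)⁻¹ * u * lprod l) * ((c * lprod l)⁻¹ * g) =
      g⁻¹ * (c * (c⁻¹ * u * c) * c⁻¹) * g := by
    rw [hcu]
    group
  rw [e]
  group

end Cfsg.Agent.Helper51
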