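import Mathlib
import Cfsg.Agent.Helper19.TransferOrbit

set_option autoImplicit false

/-!
Helper51: Hall–Wielandt, part 2: the local averaging lemma.

`T ⊴ L`, `S ≤ L` a `p`-subgroup of index prime to `p` containing `T`, and `f` a function to a
commutative group of exponent `p` which is `S`-invariant on `T`.  If an element `z ∈ S` has trivial
norms `∏_{i<p} f (x⁻¹ (z^{-i} t z^i) x)` and moves every coset `x S` for which `x` does not fix
`f` on `T`, then `f` is `L`-invariant on `T`.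
-/

namespace Cfsg.Agent.Helper51

open Finset

theorem hw_eq_of_pow_eq {A : Type*} [CommGroup A] {p n : ℕ} (hp : p.Prime) (hn : ¬ p ∣ n)
    (hA : ∀ a : A, a ^ p = 1) {a b : A} (h : a ^ n = b ^ n) : a = b := by
  have h1 : (a / b) ^ n = 1 := by rw [div_pow, h, div_self']
  have h2 : (a / b) ^ p = 1 := hA _
  have h3 : orderOf (a / b) ∣ n := orderOf_dvd_of_pow_eq_one h1
  have h4 : orderOf (a / b) ∣ p := orderOf_dvd_of_pow_eq_one h2
  have h5 : orderOf (a / b) = 1 := by
    rcases (Nat.dvd_prime hp).mp h4 with h | h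
    · exact h
    · exfalso; exact hn (h ▸ h3)
  exact div_eq_one.mp (orderOf_eq_one_iff.mp h5)

/-- The local averaging lemma. -/
theorem hw_local {G : Type*} [Group G] [Finite G] {p : ℕ} [Fact p.Prime] {A : Type*}
    [CommGroup A] (hA : ∀ a : A, a ^ p = 1) (T S L : Subgroup G) (hTS : T ≤ S) (hSL : S ≤ L)
    (hLT : L ≤ Subgroup.normalizer (T : Set G)) (hS : IsPGroup p S)
    (hidx : ¬ p ∣ S.relIndex L)
    (f : G → A) (hfS : ∀ s ∈ S, ∀ t ∈ T, f (s⁻¹ * t * s) = f t)
    (z : G) (hzS : z ∈ S)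
    (hnorm : ∀ x ∈ L, ∀ t ∈ T, ∏ i ∈ range p, f (x⁻¹ * ((z ^ i)⁻¹ * t * z ^ i) * x) = 1)
    (hbad : ∀ x ∈ L, (∀ t ∈ T, f (x⁻¹ * t * x) = f t) ∨ x⁻¹ * z * x ∉ S) :
    ∀ x ∈ L, ∀ t ∈ T, f (x⁻¹ * t * x) = f t := by
  classical
  have hp : p.Prime := Fact.out
  have hconj : ∀ x ∈ L, ∀ t ∈ T, x⁻¹ * t * x ∈ T := by
    intro x hx t ht
    have h1 := hLT (L.inv_mem hx)
    have h2 := (Subgroup.mem_normalizer_iff.mp h1 t).mp ht
    rwa [inv_inv] at h2
  have hconj' : ∀ x ∈ L, ∀ t ∈ T, x * t * x⁻¹ ∈ T := by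
    intro x hx t ht
    have h2 := hconj x⁻¹ (L.inv_mem hx) t ht
    rwa [inv_inv] at h2
  -- right multiplication by `S` does not change the value
  have hR : ∀ x ∈ L, ∀ s ∈ S, ∀ t ∈ T, f ((x * s)⁻¹ * t * (x * s)) = f (x⁻¹ * t * x) := by
    intro x hx s hs t ht
    have h1 := hfS s hs (x⁻¹ * t * x) (hconj x hx t ht)
    rw [← h1]
    congr 1
    group
  set K : Subgroup L := S.subgroupOf L with hK
  haveI : Fintype (L ⧸ K) := Fintype.ofFinite _
  -- the value function on cosets
  let F : G → (L ⧸ K) → A := fun t ω => f (((ω.out : L) : G)⁻¹ * t * ((ω.out : L) : G))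
  have hF : ∀ t ∈ T, ∀ x : L, F t (QuotientGroup.mk x) = f ((x : G)⁻¹ * t * (x : G)) := by
    intro t ht x
    obtain ⟨k, hk⟩ := QuotientGroup.mk_out_eq_mul K x
    show f ((((QuotientGroup.mk x : L ⧸ K).out : L) : G)⁻¹ * t *
      (((QuotientGroup.mk x : L ⧸ K).out : L) : G)) = _
    rw [hk, Subgroup.coe_mul]
    exact hR x x.2 k (Subgroup.mem_subgroupOf.mp k.2) t ht
  -- the acting cyclic group
  let ζ : L := ⟨z, hSL hzS⟩
  have hζK : ζ ∈ K := Subgroup.mem_subgroupOf.mpr hzS
  have hKp : IsPGroup p K := hS.comap_of_injective L.subtype L.subtype_injective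
  have hΓ : IsPGroup p (Subgroup.zpowers ζ) := hKp.to_le ((Subgroup.zpowers_le).mpr hζK)
  let b₀ : Subgroup.zpowers ζ := ⟨ζ, Subgroup.mem_zpowers ζ⟩
  have hB : Subgroup.closure ({b₀} : Set (Subgroup.zpowers ζ)) = ⊤ := by
    rw [eq_top_iff]
    rintro ⟨γ, hγ⟩ -
    obtain ⟨k, rfl⟩ := Subgroup.mem_zpowers_iff.mp hγ
    have e : (⟨ζ ^ k, hγ⟩ : Subgroup.zpowers ζ) = b₀ ^ k := by
      apply Subtype.ext
      rw [Subgroup.coe_zpow]
    rw [e]
    exact Subgroup.zpow_mem _ (Subgroup.subset_closure (Set.mem_singleton b₀)) k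
  have hsmul : ∀ (γ : Subgroup.zpowers ζ) (x : L),
      γ • (QuotientGroup.mk x : L ⧸ K) = QuotientGroup.mk ((γ : L) * x) := fun γ x => rfl
  -- good elements
  have hgoodL : ∀ x ∈ L, ∀ s ∈ S, (∀ t ∈ T, f ((s * x)⁻¹ * t * (s * x)) = f t) →
      ∀ t ∈ T, f (x⁻¹ * t * x) = f t := by
    intro x hx s hs hgood t ht
    have h1 := hgood (s * t * s⁻¹) (hconj' s (hSL hs) t ht)
    have h2 := hfS s⁻¹ (S.inv_mem hs) t ht
    rw [inv_inv] at h2
    rw [h2] at h1
    rw [← h1]
    congr 1
    group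
  intro y hy t ht
  -- the key product identity
  have key : ∀ t ∈ T, ∏ ω : L ⧸ K, F t ω = f t ^ Fintype.card (L ⧸ K) := by
    intro t ht
    set s : Finset (L ⧸ K) := univ.filter (fun ω => ¬ ∀ t' ∈ T, F t' ω = f t') with hs
    have hN : ∀ b ∈ ({b₀} : Set (Subgroup.zpowers ζ)), ∀ ω : L ⧸ K,
        ∏ i ∈ range p, (fun ω => F t ω / f t) (b ^ i • ω) = 1 := by
      intro b hb ω
      rw [Set.mem_singleton_iff] at hb
      subst hb
      induction ω using QuotientGroup.induction_on with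
      | H x =>
        have h1 : ∀ i ∈ range p, (fun ω => F t ω / f t) (b₀ ^ i • (QuotientGroup.mk x : L ⧸ K)) =
            f ((x : G)⁻¹ * ((z ^ i)⁻¹ * t * z ^ i) * (x : G)) / f t := by
          intro i _
          show F t (b₀ ^ i • (QuotientGroup.mk x : L ⧸ K)) / f t = _
          rw [hsmul, hF t ht]
          congr 2
          show (z ^ i * (x : G))⁻¹ * t * (z ^ i * (x : G)) = _
          group
        rw [Finset.prod_congr rfl h1, Finset.prod_div_distrib, hnorm x x.2 t ht,
          Finset.prod_const, card_range, hA, div_one]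
    have hinv : ∀ (γ : Subgroup.zpowers ζ) (ω : L ⧸ K), ω ∈ s → γ • ω ∈ s := by
      intro γ ω hω
      rw [hs, mem_filter] at hω ⊢
      refine ⟨mem_univ _, fun hgood => hω.2 ?_⟩
      induction ω using QuotientGroup.induction_on with
      | H x =>
        rw [hsmul] at hgood
        have hγS : ((γ : L) : G) ∈ S := by
          have h1 : (γ : L) ∈ K := (Subgroup.zpowers_le.mpr hζK) γ.2
          exact Subgroup.mem_subgroupOf.mp h1
        have h2 : ∀ t' ∈ T, f ((((γ : L) : G) * (x : G))⁻¹ * t' * (((γ : L) : G) * (x : G))) =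
            f t' := by
          intro t' ht'
          have h3 := hgood t' ht'
          rw [hF t' ht'] at h3
          exact h3
        intro t' ht'
        rw [hF t' ht']
        exact hgoodL x x.2 _ hγS h2 t' ht'
    have hnf : ∀ ω ∈ s, ∃ γ : Subgroup.zpowers ζ, γ • ω ≠ ω := by
      intro ω hω
      rw [hs, mem_filter] at hω
      induction ω using QuotientGroup.induction_on with
      | H x =>
        refine ⟨b₀, fun hfix => hω.2 ?_⟩
        rw [hsmul, QuotientGroup.eq] at hfix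
        have h1 : (((b₀ : L) * x)⁻¹ * x : L) ∈ K := hfix
        have h2 : ((x : G))⁻¹ * z⁻¹ * (x : G) ∈ S := by
          have h3 := Subgroup.mem_subgroupOf.mp h1
          have e : ((((b₀ : L) * x)⁻¹ * x : L) : G) = ((x : G))⁻¹ * z⁻¹ * (x : G) := by
            show (z * (x : G))⁻¹ * (x : G) = _
            group
          rwa [e] at h3
        have h4 : ((x : G))⁻¹ * z * (x : G) ∈ S := by
          have h5 := S.inv_mem h2
          have e : (((x : G))⁻¹ * z⁻¹ * (x : G))⁻¹ = ((x : G))⁻¹ * z * (x : G) := by group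
          rwa [e] at h5
        rcases hbad x x.2 with hg | hb
        · intro t' ht'
          rw [hF t' ht']
          exact hg t' ht'
        · exact absurd h4 hb
    have h1 := Cfsg.Agent.Helper19.prod_invariant_eq_one hΓ hB (fun ω => F t ω / f t) hN
      s.card s rfl hinv hnf
    have h2 : ∏ ω ∈ s, (fun ω => F t ω / f t) ω = ∏ ω : L ⧸ K, (fun ω => F t ω / f t) ω := by
      apply Finset.prod_subset (subset_univ s)
      intro ω _ hω
      rw [hs, mem_filter] at hω
      have h3 : ∀ t' ∈ T, F t' ω = f t' := by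
        by_contra hcon
        exact hω ⟨mem_univ _, hcon⟩
      show F t ω / f t = 1
      rw [h3 t ht, div_self']
    rw [h2, Finset.prod_div_distrib, Finset.prod_const, div_eq_one] at h1
    exact h1
  have hinvar : ∏ ω : L ⧸ K, F (y⁻¹ * t * y) ω = ∏ ω : L ⧸ K, F t ω := by
    have h1 : ∀ ω : L ⧸ K, F (y⁻¹ * t * y) ω = F t ((⟨y, hy⟩ : L) • ω) := by
      intro ω
      induction ω using QuotientGroup.induction_on with
      | H x =>
        have h2 : (⟨y, hy⟩ : L) • (QuotientGroup.mk x : L ⧸ K) =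
            QuotientGroup.mk ((⟨y, hy⟩ : L) * x) := rfl
        rw [h2, hF _ (hconj y hy t ht), hF t ht]
        congr 1
        show (x : G)⁻¹ * (y⁻¹ * t * y) * (x : G) = (y * (x : G))⁻¹ * t * (y * (x : G))
        group
    rw [Finset.prod_congr rfl (fun ω _ => h1 ω)]
    exact (MulAction.bijective (⟨y, hy⟩ : L)).prod_comp (F t)
  have h1 := key (y⁻¹ * t * y) (hconj y hy t ht)
  have h2 := key t ht
  rw [hinvar, h2] at h1
  have hcard : ¬ p ∣ Fintype.card (L ⧸ K) := by
    rw [← Nat.card_eq_fintype_card, ← Subgroup.index_eq_card]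
    exact hidx
  exact (hw_eq_of_pow_eq hp hcard hA h1).symm

end Cfsg.Agent.Helper51
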