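import Mathlib
import Cfsg.Prelude.Def_Transfer
import Cfsg.Agent.Helper2.Grun
import Cfsg.Agent.Helper51.HWEngel
import Cfsg.Agent.Helper51.HWLocal
import Cfsg.Agent.Helper51.HWFusion

set_option autoImplicit false

/-!
Helper51: Hall–Wielandt, part 4: a function on `G`, multiplicative on `N_G(Q)` with values in a
commutative group of exponent `p`, is `G`-stable on the Sylow subgroup `P`, when `Q` is weakly
closed in `P` and satisfies the Engel condition `[P, Q; p - 1] = 1`.
-/

namespace Cfsg.Agent.Helper51

open Subgroup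
open Cfsg.Agent.Helper33
open scoped Pointwise

variable {G : Type*} [Group G]

/-- A subgroup `T` of the `p`-group `P` not containing the subgroup `Q ⊴ P` is normalised by an
element of `Q` outside `T`. -/
theorem hw_exists_normalizing [Finite G] {p : ℕ} [Fact p.Prime] {P Q T : Subgroup G}
    (hP : IsPGroup p P) (hQP : Q ≤ P) (hTP : T ≤ P) (hPQ : P ≤ normalizer (Q : Set G))
    (hQT : ¬ Q ≤ T) : ∃ z ∈ Q, z ∈ normalizer (T : Set G) ∧ z ∉ T := by
  have hK : IsPGroup p (Q ⊔ T : Subgroup G) := hP.to_le (sup_le hQP hTP)
  have hne : T ≠ Q ⊔ T := by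
    intro h
    apply hQT
    rw [h]
    exact le_sup_left
  obtain ⟨x, hxK, hxN, hxT⟩ := exists_mem_normalizer_not_mem hK le_sup_right hne
  have hcoe := coe_mul_of_right_le_normalizer_left Q T (hTP.trans hPQ)
  have hx' : x ∈ ((Q : Set G) * (T : Set G)) := by
    rw [← hcoe]
    exact hxK
  obtain ⟨q, hq, t, ht, rfl⟩ := Set.mem_mul.mp hx'
  refine ⟨q, hq, ?_, ?_⟩
  · have h1 := (normalizer (T : Set G)).mul_mem hxN
      ((normalizer (T : Set G)).inv_mem (le_normalizer ht))
    rwa [mul_inv_cancel_right] at h1
  · intro hqT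
    exact hxT (T.mul_mem hqT ht)

/-- The stability theorem behind Hall–Wielandt. -/
theorem hw_stable [Finite G] {p : ℕ} [Fact p.Prime] (P : Sylow p G) (Q : Subgroup G)
    (hQ : Cfsg.IsWeaklyClosed Q (P : Subgroup G))
    (hE : ∀ u ∈ (P : Subgroup G), ∀ z ∈ Q, (fun y : G => y⁻¹ * z⁻¹ * y * z)^[p - 1] u = 1)
    {A : Type*} [CommGroup A] (hA : ∀ a : A, a ^ p = 1) (f : G → A)
    (hmul : ∀ a ∈ normalizer (Q : Set G), ∀ b ∈ normalizer (Q : Set G), f (a * b) = f a * f b)
    (u g : G) (hu : u ∈ (P : Subgroup G)) (hug : g⁻¹ * u * g ∈ (P : Subgroup G)) :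
    f (g⁻¹ * u * g) = f u := by
  have hPN : (P : Subgroup G) ≤ normalizer (Q : Set G) := by
    intro x hx
    exact Cfsg.Agent.Helper2.mem_normalizer_of_weaklyClosed hQ x
      (fun z hz => (P : Subgroup G).mul_mem ((P : Subgroup G).mul_mem hx (hQ.1 hz))
        ((P : Subgroup G).inv_mem hx))
  have hNPN : normalizer ((P : Subgroup G) : Set G) ≤ normalizer (Q : Set G) := by
    intro x hx
    exact Cfsg.Agent.Helper2.mem_normalizer_of_weaklyClosed hQ x
      (fun z hz => (mem_normalizer_iff.mp hx z).mp (hQ.1 hz))
  have hf1 : f 1 = 1 := by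
    have h1 := hmul 1 (one_mem _) 1 (one_mem _)
    rw [mul_one] at h1
    exact left_eq_mul.mp h1
  have hfinv : ∀ n ∈ normalizer (Q : Set G), ∀ a ∈ normalizer (Q : Set G),
      f (n⁻¹ * a * n) = f a := by
    intro n hn a ha
    have hn' := (normalizer (Q : Set G)).inv_mem hn
    rw [hmul _ ((normalizer (Q : Set G)).mul_mem hn' ha) _ hn, hmul _ hn' _ ha,
      mul_comm (f n⁻¹), mul_assoc, ← hmul _ hn' _ hn, inv_mul_cancel, hf1, mul_one]
  -- the downward induction
  have hC : ∀ (n k : ℕ), Nat.card (P : Subgroup G) + 1 ≤ k + n →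
      ∀ U : Subgroup G, U ≤ (P : Subgroup G) → k ≤ Nat.card U → ∀ g : G,
        (∀ u ∈ U, g⁻¹ * u * g ∈ (P : Subgroup G)) → ∀ u ∈ U, f (g⁻¹ * u * g) = f u := by
    intro n
    induction n with
    | zero =>
      intro k hk U hU hkU
      exfalso
      have := Subgroup.card_le_of_le hU
      omega
    | succ n ih =>
      intro k hk
      have hCk := ih (k + 1) (by omega)
      apply hw_fusion P f k
      · intro T X hgood hkT x hx h hh
        have hTP : T ≤ (P : Subgroup G) := hgood.1
        have hidx := hgood.2.1
        by_cases hQT : Q ≤ T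
        · have hxN : x ∈ normalizer (Q : Set G) :=
            Cfsg.Agent.Helper2.mem_normalizer_of_weaklyClosed hQ x
              (fun z hz => hTP ((mem_normalizer_iff.mp hx z).mp (hQT hz)))
          exact hfinv x hxN h (hPN (hTP hh))
        · obtain ⟨z, hzQ, hzN, hzT⟩ := hw_exists_normalizing P.2 hQ.1 hTP hPN hQT
          have hzconj : ∀ t ∈ T, z⁻¹ * t * z ∈ T := by
            intro t ht
            have h1 := (mem_normalizer_iff.mp ((normalizer (T : Set G)).inv_mem hzN) t).mp ht
            rwa [inv_inv] at h1
          refine hw_local hA T ((P : Subgroup G) ⊓ normalizer (T : Set G)) (normalizer (T : Set G))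
            (le_inf hTP le_normalizer) inf_le_right le_rfl (P.2.to_le inf_le_left) hidx f ?_ z
            ⟨hQ.1 hzQ, hzN⟩ ?_ ?_ x hx h hh
          · intro s hs t ht
            exact hfinv s (hPN hs.1) t (hPN (hTP ht))
          · intro x' hx' t ht
            have hx'conj : ∀ t ∈ T, x'⁻¹ * t * x' ∈ T := by
              intro t ht
              have h1 := (mem_normalizer_iff.mp ((normalizer (T : Set G)).inv_mem hx') t).mp ht
              rwa [inv_inv] at h1
            refine hw_engel_norm_sub hA T z hzconj (fun y => f (x'⁻¹ * y * x')) ?_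
              (fun t ht => hE t (hTP ht) z hzQ) t ht
            intro a ha b hb
            show f (x'⁻¹ * (a * b) * x') = f (x'⁻¹ * a * x') * f (x'⁻¹ * b * x')
            rw [← hmul _ (hPN (hTP (hx'conj a ha))) _ (hPN (hTP (hx'conj b hb)))]
            congr 1
            group
          · intro x' hx'
            by_cases hz' : x'⁻¹ * z * x' ∈ (P : Subgroup G) ⊓ normalizer (T : Set G)
            · left
              have hx'conj : ∀ t ∈ T, x'⁻¹ * t * x' ∈ T := by
                intro t ht
                have h1 := (mem_normalizer_iff.mp ((normalizer (T : Set G)).inv_mem hx') t).mp ht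
                rwa [inv_inv] at h1
              have hU : T ⊔ zpowers z ≤ (P : Subgroup G) :=
                sup_le hTP ((zpowers_le).mpr (hQ.1 hzQ))
              have hUc : T ⊔ zpowers z ≤ (P : Subgroup G).map (MulAut.conj x').toMonoidHom := by
                apply sup_le
                · intro t ht
                  exact mem_cj.mpr (hTP (hx'conj t ht))
                · rw [zpowers_le]
                  exact mem_cj.mpr hz'.1
              have hlt : T < T ⊔ zpowers z := by
                refine lt_of_le_of_ne le_sup_left ?_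
                intro h
                apply hzT
                rw [h]
                exact (le_sup_right : zpowers z ≤ T ⊔ zpowers z) (mem_zpowers z)
              have hcard : k + 1 ≤ Nat.card (T ⊔ zpowers z : Subgroup G) := by
                have := card_lt_card_of_lt hlt
                omega
              intro t ht
              exact hCk (T ⊔ zpowers z) hU hcard x' (fun u hu => mem_cj.mp (hUc hu)) t
                (le_sup_left (a := T) ht)
            · right
              exact hz'
      · intro n hn u hu
        exact hfinv n (hNPN hn) u (hPN hu)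
  have h := hC (Nat.card (P : Subgroup G) + 1) 0 (by omega) (zpowers u)
    ((zpowers_le).mpr hu) (Nat.zero_le _) g ?_ u (mem_zpowers u)
  · exact h
  · intro v hv
    obtain ⟨k, rfl⟩ := mem_zpowers_iff.mp hv
    have e : g⁻¹ * u ^ k * g = (g⁻¹ * u * g) ^ k := by
      have h1 : g⁻¹ * u ^ k * g = (MulAut.conj g⁻¹) (u ^ k) := by
        rw [MulAut.conj_apply, inv_inv]
      have h2 : (g⁻¹ * u * g) = (MulAut.conj g⁻¹) u := by
        rw [MulAut.conj_apply, inv_inv]
      rw [h1, h2, map_zpow]
    rw [e]
    exact (P : Subgroup G).zpow_mem hug k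

end Cfsg.Agent.Helper51
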