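import Mathlib
import Cfsg.Prelude.Def_Transfer
import Cfsg.Prelude.Def_BaumannBlocks
import Cfsg.Agent.Helper2.TateGeneral
import Cfsg.Agent.Helper51.HWStable

set_option autoImplicit false

/-!
Helper51: Hall–Wielandt, part 5: Tate's theorem with a "modulo `p`" hypothesis, and the
Hall–Wielandt theorem itself (`hw_main`).
-/

namespace Cfsg.Agent.Helper51

open Subgroup
open scoped commutatorElement

universe u

/-- In a finite `p`-group, an element killed by every homomorphism to a commutative group of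
exponent `p` lies in the Frattini subgroup. -/
theorem hw_mem_frattini {X : Type u} [Group X] [Finite X] {p : ℕ} [Fact p.Prime]
    (hX : IsPGroup p X) (x : X)
    (h : ∀ (A : Type u) [CommGroup A], (∀ a : A, a ^ p = 1) → ∀ ν : X →* A, ν x = 1) :
    x ∈ frattini X := by
  let B : Subgroup (Abelianization X) := (frattini X).map Abelianization.of
  have hexp : ∀ a : Abelianization X ⧸ B, a ^ p = 1 := by
    intro a
    obtain ⟨b, rfl⟩ := QuotientGroup.mk'_surjective B a
    have hb : ∃ y : X, Abelianization.of y = b :=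
      QuotientGroup.induction_on b (fun y => ⟨y, rfl⟩)
    obtain ⟨y, rfl⟩ := hb
    rw [← map_pow, ← map_pow]
    apply (QuotientGroup.eq_one_iff _).mpr
    exact ⟨y ^ p, Cfsg.Agent.Helper2.pow_mem_frattini_of_isPGroup hX y, rfl⟩
  have h1 := h (Abelianization X ⧸ B) hexp ((QuotientGroup.mk' B).comp Abelianization.of)
  rw [MonoidHom.comp_apply] at h1
  have h2 : Abelianization.of x ∈ B := (QuotientGroup.eq_one_iff _).mp h1
  obtain ⟨y, hy, hyx⟩ := h2
  have h3 : y⁻¹ * x ∈ commutator X := by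
    rw [← Abelianization.ker_of, MonoidHom.mem_ker, map_mul, map_inv, hyx, inv_mul_cancel]
  have h4 := Cfsg.Agent.Helper2.commutator_le_frattini_of_isPGroup hX h3
  have h5 := (frattini X).mul_mem hy h4
  rwa [mul_inv_cancel_left] at h5

/-- **Tate's theorem**, with a hypothesis modulo `p`: let `P ≤ H ≤ G` with `P` a Sylow
`p`-subgroup of `G`.  If every homomorphism from `H` to a commutative group of exponent `p` kills
`P ∩ G'`, then `H ∩ O^p(G) ≤ O^p(H)`. -/
theorem hw_tate {G : Type u} [Group G] [Finite G]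
    {p : ℕ} [hp : Fact p.Prime] (P : Sylow p G) (H : Subgroup G)
    (hPH : (P : Subgroup G) ≤ H)
    (hfoc : ∀ (A : Type u) [CommGroup A], (∀ a : A, a ^ p = 1) → ∀ μ : H →* A,
      ∀ t : H, (t : G) ∈ (P : Subgroup G) ⊓ commutator G → μ t = 1) :
    H ⊓ Cfsg.pResidual p G ≤ (Cfsg.pResidual p H).map H.subtype := by
  haveI hMn := Cfsg.Agent.Helper2.pResidual_normal p G
  haveI hK₀n := Cfsg.Agent.Helper2.pResidual_normal p H
  let K : Subgroup H := (Cfsg.pResidual p G).subgroupOf H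
  let L : Subgroup H := Cfsg.pResidual p H ⊔ ⁅K, (⊤ : Subgroup H)⁆
  haveI hKn : K.Normal := inferInstance
  haveI hLn : L.Normal := inferInstance
  have hK₀K : Cfsg.pResidual p H ≤ K := by
    intro x hx
    exact Cfsg.Agent.Helper2.map_pResidual_le H.subtype p ⟨x, hx, rfl⟩
  have hLK : L ≤ K := sup_le hK₀K (Subgroup.commutator_le_left K ⊤)
  let P_H : Sylow p H := P.subtype hPH
  have hP_H : (P_H : Subgroup H) = (P : Subgroup G).subgroupOf H := Sylow.coe_subtype P hPH
  have hQ : IsPGroup p (H ⧸ L) :=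
    Cfsg.Agent.Helper2.isPGroup_quotient_of_pResidual_le L le_sup_left
  have hKL : K ≤ L := by
    by_contra hKL
    let ρ : G →* G ⧸ Cfsg.pResidual p G := QuotientGroup.mk' (Cfsg.pResidual p G)
    let φ : (H ⧸ L) →* G ⧸ Cfsg.pResidual p G :=
      QuotientGroup.lift L (ρ.comp H.subtype) (by
        intro l hl
        have h1 : (l : G) ∈ Cfsg.pResidual p G := hLK hl
        exact (QuotientGroup.eq_one_iff _).mpr h1)
    let σ : H →* H ⧸ L := QuotientGroup.mk' L
    have hσ : ∀ u : H, φ (σ u) = ρ u := fun u => rfl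
    have hrep : ∀ g : G, ∃ u : H, ρ g = ρ u := by
      intro g
      obtain ⟨t, ht, r, hr, rfl⟩ := Cfsg.Agent.Helper2.exists_mul_of_sylow_pResidual P g
      refine ⟨⟨t, hPH ht⟩, ?_⟩
      rw [map_mul]
      have h1 : ρ r = 1 := (QuotientGroup.eq_one_iff r).mpr hr
      rw [h1, mul_one]
    have hker : ∀ a ∈ φ.ker, ∃ k ∈ K, σ k = a := by
      intro a ha
      obtain ⟨u, rfl⟩ := QuotientGroup.mk'_surjective L a
      refine ⟨u, ?_, rfl⟩
      have h1 : ρ (u : G) = 1 := ha
      show (u : G) ∈ Cfsg.pResidual p G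
      exact (QuotientGroup.eq_one_iff (u : G)).mp h1
    have hcent : ∀ a ∈ φ.ker, ∀ x : H ⧸ L, a * x = x * a := by
      intro a ha x
      obtain ⟨k, hk, rfl⟩ := hker a ha
      obtain ⟨u, rfl⟩ := QuotientGroup.mk'_surjective L x
      show σ k * σ u = σ u * σ k
      rw [← map_mul, ← map_mul]
      apply (QuotientGroup.eq).mpr
      have e : (k * u)⁻¹ * (u * k) = ⁅k⁻¹, u⁻¹⁆⁻¹ := by
        rw [commutatorElement_def]; group
      rw [e]
      exact L.inv_mem ((le_sup_right : ⁅K, (⊤ : Subgroup H)⁆ ≤ L)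
        (Subgroup.commutator_mem_commutator (K.inv_mem hk) (Subgroup.mem_top _)))
    obtain ⟨j, hj⟩ := (hQ.to_subgroup φ.ker).exists_card_eq
    have hcop : Nat.Coprime (Nat.card φ.ker) H.index := by
      rw [hj]
      have h1 : ¬ p ∣ H.index := fun hd =>
        P.not_dvd_index (hd.trans (Subgroup.index_dvd_of_le hPH))
      exact Nat.Coprime.pow_left j ((Nat.Prime.coprime_iff_not_dvd hp.out).mpr h1)
    obtain ⟨Ψ, hΨ⟩ := Cfsg.Agent.Helper2.exists_lift_of_central_coprime ρ φ H σ hσ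
      (fun g => by obtain ⟨u, hu⟩ := hrep g; exact ⟨σ u, hu.symm⟩) hcent hcop
    have hfr : φ.ker ≤ frattini (H ⧸ L) := by
      intro a ha
      obtain ⟨k, hk, rfl⟩ := hker a ha
      obtain ⟨t, ht, r, hr, hktr⟩ := Cfsg.Agent.Helper2.exists_mul_of_sylow_pResidual P_H k
      have htP : (t : G) ∈ (P : Subgroup G) := by
        rw [hP_H] at ht; exact ht
      have htK : t ∈ K := by
        have e : t = k * r⁻¹ := by rw [hktr]; group
        rw [e]
        exact K.mul_mem hk (K.inv_mem (hK₀K hr))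
      have htc : (t : G) ∈ (P : Subgroup G) ⊓ commutator G :=
        ⟨htP, Cfsg.Agent.Helper2.sylow_inf_pResidual_le_commutator P ⟨htP, htK⟩⟩
      have h5 : σ k = σ t := by
        rw [hktr, map_mul]
        have h6 : σ r = 1 := (QuotientGroup.eq_one_iff r).mpr
          ((le_sup_left : Cfsg.pResidual p H ≤ L) hr)
        rw [h6, mul_one]
      rw [h5]
      apply hw_mem_frattini hQ
      intro A _ hA ν
      exact hfoc A hA (ν.comp σ) t htc
    have hsup : Ψ.range ⊔ frattini (H ⧸ L) = ⊤ := by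
      rw [eq_top_iff]
      intro x _
      obtain ⟨u, rfl⟩ := QuotientGroup.mk'_surjective L x
      have h1 : (Ψ u)⁻¹ * σ u ∈ φ.ker := by
        rw [MonoidHom.mem_ker, map_mul, map_inv, hΨ, hσ, inv_mul_cancel]
      have h2 : σ u = Ψ u * ((Ψ u)⁻¹ * σ u) := by group
      show σ u ∈ _
      rw [h2]
      exact Subgroup.mul_mem_sup ⟨(u : G), rfl⟩ (hfr h1)
    have hsurj : Ψ.range = ⊤ := frattini_nongenerating hsup
    have hMker : Cfsg.pResidual p G ≤ Ψ.ker := by
      rw [Cfsg.pResidual, Subgroup.closure_le]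
      intro g hg
      have hg' : Nat.Coprime (orderOf g) p := hg
      rw [SetLike.mem_coe, MonoidHom.mem_ker]
      obtain ⟨i, hi⟩ := hQ (Ψ g)
      have h1 : orderOf (Ψ g) ∣ p ^ i := orderOf_dvd_of_pow_eq_one hi
      have h2 : orderOf (Ψ g) ∣ orderOf g := orderOf_map_dvd Ψ g
      have h3 : Nat.Coprime (orderOf g) (p ^ i) := Nat.Coprime.pow_right i hg'
      have h4 : orderOf (Ψ g) = 1 := Nat.eq_one_of_dvd_coprimes h3 h2 h1
      exact orderOf_eq_one_iff.mp h4
    obtain ⟨k, hkK, hkL⟩ := SetLike.not_le_iff_exists.mp hKL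
    have hmem : σ k ∈ Ψ.range := hsurj ▸ Subgroup.mem_top _
    obtain ⟨g, hg⟩ := hmem
    have h1 : ρ g = 1 := by
      rw [← hΨ g, hg, hσ]
      exact (QuotientGroup.eq_one_iff _).mpr hkK
    have h2 : g ∈ Cfsg.pResidual p G := (QuotientGroup.eq_one_iff g).mp h1
    have h3 : Ψ g = 1 := hMker h2
    rw [h3] at hg
    exact hkL ((QuotientGroup.eq_one_iff k).mp hg.symm)
  -- nilpotency of `H / O^p(H)` now gives `K ≤ O^p(H)`
  have hQ₀ : IsPGroup p (H ⧸ Cfsg.pResidual p H) :=
    Cfsg.Agent.Helper2.isPGroup_quotient_of_pResidual_le (Cfsg.pResidual p H) le_rfl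
  haveI : Group.IsNilpotent (H ⧸ Cfsg.pResidual p H) := hQ₀.isNilpotent
  have hbar : K.map (QuotientGroup.mk' (Cfsg.pResidual p H)) ≤
      ⁅K.map (QuotientGroup.mk' (Cfsg.pResidual p H)), (⊤ : Subgroup (H ⧸ Cfsg.pResidual p H))⁆ := by
    calc K.map (QuotientGroup.mk' (Cfsg.pResidual p H))
        ≤ L.map (QuotientGroup.mk' (Cfsg.pResidual p H)) := Subgroup.map_mono hKL
      _ = (Cfsg.pResidual p H).map (QuotientGroup.mk' (Cfsg.pResidual p H)) ⊔
          (⁅K, (⊤ : Subgroup H)⁆).map (QuotientGroup.mk' (Cfsg.pResidual p H)) :=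
            Subgroup.map_sup _ _ _
      _ = (⁅K, (⊤ : Subgroup H)⁆).map (QuotientGroup.mk' (Cfsg.pResidual p H)) := by
            rw [QuotientGroup.map_mk'_self, bot_sup_eq]
      _ ≤ _ := by
            rw [Subgroup.map_commutator]
            exact Subgroup.commutator_mono le_rfl le_top
  have hbot := Cfsg.Agent.Helper2.eq_bot_of_le_commutator_top _ hbar
  intro x hx
  have hxK : (⟨x, hx.1⟩ : H) ∈ K := hx.2
  have h1 : QuotientGroup.mk' (Cfsg.pResidual p H) (⟨x, hx.1⟩ : H) ∈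
      K.map (QuotientGroup.mk' (Cfsg.pResidual p H)) := ⟨_, hxK, rfl⟩
  rw [hbot, Subgroup.mem_bot] at h1
  exact ⟨⟨x, hx.1⟩, (QuotientGroup.eq_one_iff _).mp h1, rfl⟩

/-- Under the Hall–Wielandt hypotheses every homomorphism from `N_G(Q)` to a commutative group of
exponent `p` kills `P ∩ G'`. -/
theorem hw_kills {G : Type u} [Group G] [Finite G] {p : ℕ} [Fact p.Prime] (P : Sylow p G)
    (Q : Subgroup G) (hQ : Cfsg.IsWeaklyClosed Q (P : Subgroup G))
    (hE : ∀ u ∈ (P : Subgroup G), ∀ z ∈ Q, (fun y : G => y⁻¹ * z⁻¹ * y * z)^[p - 1] u = 1)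
    {A : Type*} [CommGroup A] (hA : ∀ a : A, a ^ p = 1)
    (μ : normalizer (Q : Set G) →* A) (t : normalizer (Q : Set G))
    (ht : (t : G) ∈ (P : Subgroup G) ⊓ commutator G) : μ t = 1 := by
  classical
  have hPN : (P : Subgroup G) ≤ normalizer (Q : Set G) := by
    intro x hx
    exact Cfsg.Agent.Helper2.mem_normalizer_of_weaklyClosed hQ x
      (fun z hz => (P : Subgroup G).mul_mem ((P : Subgroup G).mul_mem hx (hQ.1 hz))
        ((P : Subgroup G).inv_mem hx))
  let f : G → A := fun g => if h : g ∈ normalizer (Q : Set G) then μ ⟨g, h⟩ else 1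
  have hf : ∀ (g : G) (h : g ∈ normalizer (Q : Set G)), f g = μ ⟨g, h⟩ := by
    intro g h
    show (if h : g ∈ normalizer (Q : Set G) then μ ⟨g, h⟩ else 1) = _
    rw [dif_pos h]
  have hmul : ∀ a ∈ normalizer (Q : Set G), ∀ b ∈ normalizer (Q : Set G),
      f (a * b) = f a * f b := by
    intro a ha b hb
    rw [hf _ ((normalizer (Q : Set G)).mul_mem ha hb), hf a ha, hf b hb, ← map_mul]
    rfl
  have hstab := hw_stable P Q hQ hE hA f hmul
  have hle : (P : Subgroup G).focalSubgroup ≤ (μ.ker).map (normalizer (Q : Set G)).subtype := by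
    rw [Subgroup.focalSubgroup_def, Subgroup.closure_le]
    rintro g ⟨hgP, x, hxP, u, rfl⟩
    have hxi : x⁻¹ ∈ (P : Subgroup G) := (P : Subgroup G).inv_mem hxP
    have hconj : u⁻¹⁻¹ * x⁻¹ * u⁻¹ ∈ (P : Subgroup G) := by
      have h1 := (P : Subgroup G).mul_mem hxi hgP
      rw [commutatorElement_def] at h1
      have e : x⁻¹ * (x * u * x⁻¹ * u⁻¹) = u⁻¹⁻¹ * x⁻¹ * u⁻¹ := by group
      rwa [e] at h1
    have h2 := hstab x⁻¹ u⁻¹ hxi hconj
    have h3 : f ⁅x, u⁆ = 1 := by
      have e : ⁅x, u⁆ = x * (u⁻¹⁻¹ * x⁻¹ * u⁻¹) := by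
        rw [commutatorElement_def]; group
      rw [e, hmul _ (hPN hxP) _ (hPN hconj), h2, ← hmul _ (hPN hxP) _ (hPN hxi), mul_inv_cancel]
      have h4 := hmul 1 (one_mem _) 1 (one_mem _)
      rw [mul_one] at h4
      exact left_eq_mul.mp h4
    rw [hf _ (hPN hgP)] at h3
    exact ⟨⟨⁅x, u⁆, hPN hgP⟩, h3, rfl⟩
  have h1 : (t : G) ∈ commutator G ⊓ (P : Subgroup G) := ⟨ht.2, ht.1⟩
  rw [Subgroup.commutator_inf_eq_focalSubgroup] at h1
  obtain ⟨n, hn, hnt⟩ := hle h1
  have e : n = t := Subtype.ext hnt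
  rw [← e]
  exact hn

/-- **Hall–Wielandt**: if `Q` is weakly closed in the Sylow `p`-subgroup `P` and
`[P, Q; p - 1] = 1` elementwise, then `O^p(N_G(Q)) = O^p(G) ∩ N_G(Q)`. -/
theorem hw_main {G : Type u} [Group G] [Finite G] {p : ℕ} [Fact p.Prime] (P : Sylow p G)
    (Q : Subgroup G) (hQ : Cfsg.IsWeaklyClosed Q (P : Subgroup G))
    (h : ∀ u ∈ (P : Subgroup G), ∀ z ∈ Q, (fun y : G => y⁻¹ * z⁻¹ * y * z)^[p - 1] u = 1) :
    Cfsg.pResidualOf p (Subgroup.normalizer (Q : Set G)) =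
      Cfsg.pResidual p G ⊓ Subgroup.normalizer (Q : Set G) := by
  have hPN : (P : Subgroup G) ≤ normalizer (Q : Set G) := by
    intro x hx
    exact Cfsg.Agent.Helper2.mem_normalizer_of_weaklyClosed hQ x
      (fun z hz => (P : Subgroup G).mul_mem ((P : Subgroup G).mul_mem hx (hQ.1 hz))
        ((P : Subgroup G).inv_mem hx))
  apply le_antisymm
  · exact le_inf (Cfsg.Agent.Helper2.map_pResidual_le (normalizer (Q : Set G)).subtype p)
      (Subgroup.map_subtype_le _)
  · rw [inf_comm]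
    exact hw_tate P (normalizer (Q : Set G)) hPN
      (fun A _ hA μ t ht => hw_kills P Q hQ h hA μ t ht)

end Cfsg.Agent.Helper51
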