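import Mathlib
import Cfsg.Agent.Helper77.ConvAlg

set_option autoImplicit false

/-!
# PIECE F1 of CALL S4648 (helper77): traces only see the `p'`-part (helper51)
-/

universe u v w

namespace Cfsg.Agent.Helper51

open Cfsg Cfsg.Agent.Helper77

variable {G : Type u} [Group G] [Fintype G]

theorem kul_delta_mul {k : Type v} [CommRing k] (x y : G) :
    ConvAlg.delta k x * ConvAlg.delta k y = ConvAlg.delta k (x * y) := by
  ext g
  rw [ConvAlg.delta_mul_apply]
  by_cases h : g = x * y
  · rw [h, ConvAlg.delta_apply_self]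
    have : x⁻¹ * (x * y) = y := by group
    rw [this, ConvAlg.delta_apply_self]
  · rw [ConvAlg.delta_apply_ne h]
    apply ConvAlg.delta_apply_ne
    intro e
    apply h
    rw [← e]; group

theorem kul_delta_one {k : Type v} [CommRing k] : ConvAlg.delta k (1 : G) = 1 := by
  classical
  ext g
  rw [ConvAlg.one_apply]
  by_cases h : g = 1
  · rw [if_pos h, h, ConvAlg.delta_apply_self]
  · rw [if_neg h, ConvAlg.delta_apply_ne h]

theorem kul_delta_pow {k : Type v} [CommRing k] (x : G) (n : ℕ) :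
    ConvAlg.delta k x ^ n = ConvAlg.delta k (x ^ n) := by
  induction n with
  | zero => rw [pow_zero, pow_zero, kul_delta_one]
  | succ n ih => rw [pow_succ, pow_succ, ih, kul_delta_mul]

theorem kul_trace_ppart {k : Type v} [Field k] (p : ℕ) [Fact p.Prime] (hp : (p : k) = 0) {d : ℕ}
    (ρ : ConvAlg k G →ₐ[k] Matrix (Fin d) (Fin d) k) (x y : G) (hxy : Commute x y)
    (hx : ∃ j : ℕ, orderOf x = p ^ j) :
    (ρ (ConvAlg.delta k (x * y))).trace = (ρ (ConvAlg.delta k y)).trace := by
  obtain ⟨j, hj⟩ := hx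
  haveI : CharP k p := (CharP.charP_iff_prime_eq_zero (Fact.out : p.Prime)).2 hp
  obtain ⟨X, hX⟩ : ∃ X, X = ρ (ConvAlg.delta k x) := ⟨_, rfl⟩
  obtain ⟨Y, hY⟩ : ∃ Y, Y = ρ (ConvAlg.delta k y) := ⟨_, rfl⟩
  have hXY : ρ (ConvAlg.delta k (x * y)) = X * Y := by rw [← kul_delta_mul, map_mul, hX, hY]
  have hcomm : Commute X Y := by
    show X * Y = Y * X
    rw [hX, hY, ← map_mul, ← map_mul, kul_delta_mul, kul_delta_mul, hxy.eq]
  have hXp : X ^ p ^ j = 1 := by
    rw [hX, ← map_pow, kul_delta_pow, ← hj, pow_orderOf_eq_one, kul_delta_one, map_one]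
  have hnil : (X - 1) ^ p ^ j = 0 := by
    have h1 : ((Polynomial.X : Polynomial k) - 1) ^ p ^ j = Polynomial.X ^ p ^ j - 1 := by
      rw [sub_pow_char_pow, one_pow]
    have h2 := congrArg (Polynomial.aeval X) h1
    simp only [map_pow, map_sub, Polynomial.aeval_X, map_one] at h2
    rw [h2, hXp, sub_self]
  have hnil2 : IsNilpotent ((X - 1) * Y) := by
    refine ⟨p ^ j, ?_⟩
    have hc : Commute (X - 1) Y := hcomm.sub_left (Commute.one_left Y)
    rw [hc.mul_pow, hnil, zero_mul]
  have htr := (Matrix.isNilpotent_trace_of_isNilpotent hnil2).eq_zero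
  rw [hXY, ← hY]
  have : X * Y = (X - 1) * Y + Y := by rw [sub_mul, one_mul, sub_add_cancel]
  rw [this, Matrix.trace_add, htr, zero_add]

end Cfsg.Agent.Helper51
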