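import Mathlib
import Cfsg.Prelude.Def_GeometricClasses
import Cfsg.Prelude.Def_Classical
import Cfsg.Agent.Helper13.NPDefs
import Cfsg.Agent.Helper96.OHDefs
import Cfsg.Agent.Helper31.OHOLINE
import Cfsg.Agent.Helper31.OHOPERP
import Cfsg.Agent.Helper70.OHONONISO

set_option autoImplicit false

/-!
CALL NP (helper13; row S5989), piece UNIV: a nondegenerate subspace of dimension `≥ 2` represents
every nonzero scalar.
-/

namespace Cfsg.Agent.Helper51.NP5989

open Module Cfsg Cfsg.Geo Cfsg.Agent.Helper13.NP Cfsg.Agent.Helper96.OH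
open scoped MatrixGroups

universe u

section C

variable {ι : Type} [Fintype ι] [DecidableEq ι] {F : Type*} [Field F] [Fintype F]
  (Q : (ι → F) → F)

/-- UNIV [M]: a nondegenerate subspace of dimension `≥ 2` represents every nonzero scalar. -/
theorem np_univ (hQ : IsNondegenerateQuadraticForm Q) (h2 : (2 : F) ≠ 0)
    (K : Submodule F (ι → F)) (hK : ONd Q K) (hdim : 2 ≤ finrank F K) (a : F) (ha : a ≠ 0) :
    ∃ k ∈ K, Q k = a := by
  classical
  have hK0 : K ≠ ⊥ := by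
    rintro rfl
    simp at hdim
  obtain ⟨u₁, hu₁K, hu₁⟩ := Cfsg.Agent.Helper70.OH5992.o_noniso Q hQ K hK hK0
  have hM₁ : ONd Q (Submodule.span F {u₁}) := by
    intro w hw hw0
    obtain ⟨t, rfl⟩ := Submodule.mem_span_singleton.mp hw
    have ht : t ≠ 0 := by
      rintro rfl
      exact hw0 (zero_smul _ _)
    have hval : QuadraticMap.polar Q u₁ (t • u₁) ≠ 0 := by
      rw [← pB_apply Q hQ, map_smul, smul_eq_mul, pB_self]
      exact mul_ne_zero ht (mul_ne_zero h2 hu₁)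
    refine ⟨⟨u₁, Submodule.mem_span_singleton_self _, hval⟩,
      ⟨u₁, Submodule.mem_span_singleton_self _, ?_⟩⟩
    rw [QuadraticMap.polar_comm]
    exact hval
  have hle : Submodule.span F {u₁} ≤ K := by
    rw [Submodule.span_singleton_le_iff_mem]
    exact hu₁K
  obtain ⟨P, hPK, -, hPnd, -, -, horth, hfr⟩ :=
    Cfsg.Agent.Helper31.OH5992.o_perp Q hQ 1 (fun v => rfl) 1 Nat.one_pos (pow_one 1) K
      (Submodule.span F {u₁}) hK hM₁ hle (by rw [Module.End.one_eq_id, Submodule.map_id])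
      (by rw [Module.End.one_eq_id, Submodule.map_id])
  have hP0 : P ≠ ⊥ := by
    rintro rfl
    have hu₁0 : u₁ ≠ 0 := by
      rintro rfl
      exact hu₁ (q_zero Q hQ)
    have h1 : finrank F (Submodule.span F {u₁}) = 1 := finrank_span_singleton hu₁0
    simp only [finrank_bot, zero_add] at hfr
    omega
  obtain ⟨u₂, hu₂P, hu₂⟩ := Cfsg.Agent.Helper70.OH5992.o_noniso Q hQ P hPnd hP0
  have h12 : QuadraticMap.polar Q u₁ u₂ = 0 :=
    horth u₁ (Submodule.mem_span_singleton_self _) u₂ hu₂P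
  obtain ⟨x, y, hxy⟩ := Cfsg.Agent.Helper13.exists_sq_add_sq_eq_one h2
    (a := Q u₁ / a) (b := Q u₂ / a) (div_ne_zero hu₁ ha) (div_ne_zero hu₂ ha)
  refine ⟨x • u₁ + y • u₂, K.add_mem (K.smul_mem _ hu₁K) (K.smul_mem _ (hPK hu₂P)), ?_⟩
  rw [Cfsg.Agent.Helper31.OH5992.oline_form Q hQ _ _ h12]
  have h3 : (Q u₁ / a * x ^ 2 + Q u₂ / a * y ^ 2) * a = 1 * a := by rw [hxy]
  rw [one_mul] at h3
  rw [← h3]
  field_simp

end C

end Cfsg.Agent.Helper51.NP5989
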