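import Cfsg.Agent.Helper67.S77Defs

/-!
CALL S0429 piece F11 (helper51): a line is the line through any two of its points.
-/

set_option autoImplicit false
set_option linter.unusedSectionVars false
set_option linter.unusedVariables false

namespace Cfsg.Agent.Helper51.S77F11

open Finset
open Cfsg.Agent.Helper67.S77

variable {V : Type*} [Fintype V] [DecidableEq V] {G : SimpleGraph V} [DecidableRel G.Adj]

theorem p_F11 (hG : G.IsSRGWith 77 16 0 4) (h5 : F5 G) : F11 G := by
  intro L hL x hx y hy hxy
  obtain ⟨hcard, hco, ht⟩ := hL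
  have hna : NA G x y := ⟨hxy, hco x hx y hy⟩
  have hyx : y ∈ L.erase x := Finset.mem_erase.mpr ⟨hxy.symm, hy⟩
  have hsub : (L.erase x).erase y ⊆ Par G x y := by
    intro z hz
    rw [Finset.mem_erase, Finset.mem_erase] at hz
    obtain ⟨hzy, hzx, hzL⟩ := hz
    rw [mem_Par, mem_Rs]
    exact ⟨⟨hzx, hzy, hco x hx z hzL, hco y hy z hzL⟩,
      ht x hx y hy z hzL hxy (Ne.symm hzx) (Ne.symm hzy)⟩
  have hc : ((L.erase x).erase y).card = 3 := by
    rw [Finset.card_erase_of_mem hyx, Finset.card_erase_of_mem hx, hcard]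
  have heq : (L.erase x).erase y = Par G x y :=
    Finset.eq_of_subset_of_card_le hsub (by rw [hc, h5 x y hna])
  unfold lineOf
  rw [← heq, Finset.insert_erase hyx, Finset.insert_erase hx]

end Cfsg.Agent.Helper51.S77F11
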