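import Cfsg.Agent.Helper67.S77Defs

/-!
CALL S0429 piece F12 (helper51): a neighbour of a point of a line is adjacent to exactly two
points of the line.
-/

set_option autoImplicit false
set_option linter.unusedSectionVars false
set_option linter.unusedVariables false

namespace Cfsg.Agent.Helper51.S77F12

open Finset
open Cfsg.Agent.Helper67.S77

variable {V : Type*} [Fintype V] [DecidableEq V] {G : SimpleGraph V} [DecidableRel G.Adj]

theorem p_F12 (hG : G.IsSRGWith 77 16 0 4) : F12 G := by
  intro L hL x hx a hax
  obtain ⟨hcard, hco, ht⟩ := hL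
  have hdisj : ∀ y ∈ L.erase x, ∀ y' ∈ L.erase x, y ≠ y' →
      Disjoint (G.neighborFinset x ∩ G.neighborFinset y)
        (G.neighborFinset x ∩ G.neighborFinset y') := by
    intro y hy y' hy' hne
    rw [Finset.mem_erase] at hy hy'
    rw [Finset.disjoint_left]
    intro b hb hb'
    have h0 := ht x hx y hy.2 y' hy'.2 (Ne.symm hy.1) (Ne.symm hy'.1) hne
    unfold t3 at h0
    rw [Finset.card_eq_zero] at h0
    have hb3 : b ∈ G.neighborFinset x ∩ G.neighborFinset y ∩ G.neighborFinset y' :=
      Finset.mem_inter.mpr ⟨hb, (Finset.mem_inter.mp hb').2⟩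
    rw [h0] at hb3
    exact absurd hb3 (Finset.notMem_empty b)
  have hU : (L.erase x).biUnion (fun y => G.neighborFinset x ∩ G.neighborFinset y) =
      G.neighborFinset x := by
    apply Finset.eq_of_subset_of_card_le
    · intro b hb
      rw [Finset.mem_biUnion] at hb
      obtain ⟨y, _, hb⟩ := hb
      exact (Finset.mem_inter.mp hb).1
    · rw [Finset.card_biUnion hdisj, card_nbr hG]
      have h4 : ∀ y ∈ L.erase x, (G.neighborFinset x ∩ G.neighborFinset y).card = 4 := by
        intro y hy
        rw [Finset.mem_erase] at hy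
        exact card_common hG ⟨Ne.symm hy.1, hco x hx y hy.2⟩
      rw [Finset.sum_congr rfl h4, Finset.sum_const, Finset.card_erase_of_mem hx, hcard]
      decide
  have haN : a ∈ G.neighborFinset x := by
    rw [SimpleGraph.mem_neighborFinset]; exact hax.symm
  rw [← hU, Finset.mem_biUnion] at haN
  obtain ⟨y, hy, hay⟩ := haN
  have hyL := Finset.mem_erase.mp hy
  have hya : G.Adj y a := by
    have := (Finset.mem_inter.mp hay).2
    rwa [SimpleGraph.mem_neighborFinset] at this
  have hset : L.filter (fun v => G.Adj a v) = {x, y} := by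
    ext v
    rw [Finset.mem_filter, Finset.mem_insert, Finset.mem_singleton]
    constructor
    · rintro ⟨hvL, hav⟩
      by_cases hvx : v = x
      · exact Or.inl hvx
      · right
        by_contra hvy
        have hv : v ∈ L.erase x := Finset.mem_erase.mpr ⟨hvx, hvL⟩
        have hd := hdisj v hv y hy hvy
        rw [Finset.disjoint_left] at hd
        refine hd ?_ hay
        rw [Finset.mem_inter, SimpleGraph.mem_neighborFinset, SimpleGraph.mem_neighborFinset]
        exact ⟨hax.symm, hav.symm⟩
    · rintro (rfl | rfl)
      · exact ⟨hx, hax⟩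
      · exact ⟨hyL.2, hya.symm⟩
  rw [hset, Finset.card_pair (Ne.symm hyL.1)]

end Cfsg.Agent.Helper51.S77F12
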