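import Cfsg.Agent.Helper67.S77Defs

/-!
CALL S0429 piece F14 (helper51): two lines through `x` with `t3 x v w = 1` span no edge.
-/

set_option autoImplicit false
set_option linter.unusedSectionVars false
set_option linter.unusedVariables false

namespace Cfsg.Agent.Helper51.S77F14

open Finset
open Cfsg.Agent.Helper67.S77

variable {V : Type*} [Fintype V] [DecidableEq V] {G : SimpleGraph V} [DecidableRel G.Adj]

theorem p_F14 (hG : G.IsSRGWith 77 16 0 4) (h11 : F11 G) (h12 : F12 G) (h14a : F14a G) :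
    F14 G := by
  intro L L' hL hL' hne x hxL hxL' v hv w hw hvx hwx ht
  have hw1 : ∀ u ∈ L, ¬ G.Adj w u := h14a L L' hL hL' hne x hxL hxL' v hv w hw hvx hwx ht
  have hNAxw : NA G x w := ⟨Ne.symm hwx, hL'.2.1 x hxL' w hw⟩
  have hL'eq : L' = lineOf G x w := h11 L' hL' x hxL' w hw (Ne.symm hwx)
  have hwL : w ∉ L := fun hwL =>
    hne ((h11 L hL x hxL w hwL (Ne.symm hwx)).trans hL'eq.symm)
  -- the sum of `t3 x w u` over `u ∈ L \ x` is `|N(x) ∩ N(w)| = 4`
  have hsum : ∑ u ∈ L.erase x, t3 G x w u = 4 := by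
    have e1 : ∀ u ∈ L.erase x, t3 G x w u =
        ∑ a ∈ G.neighborFinset x ∩ G.neighborFinset w,
          if a ∈ G.neighborFinset u then 1 else 0 := by
      intro u _
      unfold t3
      rw [← Finset.filter_mem_eq_inter, Finset.card_filter]
    rw [Finset.sum_congr rfl e1, Finset.sum_comm]
    have e2 : ∀ a ∈ G.neighborFinset x ∩ G.neighborFinset w,
        (∑ u ∈ L.erase x, if a ∈ G.neighborFinset u then 1 else 0) = 1 := by
      intro a ha
      have hax : G.Adj a x := by
        have := (Finset.mem_inter.mp ha).1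
        rw [SimpleGraph.mem_neighborFinset] at this
        exact this.symm
      have h2 := h12 L hL x hxL a hax
      rw [← Finset.card_filter]
      have e3 : (L.erase x).filter (fun u => a ∈ G.neighborFinset u) =
          (L.filter (fun v => G.Adj a v)).erase x := by
        ext u
        simp only [Finset.mem_filter, Finset.mem_erase, SimpleGraph.mem_neighborFinset]
        constructor
        · rintro ⟨⟨h1, h2⟩, h3⟩; exact ⟨h1, h2, h3.symm⟩
        · rintro ⟨h1, h2, h3⟩; exact ⟨⟨h1, h2⟩, h3.symm⟩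
      rw [e3, Finset.card_erase_of_mem (Finset.mem_filter.mpr ⟨hxL, hax⟩), h2]
    rw [Finset.sum_congr rfl e2, Finset.sum_const, card_common hG hNAxw]
    rfl
  -- each term is at least one
  have hge : ∀ u ∈ L.erase x, 1 ≤ t3 G x w u := by
    intro u hu
    rw [Finset.mem_erase] at hu
    by_contra hlt
    have h0 : t3 G x w u = 0 := by omega
    have huP : u ∈ Par G x w := by
      rw [mem_Par, mem_Rs]
      exact ⟨⟨hu.1, fun h => hwL (h ▸ hu.2), hL.2.1 x hxL u hu.2, hw1 u hu.2⟩, h0⟩
    have huL' : u ∈ L' := by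
      rw [hL'eq, mem_lineOf]; exact Or.inr (Or.inr huP)
    exact hne ((h11 L hL x hxL u hu.2 (Ne.symm hu.1)).trans
      (h11 L' hL' x hxL' u huL' (Ne.symm hu.1)).symm)
  have hcard : (L.erase x).card = 4 := by
    rw [Finset.card_erase_of_mem hxL, hL.1]
  have hall : ∀ u ∈ L.erase x, 1 = t3 G x w u := by
    refine (Finset.sum_eq_sum_iff_of_le hge).mp ?_
    rw [hsum, Finset.sum_const, hcard]
    rfl
  intro u hu u' hu'
  by_cases hux : u = x
  · rw [hux]; exact hL'.2.1 x hxL' u' hu'
  · have h1 : t3 G x w u = 1 := (hall u (Finset.mem_erase.mpr ⟨hux, hu⟩)).symm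
    exact h14a L' L hL' hL (Ne.symm hne) x hxL' hxL w hw u hu hwx hux h1 u' hu'

end Cfsg.Agent.Helper51.S77F14
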