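import Cfsg.Agent.Helper67.S77Defs

/-!
CALL S0429 piece F19b (helper51): there are exactly 22 cocliques with 21 vertices.
-/

set_option autoImplicit false
set_option linter.unusedSectionVars false
set_option linter.unusedVariables false

namespace Cfsg.Agent.Helper51.S77F19b

open Finset
open Cfsg.Agent.Helper67.S77

variable {V : Type*} [Fintype V] [DecidableEq V] {G : SimpleGraph V} [DecidableRel G.Adj]

theorem p_F19b (hG : G.IsSRGWith 77 16 0 4) (h19a : F19a G) : F19b G := by
  unfold F19b
  have h1 : ∑ C ∈ Cocls G, C.card = 21 * (Cocls G).card := by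
    rw [Finset.sum_congr rfl (fun C hC => (mem_Cocls.mp hC).1), Finset.sum_const, smul_eq_mul,
      mul_comm]
  have h2 : ∑ C ∈ Cocls G, C.card = ∑ x : V, ((Cocls G).filter (fun C => x ∈ C)).card := by
    have e : ∀ C ∈ Cocls G, C.card = ∑ x : V, if x ∈ C then 1 else 0 := by
      intro C _
      rw [← Finset.card_filter, Finset.filter_mem_eq_inter, Finset.univ_inter]
    rw [Finset.sum_congr rfl e, Finset.sum_comm]
    refine Finset.sum_congr rfl fun x _ => ?_
    rw [Finset.card_filter]
  have h3 : ∑ x : V, ((Cocls G).filter (fun C => x ∈ C)).card = 77 * 6 := by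
    rw [Finset.sum_congr rfl (fun x _ => h19a x), Finset.sum_const, Finset.card_univ, card_V hG,
      smul_eq_mul]
  omega

end Cfsg.Agent.Helper51.S77F19b
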