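import Mathlib
import Cfsg.Prelude.Def_GeometricClasses
import Cfsg.Prelude.Def_Classical
import Cfsg.Agent.Helper35.S88Defs
import Cfsg.Agent.Helper58.TSDefs
import Cfsg.Agent.Helper43.PrimeOrdO3
import Cfsg.Agent.Helper33.OType
import Cfsg.Agent.Helper43.S88OEDefs
import Cfsg.Agent.Helper5.TBBLKE
import Cfsg.Agent.Helper73.S88OEZBLK
import Cfsg.Agent.Helper88.S88OEBLKPROD

set_option autoImplicit false

/-!
# helper51: sub-CALL S88OE (helper43, row S5988), piece EMODEL (`oe_model`), double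

A flagged block with prescribed characteristic polynomial.  The EHOM induction (`n` atoms with the
same polynomial) is proved here under the fresh name `oe_hom51`.
-/

namespace Cfsg.Agent.Helper51.S88OE

open Module Polynomial Cfsg Cfsg.Geo Cfsg.Agent.Helper58.TS Cfsg.Agent.Helper35.S88
open Cfsg.Agent.Helper43 Cfsg.Agent.Helper43.OrthEven Cfsg.Agent.Helper43.CycFactors
  Cfsg.Agent.Helper43.PrimeOrdMat Cfsg.Agent.Helper43.S88OE
open scoped MatrixGroups

universe u

section fin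

variable {F : Type u} [Field F] [Fintype F]

/-- EHOM (own copy): `n` atoms with the same polynomial. -/
theorem oe_hom51 (p : ℕ) [Fact p.Prime] [CharP F p] (r : ℕ) [Fact r.Prime] (hr2 : 2 < r)
    (hrp : r ≠ p) (heven : Even (orderOf ((Fintype.card F : ℕ) : ZMod r))) (P : F[X])
    (hP : P ∈ cycJ F r) (n : ℕ) :
    ∃ (V : Type u) (_ : AddCommGroup V) (_ : Module F V) (_ : FiniteDimensional F V)
      (Q : QuadraticForm F V) (T : Module.End F V),
      Blk r Q T ∧ T.charpoly = P ^ n ∧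
      finrank F V = orderOf ((Fintype.card F : ℕ) : ZMod r) * n ∧
      Flag Q T (orderOf ((Fintype.card F : ℕ) : ZMod r)) n := by
  induction n with
  | zero =>
    obtain ⟨V, i1, i2, i3, Q, T, hb, hc, hd, hf⟩ :=
      Cfsg.Agent.Helper73.S88OE.oe_zero_blk (F := F) r (orderOf ((Fintype.card F : ℕ) : ZMod r))
    exact ⟨V, i1, i2, i3, Q, T, hb, by rw [hc, pow_zero], by rw [hd, Nat.mul_zero], hf⟩
  | succ n ih =>
    obtain ⟨Va, a1, a2, a3, Qa, Ta, hnd, hiso, hcyc, hchar, hdim, -, -⟩ :=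
      Cfsg.Agent.Helper5.TB.tb_blk_even p r hr2 hrp heven P hP 1
    obtain ⟨Vb, b1, b2, b3, Qb, Tb, hblk, hcharb, hdimb, hflag⟩ := ih
    have hi : 2 * (orderOf ((Fintype.card F : ℕ) : ZMod r) / 2 * 1) =
        orderOf ((Fintype.card F : ℕ) : ZMod r) := by
      obtain ⟨k, hk⟩ := heven
      omega
    have hfa : Flag Qa Ta (orderOf ((Fintype.card F : ℕ) : ZMod r)) 1 :=
      Cfsg.Agent.Helper73.S88OE.oe_flag_one Qa Ta hnd _ (by rw [hdim, hi])
    obtain ⟨h1, h2, h3⟩ := Cfsg.Agent.Helper88.S88OE.oe_blk_prod r Qa Ta Qb Tb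
      ⟨hnd, hiso, hcyc⟩ hblk _ 1 n hfa hflag
    refine ⟨Va × Vb, inferInstance, inferInstance, inferInstance, Qa.prod Qb, Ta.prodMap Tb,
      h1, ?_, ?_, ?_⟩
    · rw [h3, hchar, hcharb, pow_one, pow_succ, mul_comm]
    · rw [Module.finrank_prod, hdim, hdimb, hi]
      ring
    · rw [Nat.add_comm]
      exact h2

/-- EMODEL [M] (uses EHOM, BLKPROD, ZBLK): a flagged block with prescribed characteristic
polynomial.  (`Finset.induction_on` as in `tb_ind_even`: `∅`: ZBLK; `insert P S'`: product of EHOM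
`(P, c P)` and the space for `S'`.) -/
theorem oe_model (p : ℕ) [Fact p.Prime] [CharP F p] (r : ℕ) [Fact r.Prime] (hr2 : 2 < r)
    (hrp : r ≠ p) (heven : Even (orderOf ((Fintype.card F : ℕ) : ZMod r))) (S : Finset F[X])
    (hS : S ⊆ cycJ F r) (c : F[X] → ℕ) :
    ∃ (V : Type u) (_ : AddCommGroup V) (_ : Module F V) (_ : FiniteDimensional F V)
      (Q : QuadraticForm F V) (T : Module.End F V),
      Blk r Q T ∧ T.charpoly = ∏ P ∈ S, P ^ c P ∧
      finrank F V = orderOf ((Fintype.card F : ℕ) : ZMod r) * ∑ P ∈ S, c P ∧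
      Flag Q T (orderOf ((Fintype.card F : ℕ) : ZMod r)) (∑ P ∈ S, c P) := by
  classical
  induction S using Finset.induction_on with
  | empty =>
    obtain ⟨V, i1, i2, i3, Q, T, hb, hc, hd, hf⟩ :=
      Cfsg.Agent.Helper73.S88OE.oe_zero_blk (F := F) r (orderOf ((Fintype.card F : ℕ) : ZMod r))
    refine ⟨V, i1, i2, i3, Q, T, hb, ?_, ?_, ?_⟩
    · rw [hc, Finset.prod_empty]
    · rw [hd, Finset.sum_empty, Nat.mul_zero]
    · rw [Finset.sum_empty]
      exact hf
  | insert P S' hPS ih =>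
    obtain ⟨Va, a1, a2, a3, Qa, Ta, hblka, hchara, hdima, hflaga⟩ :=
      oe_hom51 p r hr2 hrp heven P (hS (Finset.mem_insert_self P S')) (c P)
    obtain ⟨Vb, b1, b2, b3, Qb, Tb, hblkb, hcharb, hdimb, hflagb⟩ :=
      ih (fun x hx => hS (Finset.mem_insert_of_mem hx))
    obtain ⟨h1, h2, h3⟩ := Cfsg.Agent.Helper88.S88OE.oe_blk_prod r Qa Ta Qb Tb hblka hblkb
      _ _ _ hflaga hflagb
    refine ⟨Va × Vb, inferInstance, inferInstance, inferInstance, Qa.prod Qb, Ta.prodMap Tb,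
      h1, ?_, ?_, ?_⟩
    · rw [h3, hchara, hcharb, Finset.prod_insert hPS]
    · rw [Module.finrank_prod, hdima, hdimb, Finset.sum_insert hPS, Nat.mul_add]
    · rw [Finset.sum_insert hPS]
      exact h2

end fin

end Cfsg.Agent.Helper51.S88OE
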