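import Mathlib
import Cfsg.Agent.Helper51.S88OEEMODEL

set_option autoImplicit false

/-!
# helper51: sub-CALL S88OE (helper43, row S5988), piece EHOM (`oe_hom`), spare copy

`n` atoms with the same polynomial; the proof is `oe_hom51` of `Cfsg.Agent.Helper51.S88OEEMODEL`.
-/

namespace Cfsg.Agent.Helper51.S88OE

open Module Polynomial Cfsg Cfsg.Geo Cfsg.Agent.Helper58.TS Cfsg.Agent.Helper35.S88
open Cfsg.Agent.Helper43 Cfsg.Agent.Helper43.OrthEven Cfsg.Agent.Helper43.CycFactors
  Cfsg.Agent.Helper43.PrimeOrdMat Cfsg.Agent.Helper43.S88OE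
open scoped MatrixGroups

universe u

section fin

variable {F : Type u} [Field F] [Fintype F]

/-- EHOM [M] (uses `Cfsg.Agent.Helper5.TB.tb_blk_even` with `n := 1`, FLAG1, BLKPROD, ZBLK):
`n` atoms with the same polynomial. -/
theorem oe_hom (p : ℕ) [Fact p.Prime] [CharP F p] (r : ℕ) [Fact r.Prime] (hr2 : 2 < r)
    (hrp : r ≠ p) (heven : Even (orderOf ((Fintype.card F : ℕ) : ZMod r))) (P : F[X])
    (hP : P ∈ cycJ F r) (n : ℕ) :
    ∃ (V : Type u) (_ : AddCommGroup V) (_ : Module F V) (_ : FiniteDimensional F V)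
      (Q : QuadraticForm F V) (T : Module.End F V),
      Blk r Q T ∧ T.charpoly = P ^ n ∧
      finrank F V = orderOf ((Fintype.card F : ℕ) : ZMod r) * n ∧
      Flag Q T (orderOf ((Fintype.card F : ℕ) : ZMod r)) n :=
  oe_hom51 p r hr2 hrp heven P hP n

end fin

end Cfsg.Agent.Helper51.S88OE
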