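import Mathlib

/-!
# CALL S0998 piece NB3F (helper51): the final arithmetic contradiction
-/

set_option autoImplicit false

namespace Cfsg.Agent.Helper51

/-- NB3F -/
theorem s998_nb3_final (p q r e t c h a w : ℕ) (hp : p.Prime) (hq : q.Prime) (hr : r.Prime)
    (hpq : p ≠ q) (hpr : p ≠ r) (hqr : q ≠ r) (hr3 : 3 ≤ r) (he3 : 3 ≤ e) (hep : e + r = p)
    (het : e * t = p - 1) (hc1 : 1 ≤ c) (hch : c < h) (hec : e = q ^ c)
    (hph : p ∣ q ^ h + 1) (hfin : w * q ^ h = 1 + r + a * (r * q ^ (h - c))) : False := by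
  have hp2 := hp.two_le
  have ht1 : 1 ≤ t := by
    rcases Nat.eq_zero_or_pos t with h0 | h0
    · rw [h0, mul_zero] at het
      omega
    · exact h0
  have hr1 : r + 1 = e * (t - 1) + 2 := by
    obtain ⟨s, rfl⟩ : ∃ s, t = s + 1 := ⟨t - 1, by omega⟩
    have h1 : e * (s + 1) = e * s + e := by ring
    rw [h1] at het
    rw [Nat.add_sub_cancel]
    omega
  -- `q ^ (h - c) ∣ r + 1`
  have hd1 : q ^ (h - c) ∣ r + 1 := by
    have h1 : q ^ (h - c) ∣ w * q ^ h := Dvd.dvd.mul_left (pow_dvd_pow q (Nat.sub_le h c)) w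
    have h2 : q ^ (h - c) ∣ a * (r * q ^ (h - c)) := Dvd.dvd.mul_left (Dvd.intro_left r rfl) a
    rw [hfin] at h1
    have h3 := (Nat.dvd_add_left h2).1 h1
    rwa [add_comm] at h3
  have hq_dvd : q ∣ r + 1 := by
    have h1 : q ∣ q ^ (h - c) := dvd_pow_self q (by omega)
    exact h1.trans hd1
  have hqe : q ∣ e := by
    rw [hec]
    exact dvd_pow_self q (by omega)
  have hq2' : q ∣ 2 := by
    have h1 : q ∣ e * (t - 1) := Dvd.dvd.mul_right hqe _
    rw [hr1] at hq_dvd
    exact (Nat.dvd_add_right h1).1 hq_dvd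
  have hq_eq : q = 2 := (Nat.prime_dvd_prime_iff_eq hq Nat.prime_two).1 hq2'
  subst hq_eq
  have hc2 : 2 ≤ c := by
    by_contra hlt
    have h1 : c = 1 := by omega
    rw [h1] at hec
    norm_num at hec
    omega
  have h4e : 4 ∣ e := by
    rw [hec]
    have h1 : (2 : ℕ) ^ 2 ∣ 2 ^ c := pow_dvd_pow 2 hc2
    norm_num at h1
    exact h1
  have hh : h = c + 1 := by
    by_contra hne
    have h2 : 2 ≤ h - c := by omega
    have h4 : 4 ∣ r + 1 := by
      have h1 : (2 : ℕ) ^ 2 ∣ 2 ^ (h - c) := pow_dvd_pow 2 h2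
      norm_num at h1
      exact h1.trans hd1
    rw [hr1] at h4
    have h5 : 4 ∣ e * (t - 1) := Dvd.dvd.mul_right h4e _
    have h6 : (4 : ℕ) ∣ 2 := (Nat.dvd_add_right h5).1 h4
    omega
  subst hh
  have hpe : p ∣ 2 * e + 1 := by
    have h1 : 2 ^ (c + 1) = 2 * e := by
      rw [hec, pow_succ]
      ring
    rwa [h1] at hph
  have hp_eq : p = 2 * e + 1 := by
    obtain ⟨k, hk⟩ := hpe
    have hk1 : k = 1 := by
      rcases Nat.lt_or_ge k 2 with h1 | h1
      · rcases Nat.eq_zero_or_pos k with h0 | h0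
        · rw [h0] at hk
          omega
        · omega
      · have h2 : p * 2 ≤ p * k := Nat.mul_le_mul_left p h1
        omega
    rw [hk1, mul_one] at hk
    exact hk.symm
  have hr_eq : r = 2 ^ c + 1 := by
    rw [← hec]
    omega
  have hp_eq' : p = 2 ^ (c + 1) + 1 := by
    rw [pow_succ, ← hec]
    omega
  rcases Nat.even_or_odd c with hce | hco
  · have hodd : Odd (c + 1) := hce.add_one
    have h3 : 3 ∣ 2 ^ (c + 1) + 1 := by
      have h1 := Odd.nat_add_dvd_pow_add_pow 2 1 hodd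
      simpa using h1
    rw [← hp_eq'] at h3
    have h3p : p = 3 := ((Nat.prime_dvd_prime_iff_eq Nat.prime_three hp).1 h3).symm
    omega
  · have h3 : 3 ∣ 2 ^ c + 1 := by
      have h1 := Odd.nat_add_dvd_pow_add_pow 2 1 hco
      simpa using h1
    rw [← hr_eq] at h3
    have h3r : r = 3 := ((Nat.prime_dvd_prime_iff_eq Nat.prime_three hr).1 h3).symm
    rw [← hec] at hr_eq
    omega

end Cfsg.Agent.Helper51
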