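import Mathlib
import Cfsg.Agent.Helper9.OrdTools

/-!
# CALL S0998 piece SYL (helper51)
-/

set_option autoImplicit false

universe u

namespace Cfsg.Agent.Helper51

/-- SYL -/
theorem s998_sylow_card {G : Type u} [Group G] [Finite G] (p q r b : ℕ) [Fact p.Prime]
    (hq : q.Prime) (hr : r.Prime) (hpq : p ≠ q) (hpr : p ≠ r)
    (hcard : Nat.card G = p * r * q ^ b) (P : Sylow p G) :
    Nat.card (P : Subgroup G) = p := by
  have hp : p.Prime := Fact.out
  have hm : ¬ p ∣ r * q ^ b := by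
    intro h
    rcases (Nat.Prime.dvd_mul hp).1 h with h1 | h1
    · exact hpr ((Nat.prime_dvd_prime_iff_eq hp hr).1 h1)
    · exact hpq ((Nat.prime_dvd_prime_iff_eq hp hq).1 (hp.dvd_of_dvd_pow h1))
  have h := Cfsg.Agent.Helper9.OrdTools.sylow_card 1 (r * q ^ b)
    (hcard.trans (by rw [pow_one, mul_assoc])) hm P
  rw [pow_one] at h
  exact h

end Cfsg.Agent.Helper51
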