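import Mathlib

/-!
# CALL S0998 piece VAN (helper51): a `p`-singular element is conjugate into a self-centralising
Sylow `p`-subgroup of order `p`
-/

set_option autoImplicit false

universe u

namespace Cfsg.Agent.Helper51

/-- VAN -/
theorem s998_psing_conj {G : Type u} [Group G] [Finite G] {p : ℕ} [Fact p.Prime]
    (P : Sylow p G) (hP : Nat.card (P : Subgroup G) = p)
    (hC : Nat.card (Subgroup.centralizer ((P : Subgroup G) : Set G)) = p)
    (g : G) (hg : p ∣ orderOf g) : ∃ a : G, a * g * a⁻¹ ∈ (P : Subgroup G) := by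
  have hp : p.Prime := Fact.out
  have hg0 : orderOf g ≠ 0 := (orderOf_pos g).ne'
  set m := orderOf g / p with hm
  set x := g ^ m with hx
  have hxo : orderOf x = p := orderOf_pow_orderOf_div hg0 hg
  have hx1 : x ≠ 1 := by
    intro h
    rw [h, orderOf_one] at hxo
    exact hp.one_lt.ne hxo
  -- `zpowers x` is a `p`-group, so lies in a Sylow subgroup, conjugate to `P`
  have hz : IsPGroup p (Subgroup.zpowers x) :=
    IsPGroup.of_card (n := 1) (by rw [Nat.card_zpowers, hxo, pow_one])
  obtain ⟨Q, hQ⟩ := hz.exists_le_sylow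
  obtain ⟨a, ha⟩ := MulAction.exists_smul_eq G Q P
  set y := a * x * a⁻¹ with hy
  have hyP : y ∈ (P : Subgroup G) := by
    rw [← ha, Sylow.coe_subgroup_smul, Subgroup.mem_pointwise_smul_iff_inv_smul_mem]
    have h1 : (MulAut.conj a)⁻¹ • y = x := by
      rw [MulAut.smul_def, ← map_inv, MulAut.conj_apply, hy]
      group
    rw [h1]
    exact hQ (Subgroup.mem_zpowers x)
  have hy1 : y ≠ 1 := by
    intro h
    apply hx1
    have h2 : x = a⁻¹ * y * a := by rw [hy]; group
    rw [h2, h]
    group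
  -- `P = zpowers y`
  have hyo : orderOf y = p := by
    have h1 : orderOf (⟨y, hyP⟩ : ↥(P : Subgroup G)) ∣ p := by
      have := orderOf_dvd_natCard (⟨y, hyP⟩ : ↥(P : Subgroup G))
      rwa [hP] at this
    have h2 : orderOf (⟨y, hyP⟩ : ↥(P : Subgroup G)) = orderOf y :=
      Subgroup.orderOf_mk y hyP
    rw [h2] at h1
    rcases (Nat.dvd_prime hp).1 h1 with h3 | h3
    · exact absurd (orderOf_eq_one_iff.1 h3) hy1
    · exact h3
  have hPz : Subgroup.zpowers y = (P : Subgroup G) := by
    apply Subgroup.eq_of_le_of_card_ge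
    · rw [Subgroup.zpowers_le]
      exact hyP
    · rw [Nat.card_zpowers, hyo, hP]
  -- `a g a⁻¹` commutes with `y`
  have hcomm : Commute (a * g * a⁻¹) y := by
    have h1 : y = (a * g * a⁻¹) ^ m := by
      rw [hy, hx, conj_pow]
    rw [h1]
    exact (Commute.refl _).pow_right m
  have hcent : a * g * a⁻¹ ∈ Subgroup.centralizer ((P : Subgroup G) : Set G) := by
    rw [Subgroup.mem_centralizer_iff]
    intro w hw
    have hw' : w ∈ Subgroup.zpowers y := by
      rw [hPz]
      exact hw
    obtain ⟨k, rfl⟩ := Subgroup.mem_zpowers_iff.1 hw'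
    exact ((hcomm.zpow_right k).eq).symm
  -- `C(P) = P`
  have hPC : (P : Subgroup G) ≤ Subgroup.centralizer ((P : Subgroup G) : Set G) := by
    intro w hw
    rw [Subgroup.mem_centralizer_iff]
    intro v hv
    have hw' : w ∈ Subgroup.zpowers y := by
      rw [hPz]
      exact hw
    have hv' : v ∈ Subgroup.zpowers y := by
      rw [hPz]
      exact hv
    obtain ⟨i, rfl⟩ := Subgroup.mem_zpowers_iff.1 hw'
    obtain ⟨j, rfl⟩ := Subgroup.mem_zpowers_iff.1 hv'
    exact (((Commute.refl y).zpow_zpow i j).eq).symm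
  have hEq : (P : Subgroup G) = Subgroup.centralizer ((P : Subgroup G) : Set G) :=
    Subgroup.eq_of_le_of_card_ge hPC (by rw [hP, hC])
  refine ⟨a, ?_⟩
  rw [hEq]
  exact hcent

end Cfsg.Agent.Helper51
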