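import Mathlib
import Cfsg.Agent.Helper87.SFDefs

/-!
# CALL S2752 piece DIH (helper51)
-/

set_option autoImplicit false

namespace Cfsg.Agent.Helper51

open Cfsg.Agent.Helper87.SF

/-- DIH -/
theorem sf_dih {K : Type*} [Group K] (s h y : K) (hss : s * s = 1) (r : ℕ) (hr : r.Prime)
    (hr2 : r ≠ 2) (hy : orderOf y = r)
    (hmem : y ∈ Subgroup.closure ({s, h * s * h⁻¹} : Set K)) :
    ∃ g₀ : K, orderOf (s * g₀⁻¹ * s⁻¹ * g₀) = r := by
  have hsinv : s⁻¹ = s := inv_eq_of_mul_eq_one_left hss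
  have htt : (h * s * h⁻¹) * (h * s * h⁻¹) = 1 := by
    have : (h * s * h⁻¹) * (h * s * h⁻¹) = h * (s * s) * h⁻¹ := by group
    rw [this, hss, mul_one, mul_inv_cancel]
  generalize h * s * h⁻¹ = t at htt hmem
  have htinv : t⁻¹ = t := inv_eq_of_mul_eq_one_left htt
  -- conjugation by `s` inverts `c = s * t`
  have hc1 : s * (s * t) * s⁻¹ = (s * t)⁻¹ := by
    rw [mul_inv_rev, htinv, hsinv, ← mul_assoc, hss, one_mul]
  have hconj : ∀ i : ℤ, s * (s * t) ^ i * s⁻¹ = (s * t) ^ (-i) := by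
    intro i
    have h1 : MulAut.conj s ((s * t) ^ i) = (MulAut.conj s (s * t)) ^ i := map_zpow _ _ _
    rw [MulAut.conj_apply, MulAut.conj_apply, hc1, inv_zpow, ← zpow_neg] at h1
    exact h1
  have hconj' : ∀ i : ℤ, s * (s * t) ^ i = (s * t) ^ (-i) * s := by
    intro i
    rw [← hconj i, hsinv, mul_assoc, mul_assoc, hss, mul_one]
  have key : (∃ i : ℤ, y = (s * t) ^ i) ∨ (∃ i : ℤ, y = (s * t) ^ i * s) := by
    refine Subgroup.closure_induction (p := fun x _ =>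
      (∃ i : ℤ, x = (s * t) ^ i) ∨ (∃ i : ℤ, x = (s * t) ^ i * s)) ?_ ?_ ?_ ?_ hmem
    · intro x hx
      rcases hx with rfl | rfl
      · exact Or.inr ⟨0, by rw [zpow_zero, one_mul]⟩
      · refine Or.inr ⟨-1, ?_⟩
        rw [zpow_neg, zpow_one, mul_inv_rev, htinv, hsinv, mul_assoc, hss, mul_one]
    · exact Or.inl ⟨0, by rw [zpow_zero]⟩
    · intro x z _ _ hx hz
      rcases hx with ⟨i, rfl⟩ | ⟨i, rfl⟩ <;> rcases hz with ⟨j, rfl⟩ | ⟨j, rfl⟩
      · exact Or.inl ⟨i + j, by rw [zpow_add]⟩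
      · exact Or.inr ⟨i + j, by rw [zpow_add, mul_assoc]⟩
      · refine Or.inr ⟨i + -j, ?_⟩
        rw [zpow_add, mul_assoc, hconj' j, mul_assoc]
      · refine Or.inl ⟨i + -j, ?_⟩
        rw [zpow_add, mul_assoc, ← mul_assoc s, hconj' j, mul_assoc, hss, mul_one]
    · intro x _ hx
      rcases hx with ⟨i, rfl⟩ | ⟨i, rfl⟩
      · exact Or.inl ⟨-i, by rw [zpow_neg]⟩
      · refine Or.inr ⟨i, ?_⟩
        rw [mul_inv_rev, hsinv, ← zpow_neg, hconj' (-i), neg_neg]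
  have hr3 : 3 ≤ r := by
    have := hr.two_le
    omega
  rcases key with ⟨i, hi⟩ | ⟨i, hi⟩
  · have hinv : s * y * s⁻¹ = y⁻¹ := by
      rw [hi, hconj i, zpow_neg]
    have hodd : r % 2 = 1 := by
      rcases hr.eq_two_or_odd with h2 | h2
      · exact absurd h2 hr2
      · exact h2
    refine ⟨y ^ ((r + 1) / 2), ?_⟩
    have hpow : s * (y ^ ((r + 1) / 2))⁻¹ * s⁻¹ = y ^ ((r + 1) / 2) := by
      have h1 : MulAut.conj s ((y ^ ((r + 1) / 2))⁻¹) = ((MulAut.conj s y) ^ ((r + 1) / 2))⁻¹ := by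
        rw [map_inv, map_pow]
      rw [MulAut.conj_apply, MulAut.conj_apply, hinv, inv_pow, inv_inv] at h1
      exact h1
    rw [hpow, ← pow_add]
    have h2 : (r + 1) / 2 + (r + 1) / 2 = r + 1 := by omega
    rw [h2, pow_succ, ← hy, pow_orderOf_eq_one, one_mul]
  · exfalso
    have hyy : y * y = 1 := by
      rw [hi, mul_assoc, ← mul_assoc s, hconj' i, mul_assoc, hss, mul_one, ← zpow_add,
        add_neg_cancel, zpow_zero]
    have hdvd : orderOf y ∣ 2 := by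
      apply orderOf_dvd_of_pow_eq_one
      rw [pow_two, hyy]
    rw [hy] at hdvd
    have := Nat.le_of_dvd (by norm_num) hdvd
    omega

end Cfsg.Agent.Helper51
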