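import Mathlib
import Cfsg.Agent.Helper87.SFDefs
import Cfsg.Agent.Helper59.MinNormal

/-!
# CALL S2752 piece MNEX (helper51)
-/

set_option autoImplicit false

namespace Cfsg.Agent.Helper51

open Cfsg.Agent.Helper87.SF

/-- MNEX -/
theorem sf_mn_exists {G : Type*} [Group G] [Finite G] [Nontrivial G] :
    ∃ N : Subgroup G, N.Normal ∧ N ≠ ⊥ ∧
      ∀ N' : Subgroup G, N'.Normal → N' ≤ N → N' = ⊥ ∨ N' = N := by
  obtain ⟨N, hN, hN1, hmin⟩ := Cfsg.Agent.Helper59.min_normal_exists (G := G)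
  refine ⟨N, hN, hN1, fun N' hN' hle => ?_⟩
  by_cases h : N' = ⊥
  · exact Or.inl h
  · exact Or.inr (hmin N' hN' h hle)

end Cfsg.Agent.Helper51
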