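import Mathlib
import Cfsg.Prelude.Def_GeometricClasses
import Cfsg.Agent.Helper90.SFRDefs
import Cfsg.Agent.Helper97.SFBasic

/-!
# CALL S5965 piece NECDIAG (helper51): a diagonal element conjugate into the subfield subgroup has
a Frobenius-stable multiset of eigenvalues, up to a scalar
-/

set_option autoImplicit false

namespace Cfsg.Agent.Helper51

open Module Polynomial Cfsg.Agent.Helper90.SFR

section fin
variable {F : Type*} [Field F] [Fintype F]

/-- the `q₀`-power Frobenius of `F`, with fixed field `F₀` (`|F₀| = q₀`). -/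
theorem sfr_frob (F₀ : Subfield F) (q₀ : ℕ) (hF₀ : Nat.card ↥F₀ = q₀) :
    ∃ σ : F →+* F, (∀ t, σ t = t ^ q₀) ∧ (∀ t, σ t = t ↔ t ∈ F₀) := by
  classical
  obtain ⟨p, hchar⟩ := CharP.exists F
  have : Fact p.Prime := ⟨CharP.char_is_prime F p⟩
  have : CharP ↥F₀ p := RingHom.charP F₀.subtype F₀.subtype_injective p
  have : Fintype ↥F₀ := Fintype.ofFinite _
  obtain ⟨m, hp, hm⟩ := FiniteField.card ↥F₀ p
  have hq : q₀ = p ^ (m : ℕ) := by
    rw [← hF₀, Nat.card_eq_fintype_card, hm]
  have hpow : ∀ u : ↥F₀, (u : F) ^ q₀ = (u : F) := by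
    intro u
    have h1 := FiniteField.pow_card u
    rw [← Nat.card_eq_fintype_card, hF₀] at h1
    have h2 := congrArg F₀.subtype h1
    simpa using h2
  refine ⟨iterateFrobenius F p m, fun t => by rw [iterateFrobenius_def, hq], ?_⟩
  intro t
  rw [iterateFrobenius_def, ← hq]
  constructor
  · intro ht
    by_contra hnot
    have hq2 : 1 < q₀ := by
      rw [hq]
      exact Nat.one_lt_pow m.ne_zero hp.one_lt
    have hf0 : (X ^ q₀ - X : F[X]) ≠ 0 := FiniteField.X_pow_card_sub_X_ne_zero F hq2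
    have hdeg : (X ^ q₀ - X : F[X]).natDegree = q₀ :=
      FiniteField.X_pow_card_sub_X_natDegree_eq F hq2
    have hroot : ∀ s : F, s ^ q₀ = s → s ∈ (X ^ q₀ - X : F[X]).roots.toFinset := by
      intro s hs
      rw [Multiset.mem_toFinset, Polynomial.mem_roots hf0, Polynomial.IsRoot]
      simp [hs]
    have hsub : insert t ((Finset.univ : Finset ↥F₀).image (F₀.subtype)) ⊆
        (X ^ q₀ - X : F[X]).roots.toFinset := by
      intro s hs
      rw [Finset.mem_insert] at hs
      rcases hs with rfl | hs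
      · exact hroot _ ht
      · obtain ⟨u, -, rfl⟩ := Finset.mem_image.1 hs
        exact hroot _ (hpow u)
    have hcard1 : (insert t ((Finset.univ : Finset ↥F₀).image (F₀.subtype))).card = q₀ + 1 := by
      rw [Finset.card_insert_of_notMem, Finset.card_image_of_injective _ F₀.subtype_injective,
        Finset.card_univ, ← Nat.card_eq_fintype_card, hF₀]
      intro hmem
      obtain ⟨u, -, hu⟩ := Finset.mem_image.1 hmem
      apply hnot
      rw [← hu]
      exact u.2
    have hcard2 : (X ^ q₀ - X : F[X]).roots.toFinset.card ≤ q₀ := by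
      calc (X ^ q₀ - X : F[X]).roots.toFinset.card
          ≤ Multiset.card (X ^ q₀ - X : F[X]).roots := Multiset.toFinset_card_le _
        _ ≤ (X ^ q₀ - X : F[X]).natDegree := Polynomial.card_roots' _
        _ = q₀ := hdeg
    have h3 := Finset.card_le_card hsub
    omega
  · intro ht
    exact hpow ⟨t, ht⟩

omit [Fintype F] in
/-- the core of NECDIAG, for any ring endomorphism `σ` with fixed field `F₀`. -/
theorem sfr_conj_diag_core (F₀ : Subfield F) (q₀ : ℕ) (σ : F →+* F) (hσ : ∀ t, σ t = t ^ q₀)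
    (hfix : ∀ t, σ t = t ↔ t ∈ F₀) (n : ℕ)
    (x : Matrix.SpecialLinearGroup (Fin n) F) (d : Fin n → F)
    (hx : (x : Matrix (Fin n) (Fin n) F) = Matrix.diagonal d) (h : IsConj F₀ x) :
    ∃ c : F, c ≠ 0 ∧ (Finset.univ.val.map fun i : Fin n => (c * d i) ^ q₀)
      = Finset.univ.val.map fun i : Fin n => c * d i := by
  obtain ⟨P, hP⟩ := h
  have hP' : Matrix.SpecialLinearGroup.toGL (P⁻¹ * x * P) ∈
      Cfsg.Geo.subfieldSubgroup F₀ (1 : GL (Fin n) F) := hP
  rw [Cfsg.Agent.Helper97.SF.mem_subfieldSubgroup_one] at hP'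
  obtain ⟨c, hc, hG⟩ := hP'
  refine ⟨c, hc, ?_⟩
  obtain ⟨G, hGdef⟩ : ∃ G : Matrix (Fin n) (Fin n) F,
      G = c • ((Matrix.SpecialLinearGroup.toGL (P⁻¹ * x * P) : GL (Fin n) F) :
        Matrix (Fin n) (Fin n) F) := ⟨_, rfl⟩
  rw [← hGdef] at hG
  have hGent : ∀ i j, G i j ∈ F₀ := fun i j => hG i j
  have hGval : G = (P⁻¹ : Matrix.SpecialLinearGroup (Fin n) F).val *
      Matrix.diagonal (fun i => c * d i) * P.val := by
    rw [hGdef]
    have h1 : ((Matrix.SpecialLinearGroup.toGL (P⁻¹ * x * P) : GL (Fin n) F) :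
        Matrix (Fin n) (Fin n) F) =
        (P⁻¹ : Matrix.SpecialLinearGroup (Fin n) F).val * x.val * P.val := rfl
    have h7 : Matrix.diagonal (fun i => c * d i) = c • Matrix.diagonal d :=
      Matrix.diagonal_smul c d
    rw [h1, hx, h7, Matrix.mul_smul, Matrix.smul_mul]
  have hchar : G.charpoly = ∏ i, (X - C (c * d i)) := by
    rw [hGval, mul_assoc, Matrix.charpoly_mul_comm, mul_assoc]
    have h1 : P.val * (P⁻¹ : Matrix.SpecialLinearGroup (Fin n) F).val = 1 := by
      rw [← Matrix.SpecialLinearGroup.coe_mul, mul_inv_cancel]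
      rfl
    rw [h1, mul_one, Matrix.charpoly_diagonal]
  have hmap : G.map σ = G := by
    ext i j
    rw [Matrix.map_apply]
    exact (hfix _).2 (hGent i j)
  have h2 : G.charpoly.map σ = G.charpoly := by
    rw [← Matrix.charpoly_map, hmap]
  rw [hchar, Polynomial.map_prod] at h2
  have h3 : ∏ i : Fin n, (X - C ((c * d i) ^ q₀)) = ∏ i : Fin n, (X - C (c * d i)) := by
    rw [← h2]
    apply Finset.prod_congr rfl
    intro i _
    rw [Polynomial.map_sub, Polynomial.map_X, Polynomial.map_C, hσ]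
  have h4 : ∀ a : Fin n → F, (∏ i : Fin n, (X - C (a i))).roots = Finset.univ.val.map a := by
    intro a
    have h5 : (fun i => X - C (a i)) = (fun t : F => X - C t) ∘ a := rfl
    rw [Finset.prod_eq_multiset_prod, h5, ← Multiset.map_map,
      Polynomial.roots_multiset_prod_X_sub_C]
  have h6 := congrArg Polynomial.roots h3
  rw [h4, h4] at h6
  exact h6

/-! ## PIECE NECDIAG -/
theorem conj_diag_nec (F₀ : Subfield F) (q₀ : ℕ) (hF₀ : Nat.card ↥F₀ = q₀) (n : ℕ)
    (x : Matrix.SpecialLinearGroup (Fin n) F) (d : Fin n → F)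
    (hx : (x : Matrix (Fin n) (Fin n) F) = Matrix.diagonal d) (h : IsConj F₀ x) :
    ∃ c : F, c ≠ 0 ∧ (Finset.univ.val.map fun i : Fin n => (c * d i) ^ q₀)
      = Finset.univ.val.map fun i : Fin n => c * d i := by
  obtain ⟨σ, hσ, hfix⟩ := sfr_frob F₀ q₀ hF₀
  exact sfr_conj_diag_core F₀ q₀ σ hσ hfix n x d hx h

end fin

end Cfsg.Agent.Helper51
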