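import Mathlib
import Cfsg.Prelude.Def_GeometricClasses
import Cfsg.Agent.Helper96.T5Defs
import Cfsg.Agent.Helper76.O12L2

/-!
# CALL S5704 piece EVEN (helper51)
-/

set_option autoImplicit false
set_option linter.unusedVariables false

namespace Cfsg.Agent.Helper51.T5EVEN

open Matrix Cfsg Cfsg.Geo Cfsg.Agent.Helper71.T4 Cfsg.Agent.Helper96.T5
open scoped Kronecker

/-- PIECE EVEN: a non-degenerate alternating form lives in even dimension. -/
theorem even_of_alt {F : Type*} [Field F] {n : ℕ} (J : Matrix (Fin n) (Fin n) F)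
    (halt : ∀ x, bf J x x = 0) (hdet : J.det ≠ 0) : Even n := by
  have hB : (Matrix.toBilin' J).IsAlt := by
    intro x
    rw [Matrix.toBilin'_apply']
    exact halt x
  have hnd : (Matrix.toBilin' J).Nondegenerate :=
    LinearMap.BilinForm.nondegenerate_toBilin'_of_det_ne_zero' J hdet
  have h := Cfsg.Agent.Helper76.o12_alt_even (Matrix.toBilin' J) hB hnd
  rwa [Module.finrank_fin_fun] at h

end Cfsg.Agent.Helper51.T5EVEN
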