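import Mathlib
import Cfsg.Prelude.Def_GeometricClasses
import Cfsg.Agent.Helper71.T4Defs
import Cfsg.Agent.Helper96.T5Defs

/-!
# CALL S5704 piece L6A (helper51): linear algebra of an alternating form (generic lemmas)
-/

set_option autoImplicit false
set_option linter.unusedVariables false

namespace Cfsg.Agent.Helper51.T5L6A

open Matrix Cfsg Cfsg.Geo Cfsg.Agent.Helper71.T4 Cfsg.Agent.Helper96.T5
open scoped Kronecker

variable {F : Type*} [Field F] {n : ℕ}

/-- two matrices with the same action on vectors are equal. -/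
theorem mat_ext (M N : Matrix (Fin n) (Fin n) F) (h : ∀ w, M *ᵥ w = N *ᵥ w) : M = N := by
  apply Matrix.toLin'.injective
  apply LinearMap.ext
  intro w
  rw [Matrix.toLin'_apply, Matrix.toLin'_apply]
  exact h w

/-- nondegeneracy: a vector orthogonal to everything is zero. -/
theorem eq_zero_of_perp (J : Matrix (Fin n) (Fin n) F) (hdet : J.det ≠ 0) (r : Fin n → F)
    (h : ∀ u, bf J r u = 0) : r = 0 := by
  by_contra hr
  obtain ⟨u, hu⟩ := exists_bf_eq_one J hdet r hr
  rw [h u] at hu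
  exact zero_ne_one hu

/-- `w ∉ F d`: some `w'` is orthogonal to `d` but not to `w`. -/
theorem exists_perp_ne (J : Matrix (Fin n) (Fin n) F) (halt : ∀ x, bf J x x = 0)
    (hdet : J.det ≠ 0) (d w : Fin n → F) (hd : d ≠ 0)
    (hind : ∀ c : F, w ≠ c • d) : ∃ w' : Fin n → F, bf J w' d = 0 ∧ bf J w w' ≠ 0 := by
  by_contra hcon
  push Not at hcon
  obtain ⟨y, hy⟩ := exists_bf_eq_one J hdet d hd
  have hyd : bf J y d = -1 := by
    rw [bf_swap J halt, hy]
  have key : ∀ v, bf J w v = -(bf J v d) * bf J w y := by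
    intro v
    have h1 : bf J (v + bf J v d • y) d = 0 := by
      rw [bf_add_left, bf_smul_left, hyd]
      ring
    have h2 := hcon _ h1
    rw [bf_add_right, bf_smul_right] at h2
    linear_combination h2
  have hz : w - bf J w y • d = 0 := by
    apply eq_zero_of_perp J hdet
    intro v
    rw [bf_sub_left, bf_smul_left, key v, bf_swap J halt v d]
    ring
  exact hind _ (sub_eq_zero.1 hz)

/-- dual vectors to an independent pair. -/
theorem exists_dual (J : Matrix (Fin n) (Fin n) F) (halt : ∀ x, bf J x x = 0)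
    (hdet : J.det ≠ 0) (x y : Fin n → F) (hx : x ≠ 0) (hind : ∀ c : F, y ≠ c • x) :
    ∃ x' y' : Fin n → F, bf J x x' = 1 ∧ bf J y x' = 0 ∧ bf J x y' = 0 ∧ bf J y y' = 1 := by
  have hy : y ≠ 0 := by
    have h0 := hind 0
    rwa [zero_smul] at h0
  have hind' : ∀ c : F, x ≠ c • y := by
    intro c hc
    by_cases hc0 : c = 0
    · rw [hc0, zero_smul] at hc
      exact hx hc
    · apply hind c⁻¹
      rw [hc, smul_smul, inv_mul_cancel₀ hc0, one_smul]
  obtain ⟨v, hv1, hv2⟩ := exists_perp_ne J halt hdet y x hy hind'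
  obtain ⟨v', hv1', hv2'⟩ := exists_perp_ne J halt hdet x y hx hind
  refine ⟨(bf J x v)⁻¹ • v, (bf J y v')⁻¹ • v', ?_, ?_, ?_, ?_⟩
  · rw [bf_smul_right, inv_mul_cancel₀ hv2]
  · rw [bf_smul_right, bf_swap J halt y v, hv1, neg_zero, mul_zero]
  · rw [bf_smul_right, bf_swap J halt x v', hv1', neg_zero, mul_zero]
  · rw [bf_smul_right, inv_mul_cancel₀ hv2']

/-- alternating operators are self-adjoint. -/
theorem self_of_alt (J : Matrix (Fin n) (Fin n) F) (halt : ∀ x, bf J x x = 0)
    (S : Matrix (Fin n) (Fin n) F) (h : ∀ u, bf J (S *ᵥ u) u = 0) (u v : Fin n → F) :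
    bf J (S *ᵥ u) v = bf J u (S *ᵥ v) := by
  have h1 := h (u + v)
  rw [Matrix.mulVec_add, bf_add_left, bf_add_right, bf_add_right, h u, h v] at h1
  rw [bf_swap J halt u (S *ᵥ v)]
  linear_combination h1

theorem dm_self (J : Matrix (Fin n) (Fin n) F) (halt : ∀ x, bf J x x = 0) (x y u v : Fin n → F) :
    bf J (dm J x y *ᵥ u) v = bf J u (dm J x y *ᵥ v) := by
  rw [dm_mulVec, dm_mulVec, bf_sub_left, bf_sub_right, bf_smul_left, bf_smul_left,
    bf_smul_right, bf_smul_right, bf_swap J halt x v, bf_swap J halt y v]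
  ring

theorem dm_alt (J : Matrix (Fin n) (Fin n) F) (halt : ∀ x, bf J x x = 0) (x y u : Fin n → F) :
    bf J (dm J x y *ᵥ u) u = 0 := by
  rw [dm_mulVec, bf_sub_left, bf_smul_left, bf_smul_left, bf_swap J halt x u,
    bf_swap J halt y u]
  ring

/-- a self-adjoint operator is its own adjoint. -/
theorem adj_eq_of_self (J : Matrix (Fin n) (Fin n) F) (halt : ∀ x, bf J x x = 0)
    (hdet : J.det ≠ 0) (A : Matrix (Fin n) (Fin n) F)
    (h : ∀ u v, bf J (A *ᵥ u) v = bf J u (A *ᵥ v)) : adj J A = A := by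
  apply mat_ext
  intro v
  have h1 : adj J A *ᵥ v - A *ᵥ v = 0 := by
    apply eq_zero_of_perp J hdet
    intro u
    rw [bf_swap J halt, bf_sub_right, ← bf_adj J hdet A u v, h u v, sub_self, neg_zero]
  exact sub_eq_zero.1 h1

theorem dm_zero_right (J : Matrix (Fin n) (Fin n) F) (z : Fin n → F) : dm J z 0 = 0 := by
  apply mat_ext
  intro v
  rw [dm_mulVec, bf_zero_right, zero_smul, smul_zero, sub_zero, Matrix.zero_mulVec]

/-- in dimension 4, a hyperbolic quadruple spans. -/
theorem span4 (J : Matrix (Fin 4) (Fin 4) F) (halt : ∀ x, bf J x x = 0)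
    (x y x' y' : Fin 4 → F) (h1 : bf J x x' = 1) (h2 : bf J y x' = 0) (h3 : bf J x y' = 0)
    (h4 : bf J y y' = 1) (hxy : bf J x y = 0) (u : Fin 4 → F) :
    ∃ c₀ c₁ c₂ c₃ : F, u = c₀ • x + c₁ • y + c₂ • x' + c₃ • y' := by
  have hyx : bf J y x = 0 := by rw [bf_swap J halt, hxy, neg_zero]
  have hli : LinearIndependent F ![x, y, x', y'] := by
    rw [Fintype.linearIndependent_iff]
    intro g hg
    rw [Fin.sum_univ_four] at hg
    replace hg : g 0 • x + g 1 • y + g 2 • x' + g 3 • y' = 0 := hg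
    have e2 : bf J x (g 0 • x + g 1 • y + g 2 • x' + g 3 • y') = g 2 := by
      rw [bf_add_right, bf_add_right, bf_add_right, bf_smul_right, bf_smul_right, bf_smul_right,
        bf_smul_right, halt x, hxy, h1, h3]
      ring
    have e3 : bf J y (g 0 • x + g 1 • y + g 2 • x' + g 3 • y') = g 3 := by
      rw [bf_add_right, bf_add_right, bf_add_right, bf_smul_right, bf_smul_right, bf_smul_right,
        bf_smul_right, halt y, hyx, h2, h4]
      ring
    rw [hg, bf_zero_right] at e2 e3
    have e0 : bf J (g 0 • x + g 1 • y + g 2 • x' + g 3 • y') x' = g 0 := by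
      rw [bf_add_left, bf_add_left, bf_add_left, bf_smul_left, bf_smul_left, bf_smul_left,
        bf_smul_left, halt x', h1, h2, ← e2, ← e3]
      ring
    have e1 : bf J (g 0 • x + g 1 • y + g 2 • x' + g 3 • y') y' = g 1 := by
      rw [bf_add_left, bf_add_left, bf_add_left, bf_smul_left, bf_smul_left, bf_smul_left,
        bf_smul_left, halt y', h3, h4, ← e2, ← e3]
      ring
    rw [hg, bf_zero_left] at e0 e1
    intro i
    fin_cases i
    · exact e0.symm
    · exact e1.symm
    · exact e2.symm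
    · exact e3.symm
  have hspan := hli.span_eq_top_of_card_eq_finrank' (by
    rw [Module.finrank_fin_fun, Fintype.card_fin])
  have hu : u ∈ Submodule.span F (Set.range ![x, y, x', y']) := by
    rw [hspan]
    exact Submodule.mem_top
  rw [Submodule.mem_span_range_iff_exists_fun] at hu
  obtain ⟨c, hc⟩ := hu
  rw [Fin.sum_univ_four] at hc
  replace hc : c 0 • x + c 1 • y + c 2 • x' + c 3 • y' = u := hc
  exact ⟨c 0, c 1, c 2, c 3, hc.symm⟩

/-- in dimension 4, a vector orthogonal to a hyperbolic quadruple is zero. -/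
theorem vec4_ext (J : Matrix (Fin 4) (Fin 4) F) (halt : ∀ x, bf J x x = 0) (hdet : J.det ≠ 0)
    (x y x' y' : Fin 4 → F) (h1 : bf J x x' = 1) (h2 : bf J y x' = 0) (h3 : bf J x y' = 0)
    (h4 : bf J y y' = 1) (hxy : bf J x y = 0) (r : Fin 4 → F)
    (e1 : bf J r x = 0) (e2 : bf J r y = 0) (e3 : bf J r x' = 0) (e4 : bf J r y' = 0) : r = 0 := by
  apply eq_zero_of_perp J hdet
  intro u
  obtain ⟨c₀, c₁, c₂, c₃, rfl⟩ := span4 J halt x y x' y' h1 h2 h3 h4 hxy u
  rw [bf_add_right, bf_add_right, bf_add_right, bf_smul_right, bf_smul_right, bf_smul_right,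
    bf_smul_right, e1, e2, e3, e4]
  ring

end Cfsg.Agent.Helper51.T5L6A
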