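import Mathlib
import Cfsg.Prelude.Def_GeometricClasses
import Cfsg.Agent.Helper71.T4Defs
import Cfsg.Agent.Helper96.T5Defs

/-!
# CALL S5704 piece SG (helper51): core, with the GMA / GMB statements as hypotheses
-/

set_option autoImplicit false
set_option linter.unusedVariables false

namespace Cfsg.Agent.Helper51.T5SG

open Matrix Cfsg Cfsg.Geo Cfsg.Agent.Helper71.T4 Cfsg.Agent.Helper96.T5
open scoped Kronecker

variable {F : Type*} [Field F] {a b : ℕ}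

variable {J₁ : Matrix (Fin a) (Fin a) F} {J₂ : Matrix (Fin b) (Fin b) F}
  {Q : (Fin a × Fin b → F) → F}

theorem gm_zero (d w : Fin b → F) : Gm J₁ J₂ d w 0 0 = 1 := by
  simp [Gm, adj]

theorem adj_one (hT : TQ J₁ J₂ Q) : adj J₁ (1 : Matrix (Fin a) (Fin a) F) = 1 := by
  rw [adj, Matrix.transpose_one, Matrix.mul_one,
    Matrix.nonsing_inv_mul _ (isUnit_iff_ne_zero.mpr hT.det₁)]

/-- `w ∉ F d`: some `w'` is orthogonal to `d` but not to `w`. -/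
theorem exists_perp_pair (hT : TQ J₁ J₂ Q) (d w : Fin b → F) (hd : d ≠ 0)
    (hind : ∀ c : F, w ≠ c • d) : ∃ w' : Fin b → F, bf J₂ w' d = 0 ∧ bf J₂ w w' ≠ 0 := by
  by_contra hcon
  push Not at hcon
  obtain ⟨y, hy⟩ := exists_bf_eq_one J₂ hT.det₂ d hd
  have hyd : bf J₂ y d = -1 := by
    rw [bf_swap J₂ hT.alt₂, hy]
  have key : ∀ v, bf J₂ w v = -(bf J₂ v d) * bf J₂ w y := by
    intro v
    have h1 : bf J₂ (v + bf J₂ v d • y) d = 0 := by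
      rw [bf_add_left, bf_smul_left, hyd]
      ring
    have h2 := hcon _ h1
    rw [bf_add_right, bf_smul_right] at h2
    linear_combination h2
  have hz : w - bf J₂ w y • d = 0 := by
    by_contra hne
    obtain ⟨v, hv⟩ := exists_bf_eq_one J₂ hT.det₂ _ hne
    rw [bf_sub_left, bf_smul_left, key v, bf_swap J₂ hT.alt₂ v d] at hv
    have h0 : (0 : F) = 1 := by linear_combination hv
    exact zero_ne_one h0
  exact hind _ (sub_eq_zero.1 hz)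

/-- PIECE SG, with the statements of GMA and GMB as hypotheses. -/
theorem sg_core (hT : TQ J₁ J₂ Q) (M : Subgroup (GL (Fin a × Fin b) F)) (hR : HasR J₁ J₂ M)
    (hW : NSW J₂ M) (d w : Fin b → F) (hd : d ≠ 0) (hwd : bf J₂ w d = 0)
    (hind : ∀ c : F, w ≠ c • d)
    (gm_mul : ∀ (d w : Fin b → F), bf J₂ w d = 0 → ∀ (A A' S S' : Matrix (Fin a) (Fin a) F),
      Gm J₁ J₂ d w A S * Gm J₁ J₂ d w A' S' = Gm J₁ J₂ d w (A + A') (S + S'))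
    (gm_comm : ∀ (d w w' : Fin b → F), bf J₂ w d = 0 → bf J₂ w' d = 0 →
      ∀ (A A' S S' : Matrix (Fin a) (Fin a) F),
      Gm J₁ J₂ d w A S * Gm J₁ J₂ d w' A' S' * Gm J₁ J₂ d w (-A) (-S) * Gm J₁ J₂ d w' (-A') (-S')
        = 1 + (bf J₂ w' w • (adj J₁ A * A' + adj J₁ A' * A)) ⊗ₖ rk J₂ d d)
    (gm_conjU : ∀ (d w : Fin b → F) (u : Fin a → F) (c : F) (A S : Matrix (Fin a) (Fin a) F),
      (tv J₁ u c ⊗ₖ (1 : Matrix (Fin b) (Fin b) F)) * Gm J₁ J₂ d w A S *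
          (tv J₁ u (-c) ⊗ₖ (1 : Matrix (Fin b) (Fin b) F))
        = Gm J₁ J₂ d w (tv J₁ u c * A * tv J₁ u (-c)) (tv J₁ u c * S * tv J₁ u (-c)))
    (gm_conjW : ∀ (d w w' : Fin b → F), bf J₂ w d = 0 → bf J₂ w' d = 0 → bf J₂ w w' ≠ 0 →
      ∀ (A S : Matrix (Fin a) (Fin a) F),
      ((1 : Matrix (Fin a) (Fin a) F) ⊗ₖ tv J₂ (w - w') (bf J₂ w w')⁻¹) * Gm J₁ J₂ d w A S *
          ((1 : Matrix (Fin a) (Fin a) F) ⊗ₖ tv J₂ (w - w') (-(bf J₂ w w')⁻¹))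
        = Gm J₁ J₂ d w' A S)
    (gm_heis : ∀ (d w : Fin b → F), bf J₂ w d = 0 → ∀ (c s : F),
      Gm J₁ J₂ d w (c • (1 : Matrix (Fin a) (Fin a) F)) (s • (1 : Matrix (Fin a) (Fin a) F))
        = ((1 : Matrix (Fin a) (Fin a) F) ⊗ₖ tv J₂ (d + c • w) 1) *
          ((1 : Matrix (Fin a) (Fin a) F) ⊗ₖ tv J₂ w (-c ^ 2)) *
          ((1 : Matrix (Fin a) (Fin a) F) ⊗ₖ tv J₂ d (s - 1))) :
    ∃ 𝔖 : AddSubgroup (Matrix (Fin a) (Fin a) F),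
      (∀ A, A ∈ 𝔖 ↔ ∃ S, InM M (Gm J₁ J₂ d w A S)) ∧
      (∀ c : F, c • (1 : Matrix (Fin a) (Fin a) F) ∈ 𝔖) ∧
      (∀ (e : Fin a → F) (c : F) (A : Matrix (Fin a) (Fin a) F), A ∈ 𝔖 →
        tv J₁ e c * A * tv J₁ e (-c) ∈ 𝔖) ∧
      (∀ A ∈ 𝔖, ∃ κ : F, A + adj J₁ A = κ • (1 : Matrix (Fin a) (Fin a) F)) ∧
      (∀ A ∈ 𝔖, ∀ A' ∈ 𝔖, ∃ κ : F,
        adj J₁ A * A' + adj J₁ A' * A = κ • (1 : Matrix (Fin a) (Fin a) F)) := by
  -- inverses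
  have hinv : ∀ (w₀ : Fin b → F), bf J₂ w₀ d = 0 → ∀ (A S : Matrix (Fin a) (Fin a) F),
      InM M (Gm J₁ J₂ d w₀ A S) → InM M (Gm J₁ J₂ d w₀ (-A) (-S)) := by
    intro w₀ hw₀ A S h
    refine h.inv ?_
    rw [gm_mul d w₀ hw₀, add_neg_cancel, add_neg_cancel, gm_zero]
  have hone : ∀ c : F, ∃ S, InM M (Gm J₁ J₂ d w (c • (1 : Matrix (Fin a) (Fin a) F)) S) := by
    intro c
    refine ⟨(0 : F) • (1 : Matrix (Fin a) (Fin a) F), ?_⟩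
    rw [gm_heis d w hwd c 0]
    exact ((hR.1 _ _).mul (hR.1 _ _)).mul (hR.1 _ _)
  obtain ⟨w', hw'd, hww'⟩ := exists_perp_pair hT d w hd hind
  have hne : bf J₂ w' w ≠ 0 := by
    rw [bf_swap J₂ hT.alt₂]
    exact neg_ne_zero.2 hww'
  have hpair : ∀ A A' : Matrix (Fin a) (Fin a) F, (∃ S, InM M (Gm J₁ J₂ d w A S)) →
      (∃ S, InM M (Gm J₁ J₂ d w A' S)) →
      ∃ κ : F, adj J₁ A * A' + adj J₁ A' * A = κ • (1 : Matrix (Fin a) (Fin a) F) := by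
    rintro A A' ⟨S, hA⟩ ⟨S', hA'⟩
    have h1 : InM M (Gm J₁ J₂ d w' A' S') := by
      rw [← gm_conjW d w w' hwd hw'd hww' A' S']
      exact ((hR.1 _ _).mul hA').mul (hR.1 _ _)
    have h2 : InM M (Gm J₁ J₂ d w (-A) (-S)) := hinv w hwd A S hA
    have h3 : InM M (Gm J₁ J₂ d w' (-A') (-S')) := hinv w' hw'd A' S' h1
    have h4 : InM M (1 + (bf J₂ w' w • (adj J₁ A * A' + adj J₁ A' * A)) ⊗ₖ rk J₂ d d) := by
      rw [← gm_comm d w w' hwd hw'd A A' S S']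
      exact ((hA.mul h1).mul h2).mul h3
    obtain ⟨κ, hκ⟩ := hW _ d hd h4
    refine ⟨(bf J₂ w' w)⁻¹ * κ, ?_⟩
    have h5 : adj J₁ A * A' + adj J₁ A' * A =
        (bf J₂ w' w)⁻¹ • (bf J₂ w' w • (adj J₁ A * A' + adj J₁ A' * A)) := by
      rw [smul_smul, inv_mul_cancel₀ hne, one_smul]
    rw [h5, hκ, smul_smul]
  refine ⟨{ carrier := {A | ∃ S, InM M (Gm J₁ J₂ d w A S)}
            add_mem' := ?_
            zero_mem' := ?_
            neg_mem' := ?_ }, ?_, ?_, ?_, ?_, ?_⟩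
  · rintro A A' ⟨S, hA⟩ ⟨S', hA'⟩
    refine ⟨S + S', ?_⟩
    rw [← gm_mul d w hwd]
    exact hA.mul hA'
  · refine ⟨0, ?_⟩
    rw [gm_zero]
    exact InM.one M
  · rintro A ⟨S, hA⟩
    exact ⟨-S, hinv w hwd A S hA⟩
  · intro A
    exact Iff.rfl
  · intro c
    exact hone c
  · rintro e c A ⟨S, hA⟩
    refine ⟨tv J₁ e c * S * tv J₁ e (-c), ?_⟩
    rw [← gm_conjU d w e c A S]
    exact ((hR.2 _ _).mul hA).mul (hR.2 _ _)
  · intro A hA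
    have h1 : ∃ S, InM M (Gm J₁ J₂ d w (1 : Matrix (Fin a) (Fin a) F) S) := by
      have h2 := hone 1
      rwa [one_smul] at h2
    obtain ⟨κ, hκ⟩ := hpair A 1 hA h1
    refine ⟨κ, ?_⟩
    rw [adj_one hT, Matrix.mul_one, Matrix.one_mul] at hκ
    rw [add_comm]
    exact hκ
  · intro A hA A' hA'
    exact hpair A A' hA hA'

end Cfsg.Agent.Helper51.T5SG
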