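import Mathlib
import Cfsg.Prelude.Def_GeometricClasses
import Cfsg.Agent.Helper71.T4Defs
import Cfsg.Agent.Helper96.T5Defs
import Cfsg.Agent.Helper97.OForm
import Cfsg.Agent.Helper29.T5GMA
import Cfsg.Agent.Helper99.T5GMB
import Cfsg.Agent.Helper51.T5L6P
import Cfsg.Agent.Helper51.T5SGCore
import Cfsg.Agent.Helper51.T5L6ALin

/-!
# CALL S5704 piece L6A (helper51)
-/

set_option autoImplicit false
set_option linter.unusedVariables false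

namespace Cfsg.Agent.Helper51.T5L6A

open Matrix Cfsg Cfsg.Geo Cfsg.Agent.Helper71.T4 Cfsg.Agent.Helper96.T5
open scoped Kronecker

variable {F : Type*} [Field F] {a b : ℕ}

variable {J₁ : Matrix (Fin a) (Fin a) F} {J₂ : Matrix (Fin b) (Fin b) F}
  {Q : (Fin a × Fin b → F) → F}

/-- an isometry `Gm d w (dm x y) S` has `S` alternating. -/
theorem gm_iso_alt (hT : TQ J₁ J₂ Q) (d w : Fin b → F) (hd : d ≠ 0) (hwd : bf J₂ w d = 0)
    (x y : Fin a → F) (S : Matrix (Fin a) (Fin a) F)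
    (hiso : ∀ v, Q (Gm J₁ J₂ d w (dm J₁ x y) S *ᵥ v) = Q v) (u : Fin a → F) :
    bf J₁ (S *ᵥ u) u = 0 := by
  obtain ⟨y₀, hy₀⟩ := exists_bf_eq_one J₂ hT.det₂ d hd
  have hy₀d : bf J₂ y₀ d = -1 := by rw [bf_swap J₂ hT.alt₂, hy₀]
  have hQadd : ∀ p q, Q (p + q) = Q p + Q q + bf (J₁ ⊗ₖ J₂) p q := by
    intro p q
    rw [← hT.polar, QuadraticMap.polar]
    ring
  have hadj : adj J₁ (dm J₁ x y) = dm J₁ x y :=
    adj_eq_of_self J₁ hT.alt₁ hT.det₁ _ (dm_self J₁ hT.alt₁ x y)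
  have hDu : bf J₁ u (dm J₁ x y *ᵥ u) = 0 := by
    rw [bf_swap J₁ hT.alt₁, dm_alt J₁ hT.alt₁, neg_zero]
  have hdw : bf J₂ d w = 0 := by rw [bf_swap J₂ hT.alt₂, hwd, neg_zero]
  have h := hiso (pt u y₀)
  rw [hT.pure, Gm, hadj, Matrix.add_mulVec, Matrix.add_mulVec, Matrix.add_mulVec,
    Matrix.one_mulVec, kron_mulVec_pt, kron_mulVec_pt, kron_mulVec_pt, rk_mulVec, rk_mulVec,
    rk_mulVec, hQadd, hQadd, hQadd, hT.pure, hT.pure, hT.pure, hT.pure] at h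
  simp only [bf_add_left, bf_kron_pt, bf_smul_left, bf_smul_right, hwd, hT.alt₂ d, hDu,
    hy₀d, mul_zero, zero_mul, add_zero, zero_add] at h
  rw [bf_swap J₁ hT.alt₁]
  linear_combination -h

/-- a vector orthogonal to `x`, `y` is an eigenvector of `S`. -/
theorem l6a_eig (hT : TQ J₁ J₂ Q) (M : Subgroup (GL (Fin a × Fin b) F)) (hR : HasR J₁ J₂ M)
    (hW : NSW J₂ M) (d w : Fin b → F) (hd : d ≠ 0) (hwd : bf J₂ w d = 0)
    (x y : Fin a → F) (S : Matrix (Fin a) (Fin a) F)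
    (hSalt : ∀ u, bf J₁ (S *ᵥ u) u = 0)
    (h : InM M (Gm J₁ J₂ d w (dm J₁ x y) S))
    (z : Fin a → F) (hz : z ≠ 0) (hxz : bf J₁ x z = 0) (hyz : bf J₁ y z = 0) :
    ∃ l : F, S *ᵥ z = l • z := by
  have hSself := self_of_alt J₁ hT.alt₁ S hSalt
  have hDz : dm J₁ x y *ᵥ z = 0 := by
    rw [dm_mulVec, bf_swap J₁ hT.alt₁ z y, bf_swap J₁ hT.alt₁ z x, hxz, hyz]
    simp
  have hD1 : tv J₁ z 1 * dm J₁ x y * tv J₁ z (-1) = dm J₁ x y := by
    have h1 := Cfsg.Agent.Helper51.T5L6P.l6p J₁ (dm J₁ x y) (dm_self J₁ hT.alt₁ x y)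
      (dm_alt J₁ hT.alt₁ x y) z 1
    rw [hDz, dm_zero_right, smul_zero] at h1
    exact sub_eq_zero.1 h1
  have hS1 : tv J₁ z 1 * S * tv J₁ z (-1) = S + dm J₁ z (S *ᵥ z) := by
    have h1 := Cfsg.Agent.Helper51.T5L6P.l6p J₁ S hSself hSalt z 1
    rw [one_smul] at h1
    rw [← h1]
    abel
  have hconj := Cfsg.Agent.Helper99.T5GMB.gm_conjU hT d w z 1 (dm J₁ x y) S
  rw [hD1, hS1] at hconj
  have hin1 : InM M (Gm J₁ J₂ d w (dm J₁ x y) (S + dm J₁ z (S *ᵥ z))) := by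
    rw [← hconj]
    exact ((hR.2 z 1).mul h).mul (hR.2 z (-1))
  have hinv : InM M (Gm J₁ J₂ d w (-dm J₁ x y) (-S)) := by
    apply InM.inv h
    rw [Cfsg.Agent.Helper29.T5GMA.gm_mul hT d w hwd, add_neg_cancel, add_neg_cancel]
    exact Cfsg.Agent.Helper51.T5SG.gm_zero d w
  have hin2 := hinv.mul hin1
  rw [Cfsg.Agent.Helper29.T5GMA.gm_mul hT d w hwd, neg_add_cancel, neg_add_cancel_left] at hin2
  have hE : Gm J₁ J₂ d w 0 (dm J₁ z (S *ᵥ z)) = 1 + dm J₁ z (S *ᵥ z) ⊗ₖ rk J₂ d d := by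
    simp [Gm, adj]
  rw [hE] at hin2
  obtain ⟨κ, hκ⟩ := hW _ d hd hin2
  have hEz : dm J₁ z (S *ᵥ z) *ᵥ z = 0 := by
    rw [dm_mulVec, hT.alt₁ z, bf_swap J₁ hT.alt₁ z (S *ᵥ z), hSalt z]
    simp
  have hκ0 : κ = 0 := by
    rw [hκ, Matrix.smul_mulVec, Matrix.one_mulVec] at hEz
    rcases smul_eq_zero.1 hEz with h0 | h0
    · exact h0
    · exact absurd h0 hz
  obtain ⟨v, hv⟩ := exists_bf_eq_one J₁ hT.det₁ z hz
  have hEv : dm J₁ z (S *ᵥ z) *ᵥ v = 0 := by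
    rw [hκ, hκ0, zero_smul, Matrix.zero_mulVec]
  rw [dm_mulVec, bf_swap J₁ hT.alt₁ v z, hv] at hEv
  refine ⟨-(bf J₁ v (S *ᵥ z)), ?_⟩
  rw [neg_one_smul, sub_neg_eq_add] at hEv
  rw [neg_smul]
  exact eq_neg_of_add_eq_zero_right hEv

/-- PIECE L6A -/
theorem l6a (hT : TQ J₁ J₂ Q) (ha : a = 4) (h2 : (2 : F) = 0)
    (M : Subgroup (GL (Fin a × Fin b) F)) (hMO : M ≤ isometryGroup F Q) (hR : HasR J₁ J₂ M)
    (hW : NSW J₂ M) (d w : Fin b → F) (hd : d ≠ 0) (hwd : bf J₂ w d = 0)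
    (x y : Fin a → F) (hx : x ≠ 0) (hind : ∀ c : F, y ≠ c • x) (hxy : bf J₁ x y = 0)
    (S : Matrix (Fin a) (Fin a) F) (h : InM M (Gm J₁ J₂ d w (dm J₁ x y) S)) :
    ∃ β : F, InM M (1 + dm J₁ x y ⊗ₖ (rk J₂ w d + rk J₂ d w + β • rk J₂ d d)) := by
  subst ha
  have hiso : ∀ v, Q (Gm J₁ J₂ d w (dm J₁ x y) S *ᵥ v) = Q v := by
    obtain ⟨g, hg, hgeq⟩ := h
    intro v
    rw [← hgeq]
    exact (Cfsg.Agent.Helper97.Gen.mem_isometryGroup_iff Q g).1 (hMO hg) v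
  have hSalt := gm_iso_alt hT d w hd hwd x y S hiso
  have hy : y ≠ 0 := by
    have h0 := hind 0
    rwa [zero_smul] at h0
  have hyx : bf J₁ y x = 0 := by rw [bf_swap J₁ hT.alt₁, hxy, neg_zero]
  obtain ⟨x', y', h1, h2', h3, h4⟩ := exists_dual J₁ hT.alt₁ hT.det₁ x y hx hind
  obtain ⟨l₁, hl₁⟩ := l6a_eig hT M hR hW d w hd hwd x y S hSalt h x hx (hT.alt₁ x) hyx
  obtain ⟨l₂, hl₂⟩ := l6a_eig hT M hR hW d w hd hwd x y S hSalt h y hy hxy (hT.alt₁ y)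
  have hxy0 : x + y ≠ 0 := by
    intro h0
    apply hind (-1)
    rw [neg_one_smul]
    exact eq_neg_of_add_eq_zero_right h0
  obtain ⟨l₃, hl₃⟩ := l6a_eig hT M hR hW d w hd hwd x y S hSalt h (x + y) hxy0
    (by rw [bf_add_right, hT.alt₁ x, hxy, add_zero])
    (by rw [bf_add_right, hyx, hT.alt₁ y, add_zero])
  rw [Matrix.mulVec_add, hl₁, hl₂, smul_add] at hl₃
  have e1 : l₁ = l₃ := by
    have h5 := congrArg (fun v => bf J₁ v x') hl₃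
    simp only [bf_add_left, bf_smul_left, h1, h2'] at h5
    linear_combination h5
  have e2 : l₂ = l₃ := by
    have h5 := congrArg (fun v => bf J₁ v y') hl₃
    simp only [bf_add_left, bf_smul_left, h3, h4] at h5
    linear_combination h5
  have hS'x : (S - l₃ • (1 : Matrix (Fin 4) (Fin 4) F)) *ᵥ x = 0 := by
    rw [Matrix.sub_mulVec, Matrix.smul_mulVec, Matrix.one_mulVec, hl₁, e1, sub_self]
  have hS'y : (S - l₃ • (1 : Matrix (Fin 4) (Fin 4) F)) *ᵥ y = 0 := by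
    rw [Matrix.sub_mulVec, Matrix.smul_mulVec, Matrix.one_mulVec, hl₂, e2, sub_self]
  have hS'alt : ∀ u, bf J₁ ((S - l₃ • (1 : Matrix (Fin 4) (Fin 4) F)) *ᵥ u) u = 0 := by
    intro u
    rw [Matrix.sub_mulVec, Matrix.smul_mulVec, Matrix.one_mulVec, bf_sub_left, bf_smul_left,
      hSalt u, hT.alt₁ u]
    ring
  have hS'self := self_of_alt J₁ hT.alt₁ _ hS'alt
  have hS : S + (-l₃) • (1 : Matrix (Fin 4) (Fin 4) F)
      = S - l₃ • (1 : Matrix (Fin 4) (Fin 4) F) := by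
    rw [neg_smul, sub_eq_add_neg]
  generalize S - l₃ • (1 : Matrix (Fin 4) (Fin 4) F) = S' at hS'x hS'y hS'alt hS'self hS
  have hSx' : S' *ᵥ x' = bf J₁ (S' *ᵥ x') y' • y := by
    have h5 : S' *ᵥ x' - bf J₁ (S' *ᵥ x') y' • y = 0 := by
      apply vec4_ext J₁ hT.alt₁ hT.det₁ x y x' y' h1 h2' h3 h4 hxy
      · rw [bf_sub_left, bf_smul_left, hS'self, hS'x, bf_zero_right, hyx]
        ring
      · rw [bf_sub_left, bf_smul_left, hS'self, hS'y, bf_zero_right, hT.alt₁ y]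
        ring
      · rw [bf_sub_left, bf_smul_left, hS'alt, h2']
        ring
      · rw [bf_sub_left, bf_smul_left, h4]
        ring
    exact sub_eq_zero.1 h5
  have hSy' : S' *ᵥ y' = -(bf J₁ (S' *ᵥ x') y' • x) := by
    have h5 : S' *ᵥ y' + bf J₁ (S' *ᵥ x') y' • x = 0 := by
      apply vec4_ext J₁ hT.alt₁ hT.det₁ x y x' y' h1 h2' h3 h4 hxy
      · rw [bf_add_left, bf_smul_left, hS'self, hS'x, bf_zero_right, hT.alt₁ x]
        ring
      · rw [bf_add_left, bf_smul_left, hS'self, hS'y, bf_zero_right, hxy]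
        ring
      · rw [bf_add_left, bf_smul_left, hS'self y' x', bf_swap J₁ hT.alt₁ y' (S' *ᵥ x'), h1]
        ring
      · rw [bf_add_left, bf_smul_left, hS'alt, h3]
        ring
    exact eq_neg_of_add_eq_zero_left h5
  generalize bf J₁ (S' *ᵥ x') y' = β at hSx' hSy'
  have hS'eq : S' = β • dm J₁ x y := by
    apply mat_ext
    intro u
    obtain ⟨c₀, c₁, c₂, c₃, rfl⟩ := span4 J₁ hT.alt₁ x y x' y' h1 h2' h3 h4 hxy u
    simp only [Matrix.mulVec_add, Matrix.mulVec_smul, Matrix.smul_mulVec, hS'x, hS'y, hSx', hSy',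
      dm_mulVec, hT.alt₁ x, hT.alt₁ y, hxy, hyx,
      bf_swap J₁ hT.alt₁ x' x, bf_swap J₁ hT.alt₁ x' y, bf_swap J₁ hT.alt₁ y' x,
      bf_swap J₁ hT.alt₁ y' y, h1, h2', h3, h4]
    ext i
    simp only [Pi.add_apply, Pi.sub_apply, Pi.smul_apply, Pi.neg_apply, Pi.zero_apply, smul_eq_mul]
    ring
  refine ⟨β, ?_⟩
  have hheis : InM M (Gm J₁ J₂ d w ((0 : F) • (1 : Matrix (Fin 4) (Fin 4) F))
      ((-l₃) • (1 : Matrix (Fin 4) (Fin 4) F))) := by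
    rw [Cfsg.Agent.Helper99.T5GMB.gm_heis hT d w hwd 0 (-l₃)]
    exact ((hR.1 _ _).mul (hR.1 _ _)).mul (hR.1 _ _)
  have hprod := h.mul hheis
  rw [Cfsg.Agent.Helper29.T5GMA.gm_mul hT d w hwd] at hprod
  have hadj : adj J₁ (dm J₁ x y) = dm J₁ x y :=
    adj_eq_of_self J₁ hT.alt₁ hT.det₁ _ (dm_self J₁ hT.alt₁ x y)
  have hfin : Gm J₁ J₂ d w (dm J₁ x y + (0 : F) • (1 : Matrix (Fin 4) (Fin 4) F))
      (S + (-l₃) • (1 : Matrix (Fin 4) (Fin 4) F))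
      = 1 + dm J₁ x y ⊗ₖ (rk J₂ w d + rk J₂ d w + β • rk J₂ d d) := by
    rw [hS, hS'eq, zero_smul, add_zero, Gm, hadj, Matrix.kronecker_add, Matrix.kronecker_add,
      Matrix.smul_kronecker, Matrix.kronecker_smul]
    abel
  rw [hfin] at hprod
  exact hprod

end Cfsg.Agent.Helper51.T5L6A
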