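import Mathlib
import Cfsg.Prelude.Def_GeometricClasses
import Cfsg.Agent.Helper71.T4Defs
import Cfsg.Agent.Helper96.T5Defs
import Cfsg.Agent.Helper39.T4RP
import Cfsg.Agent.Helper76.T4SY

/-!
# CALL S5704 piece PP (helper51): elements of `M` map pure tensors to pure tensors
(mirror of `Helper74.T4PP.pure_to_pure`)
-/

set_option autoImplicit false
set_option linter.unusedVariables false

namespace Cfsg.Agent.Helper51.T5PP

open Matrix Cfsg Cfsg.Geo Cfsg.Agent.Helper71.T4 Cfsg.Agent.Helper96.T5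
open scoped Kronecker

variable {F : Type*} [Field F] {a b : ℕ}

variable {J₁ : Matrix (Fin a) (Fin a) F} {J₂ : Matrix (Fin b) (Fin b) F}
  {Q : (Fin a × Fin b → F) → F}

/-- PIECE PP -/
theorem pp [Finite F] (hT : TQ J₁ J₂ Q) (ha : 1 ≤ a) (hab : a < b)
    (M : Subgroup (GL (Fin a × Fin b) F)) (hR : HasR J₁ J₂ M)
    (hi : ∀ w : Fin b → F, w ≠ 0 → ∀ g ∈ M,
      IsKron (g.1 * ((1 : Matrix (Fin a) (Fin a) F) ⊗ₖ tv J₂ w 1) * (g⁻¹).1) → IsKron g.1)
    (g : GL (Fin a × Fin b) F) (hg : g ∈ M) (u : Fin a → F) (w : Fin b → F) :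
    ∃ (u' : Fin a → F) (w' : Fin b → F), g.1 *ᵥ pt u w = pt u' w' := by
  classical
  by_cases hw : w = 0
  · refine ⟨0, 0, ?_⟩
    have h0 : pt u w = 0 := by
      ext q
      simp [pt, hw]
    rw [h0, Matrix.mulVec_zero]
    ext q
    simp [pt]
  have : Fact (ringChar F).Prime := ⟨CharP.char_is_prime F _⟩
  obtain ⟨v, hv⟩ : ∃ v : Fin a × Fin b → F,
      v = (g : Matrix (Fin a × Fin b) (Fin a × Fin b) F) *ᵥ pt u w := ⟨_, rfl⟩
  obtain ⟨β, hβ0, hβv⟩ : ∃ β : Fin b → F, β ≠ 0 ∧ ∀ i : Fin a, ∑ k, β k * v (i, k) = 0 := by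
    let f : (Fin b → F) →ₗ[F] (Fin a → F) :=
      { toFun := fun β i => ∑ k, β k * v (i, k)
        map_add' := by
          intro x y
          ext i
          simp [add_mul, Finset.sum_add_distrib]
        map_smul' := by
          intro c x
          ext i
          simp [Finset.mul_sum, mul_assoc] }
    have hk : LinearMap.ker f ≠ ⊥ := by
      apply LinearMap.ker_ne_bot_of_finrank_lt
      simp only [Module.finrank_pi, Fintype.card_fin]
      exact hab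
    obtain ⟨β, hβ, hβ0⟩ := (Submodule.ne_bot_iff _).1 hk
    exact ⟨β, hβ0, fun i => congrFun (LinearMap.mem_ker.1 hβ) i⟩
  have hJ : IsUnit J₂.det := isUnit_iff_ne_zero.mpr hT.det₂
  obtain ⟨w₁, hw₁⟩ : ∃ w₁ : Fin b → F, J₂ *ᵥ w₁ = β :=
    ⟨J₂⁻¹ *ᵥ β, by rw [Matrix.mulVec_mulVec, Matrix.mul_nonsing_inv _ hJ, Matrix.one_mulVec]⟩
  have hw₁0 : w₁ ≠ 0 := by
    rintro rfl
    rw [Matrix.mulVec_zero] at hw₁
    exact hβ0 hw₁.symm
  obtain ⟨t', ht'M, ht'⟩ := hR.1 w₁ 1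
  obtain ⟨t'', ht''M, ht''⟩ := hR.1 w 1
  let T : Set (GL (Fin a × Fin b) F) := {t | ∃ w : Fin b → F, w ≠ 0 ∧
    (t : Matrix (Fin a × Fin b) (Fin a × Fin b) F)
      = (1 : Matrix (Fin a) (Fin a) F) ⊗ₖ tv J₂ w 1}
  have hroot : ∀ w : Fin b → F, (1 : Matrix (Fin a) (Fin a) F) ⊗ₖ tv J₂ w 1 =
      1 + (1 : Matrix (Fin a) (Fin a) F) ⊗ₖ vecMulVec w (J₂ *ᵥ w) := by
    intro w
    rw [tv, one_smul, rk, Matrix.kronecker_add, Matrix.one_kronecker_one]
  have hTM : ∀ t ∈ T, t ∈ M := by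
    rintro t ⟨w, -, ht⟩
    apply mem_of_inM
    rw [ht]
    exact hR.1 w 1
  have hTH : ∀ t ∈ T, t ∈ kronSub a b F := by
    rintro t ⟨w, -, ht⟩
    rw [mem_kronSub, ht]
    exact ⟨1, tv J₂ w 1, rfl⟩
  have hTp : ∀ t ∈ T, t ^ (ringChar F) = 1 := by
    rintro t ⟨w, -, ht⟩
    have h : (J₂ *ᵥ w) ⬝ᵥ w = 0 := by
      rw [dotProduct_comm]
      exact hT.alt₂ w
    exact Cfsg.Agent.Helper39.T4RP.root_pow (ringChar F) t w (J₂ *ᵥ w) h (by rw [ht, hroot])
  have hi' : ∀ t ∈ T, ∀ g ∈ M, g * t * g⁻¹ ∈ kronSub a b F → g ∈ kronSub a b F := by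
    rintro t ⟨w, hw, ht⟩ g hg hgt
    rw [mem_kronSub] at hgt ⊢
    apply hi w hw g hg
    rw [← ht]
    rw [Units.val_mul, Units.val_mul] at hgt
    exact hgt
  let C : Subgroup (GL (Fin a × Fin b) F) :=
    { carrier := {c | (c : Matrix (Fin a × Fin b) (Fin a × Fin b) F) *ᵥ pt u w = pt u w}
      mul_mem' := by
        intro c₁ c₂ h₁ h₂
        show ((c₁ * c₂ : GL (Fin a × Fin b) F) : Matrix (Fin a × Fin b) (Fin a × Fin b) F)
          *ᵥ pt u w = pt u w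
        have h₁' : (c₁ : Matrix (Fin a × Fin b) (Fin a × Fin b) F) *ᵥ pt u w = pt u w := h₁
        have h₂' : (c₂ : Matrix (Fin a × Fin b) (Fin a × Fin b) F) *ᵥ pt u w = pt u w := h₂
        rw [Units.val_mul, ← Matrix.mulVec_mulVec, h₂', h₁']
      one_mem' := by
        show ((1 : GL (Fin a × Fin b) F) : Matrix (Fin a × Fin b) (Fin a × Fin b) F)
          *ᵥ pt u w = pt u w
        rw [Units.val_one, Matrix.one_mulVec]
      inv_mem' := by
        intro c hc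
        show ((c⁻¹ : GL (Fin a × Fin b) F) : Matrix (Fin a × Fin b) (Fin a × Fin b) F)
          *ᵥ pt u w = pt u w
        have hc' : (c : Matrix (Fin a × Fin b) (Fin a × Fin b) F) *ᵥ pt u w = pt u w := hc
        conv_lhs => rw [← hc']
        rw [Matrix.mulVec_mulVec, ← Units.val_mul, inv_mul_cancel, Units.val_one,
          Matrix.one_mulVec] }
  have hCmem : ∀ c : GL (Fin a × Fin b) F, c ∈ C ↔
      (c : Matrix (Fin a × Fin b) (Fin a × Fin b) F) *ᵥ pt u w = pt u w := fun c => Iff.rfl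
  have h1 : t'' ∈ C := by
    rw [hCmem, ht'', kron_mulVec_pt, Matrix.one_mulVec, tv_mulVec, hT.alt₂ w, mul_zero,
      zero_smul, add_zero]
  have ht'v : (t' : Matrix (Fin a × Fin b) (Fin a × Fin b) F) *ᵥ v = v := by
    rw [ht', hroot, Matrix.add_mulVec, Matrix.one_mulVec]
    have h3 : ((1 : Matrix (Fin a) (Fin a) F) ⊗ₖ vecMulVec w₁ (J₂ *ᵥ w₁)) *ᵥ v = 0 := by
      rw [hw₁]
      ext ⟨i, k⟩
      simp only [Matrix.mulVec, dotProduct, Matrix.kronecker_apply, Matrix.one_apply,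
        Matrix.vecMulVec_apply, Fintype.sum_prod_type, Pi.zero_apply]
      rw [Finset.sum_eq_single i]
      · rw [if_pos rfl]
        have h5 : ∀ l : Fin b, 1 * (w₁ k * β l) * v (i, l) = w₁ k * (β l * v (i, l)) := by
          intro l; ring
        rw [Finset.sum_congr rfl (fun l _ => h5 l), ← Finset.mul_sum, hβv i, mul_zero]
      · intro j _ hj
        rw [if_neg (Ne.symm hj)]
        simp
      · intro hne
        exact absurd (Finset.mem_univ _) hne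
    rw [h3, add_zero]
  have h2 : g⁻¹ * t' * g ∈ C := by
    rw [hCmem, Units.val_mul, Units.val_mul, ← Matrix.mulVec_mulVec, ← Matrix.mulVec_mulVec,
      ← hv, ht'v, hv, Matrix.mulVec_mulVec, ← Units.val_mul, inv_mul_cancel, Units.val_one,
      Matrix.one_mulVec]
  obtain ⟨m, hmM, hmC, hmH⟩ := Cfsg.Agent.Helper76.T4SY.syl_conj (ringChar F) M (kronSub a b F) T
    hTM hTH hTp hi' C g t' t'' hg ⟨w₁, hw₁0, ht'⟩ ⟨w, hw, ht''⟩ h1 h2
  have hgm : g * m⁻¹ ∈ kronSub a b F := by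
    have h3 := (kronSub a b F).inv_mem hmH
    rwa [_root_.mul_inv_rev, inv_inv] at h3
  obtain ⟨A, B, hAB⟩ := mem_kronSub.mp hgm
  refine ⟨A *ᵥ u, B *ᵥ w, ?_⟩
  have hm' : ((m⁻¹ : GL (Fin a × Fin b) F) : Matrix (Fin a × Fin b) (Fin a × Fin b) F)
      *ᵥ pt u w = pt u w := (hCmem _).mp (C.inv_mem hmC)
  rw [← kron_mulVec_pt, ← hAB, Units.val_mul, ← Matrix.mulVec_mulVec, hm']

end Cfsg.Agent.Helper51.T5PP
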