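import Mathlib
import Cfsg.Prelude.Def_GeometricClasses
import Cfsg.Agent.Helper71.T4Defs
import Cfsg.Agent.Helper96.T5Defs
import Cfsg.Agent.Helper29.T5GMA
import Cfsg.Agent.Helper99.T5GMB
import Cfsg.Agent.Helper51.T5SGCore

/-!
# CALL S5704 piece SG (helper51)
-/

set_option autoImplicit false
set_option linter.unusedVariables false

namespace Cfsg.Agent.Helper51.T5SG

open Matrix Cfsg Cfsg.Geo Cfsg.Agent.Helper71.T4 Cfsg.Agent.Helper96.T5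
open scoped Kronecker

variable {F : Type*} [Field F] {a b : ℕ}

variable {J₁ : Matrix (Fin a) (Fin a) F} {J₂ : Matrix (Fin b) (Fin b) F}
  {Q : (Fin a × Fin b → F) → F}

/-- PIECE SG -/
theorem sg_props (hT : TQ J₁ J₂ Q) (M : Subgroup (GL (Fin a × Fin b) F)) (hR : HasR J₁ J₂ M)
    (hW : NSW J₂ M) (d w : Fin b → F) (hd : d ≠ 0) (hwd : bf J₂ w d = 0)
    (hind : ∀ c : F, w ≠ c • d) :
    ∃ 𝔖 : AddSubgroup (Matrix (Fin a) (Fin a) F),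
      (∀ A, A ∈ 𝔖 ↔ ∃ S, InM M (Gm J₁ J₂ d w A S)) ∧
      (∀ c : F, c • (1 : Matrix (Fin a) (Fin a) F) ∈ 𝔖) ∧
      (∀ (e : Fin a → F) (c : F) (A : Matrix (Fin a) (Fin a) F), A ∈ 𝔖 →
        tv J₁ e c * A * tv J₁ e (-c) ∈ 𝔖) ∧
      (∀ A ∈ 𝔖, ∃ κ : F, A + adj J₁ A = κ • (1 : Matrix (Fin a) (Fin a) F)) ∧
      (∀ A ∈ 𝔖, ∀ A' ∈ 𝔖, ∃ κ : F,
        adj J₁ A * A' + adj J₁ A' * A = κ • (1 : Matrix (Fin a) (Fin a) F)) :=
  sg_core hT M hR hW d w hd hwd hind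
    (fun d w h => Cfsg.Agent.Helper29.T5GMA.gm_mul hT d w h)
    (fun d w w' h h' => Cfsg.Agent.Helper29.T5GMA.gm_comm hT d w w' h h')
    (Cfsg.Agent.Helper99.T5GMB.gm_conjU hT)
    (fun d w w' h h' h'' => Cfsg.Agent.Helper99.T5GMB.gm_conjW hT d w w' h h' h'')
    (fun d w h => Cfsg.Agent.Helper99.T5GMB.gm_heis hT d w h)

end Cfsg.Agent.Helper51.T5SG
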