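import Mathlib
import Cfsg.Prelude.Def_GeometricClasses
import Cfsg.Agent.Helper96.T5Defs

/-!
# CALL S5704 piece TRANS (helper51)
-/

set_option autoImplicit false
set_option linter.unusedVariables false

namespace Cfsg.Agent.Helper51.T5TRANS

open Matrix Cfsg Cfsg.Geo Cfsg.Agent.Helper71.T4 Cfsg.Agent.Helper96.T5
open scoped Kronecker

/-- one transvection maps `x` to `y` when `bf J x y ≠ 0`. -/
theorem tv_map {F : Type*} [Field F] {n : ℕ} (J : Matrix (Fin n) (Fin n) F)
    (halt : ∀ x, bf J x x = 0) (x y : Fin n → F) (h : bf J x y ≠ 0) :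
    tv J (x - y) (bf J x y)⁻¹ *ᵥ x = y := by
  rw [tv_mulVec, bf_sub_right, halt x, zero_sub, mul_neg, inv_mul_cancel₀ h]
  ext i
  simp

/-- PIECE TRANS: the symplectic transvections are transitive on non-zero vectors
(at most two transvections). -/
theorem sp_trans {F : Type*} [Field F] {n : ℕ} (J : Matrix (Fin n) (Fin n) F)
    (halt : ∀ x, bf J x x = 0) (hdet : J.det ≠ 0) (x y : Fin n → F) (hx : x ≠ 0) (hy : y ≠ 0) :
    ∃ (z z' : Fin n → F) (c c' : F), (tv J z' c' * tv J z c) *ᵥ x = y := by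
  by_cases hxy : bf J x y = 0
  · -- find `m` with `bf J x m ≠ 0` and `bf J m y ≠ 0`
    obtain ⟨m₁, hm₁⟩ := exists_bf_eq_one J hdet x hx
    obtain ⟨m₂, hm₂⟩ := exists_bf_eq_one J hdet y hy
    have hm₂' : bf J m₂ y = -1 := by
      rw [bf_swap J halt, hm₂]
    have key : ∃ m, bf J x m ≠ 0 ∧ bf J m y ≠ 0 := by
      by_cases h1 : bf J m₁ y = 0
      · by_cases h2 : bf J x m₂ = 0
        · refine ⟨m₁ + m₂, ?_, ?_⟩
          · rw [bf_add_right, hm₁, h2, add_zero]
            exact one_ne_zero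
          · rw [bf_add_left, h1, hm₂', zero_add]
            exact neg_ne_zero.2 one_ne_zero
        · refine ⟨m₂, h2, ?_⟩
          rw [hm₂']
          exact neg_ne_zero.2 one_ne_zero
      · refine ⟨m₁, ?_, h1⟩
        rw [hm₁]
        exact one_ne_zero
    obtain ⟨m, hxm, hmy⟩ := key
    refine ⟨x - m, m - y, (bf J x m)⁻¹, (bf J m y)⁻¹, ?_⟩
    rw [← Matrix.mulVec_mulVec, tv_map J halt x m hxm, tv_map J halt m y hmy]
  · refine ⟨x - y, 0, (bf J x y)⁻¹, 0, ?_⟩
    rw [← Matrix.mulVec_mulVec, tv_map J halt x y hxy, tv_mulVec, zero_mul, zero_smul, add_zero]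

end Cfsg.Agent.Helper51.T5TRANS
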