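import Mathlib

/-!
# CALL S5979 piece ARR (helper51): rearranging a diagonal `±w` matrix with an even number of `-w`
into `1 ⊗ diagonal D`
-/

set_option autoImplicit false

namespace Cfsg.Agent.Helper51.TEARR

open Matrix Polynomial
open scoped Kronecker

/-- the number of pairs `(i, j) : Fin 2 × Fin b` with `j < t` is `2 * t` (`t ≤ b`). -/
theorem card_snd_lt {b t : ℕ} (htb : t ≤ b) :
    Nat.card {p : Fin 2 × Fin b // (p.2 : ℕ) < t} = 2 * t := by
  have e : {p : Fin 2 × Fin b // (p.2 : ℕ) < t} ≃ Fin 2 × Fin t :=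
    { toFun := fun p => (p.1.1, ⟨p.1.2, p.2⟩)
      invFun := fun q => ⟨(q.1, ⟨q.2, lt_of_lt_of_le q.2.2 htb⟩), q.2.2⟩
      left_inv := by
        rintro ⟨⟨i, j⟩, h⟩
        rfl
      right_inv := by
        rintro ⟨i, j⟩
        rfl }
  rw [Nat.card_congr e, Nat.card_prod, Nat.card_fin, Nat.card_fin]

/-- conjugating by a permutation matrix. -/
theorem diagonal_comp_perm {F : Type*} [Field F] {X : Type*} [Fintype X] [DecidableEq X]
    (D' : X → F) (σ : Equiv.Perm X) :
    ∃ P P' : Matrix X X F, P * P' = 1 ∧ P' * P = 1 ∧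
      Matrix.diagonal (D' ∘ σ) = P * Matrix.diagonal D' * P' := by
  refine ⟨(1 : Matrix X X F).submatrix σ (Equiv.refl X),
    (1 : Matrix X X F).submatrix (Equiv.refl X) σ, ?_, ?_, ?_⟩
  · rw [Matrix.submatrix_mul_equiv, mul_one, Matrix.submatrix_one_equiv]
  · rw [Matrix.submatrix_mul_equiv, mul_one, Matrix.submatrix_one_equiv]
  · have h1 : Matrix.diagonal D' =
        (Matrix.diagonal D').submatrix (Equiv.refl X) (Equiv.refl X) := by
      ext i j
      rfl
    rw [← Matrix.submatrix_diagonal_equiv]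
    conv_rhs => rw [h1]
    rw [Matrix.submatrix_mul_equiv, Matrix.submatrix_mul_equiv, one_mul, mul_one]

/-- PIECE ARR -/
theorem arrange_diag {F : Type*} [Field F] {b : ℕ} (w : F) (hw : w ≠ -w)
    (d : Fin 2 × Fin b → F) (hd : ∀ p, d p = w ∨ d p = -w)
    (heven : Even (Nat.card {p : Fin 2 × Fin b // d p = -w})) :
    ∃ (P P' : Matrix (Fin 2 × Fin b) (Fin 2 × Fin b) F) (D : Fin b → F), P * P' = 1 ∧
      P' * P = 1 ∧ (∀ j, D j = w ∨ D j = -w) ∧
      Matrix.diagonal d = P * ((1 : Matrix (Fin 2) (Fin 2) F) ⊗ₖ Matrix.diagonal D) * P' := by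
  classical
  obtain ⟨t, ht⟩ := heven
  have htb : t ≤ b := by
    have h1 : Nat.card {p : Fin 2 × Fin b // d p = -w} ≤ Nat.card (Fin 2 × Fin b) :=
      Nat.card_le_card_of_injective _ Subtype.val_injective
    rw [Nat.card_prod, Nat.card_fin, Nat.card_fin] at h1
    omega
  obtain ⟨D, hD⟩ : ∃ D : Fin b → F, D = fun j : Fin b => if (j : ℕ) < t then -w else w := ⟨_, rfl⟩
  have hDval : ∀ j, D j = w ∨ D j = -w := by
    intro j
    rw [hD]
    by_cases hj : (j : ℕ) < t
    · right
      simp [hj]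
    · left
      simp [hj]
  have hDiff : ∀ j, D j = -w ↔ (j : ℕ) < t := by
    intro j
    rw [hD]
    by_cases hj : (j : ℕ) < t
    · simp [hj]
    · simp [hj, hw]
  have hcard : Nat.card {p : Fin 2 × Fin b // d p = -w} =
      Nat.card {p : Fin 2 × Fin b // D p.2 = -w} := by
    have h1 : Nat.card {p : Fin 2 × Fin b // D p.2 = -w} = 2 * t := by
      rw [← card_snd_lt htb]
      exact Nat.card_congr (Equiv.subtypeEquivRight (fun p => hDiff p.2))
    rw [h1, ht]
    ring
  rw [Nat.card_eq_fintype_card, Nat.card_eq_fintype_card] at hcard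
  obtain ⟨e⟩ := Fintype.card_eq.1 hcard
  obtain ⟨σ, hσ⟩ : ∃ σ : Equiv.Perm (Fin 2 × Fin b), σ = e.extendSubtype := ⟨_, rfl⟩
  have hdσ : d = (fun p : Fin 2 × Fin b => D p.2) ∘ σ := by
    funext p
    show d p = D (σ p).2
    by_cases hp : d p = -w
    · have h1 : D (σ p).2 = -w := by
        rw [hσ]
        exact e.extendSubtype_mem p hp
      rw [hp, h1]
    · have h1 : ¬ D (σ p).2 = -w := by
        rw [hσ]
        exact e.extendSubtype_not_mem p hp
      rcases hd p with h2 | h2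
      · rcases hDval (σ p).2 with h3 | h3
        · rw [h2, h3]
        · exact absurd h3 h1
      · exact absurd h2 hp
  obtain ⟨P, P', hPP', hP'P, hconj⟩ :=
    diagonal_comp_perm (fun p : Fin 2 × Fin b => D p.2) σ
  refine ⟨P, P', D, hPP', hP'P, hDval, ?_⟩
  have hk : (1 : Matrix (Fin 2) (Fin 2) F) ⊗ₖ Matrix.diagonal D =
      Matrix.diagonal (fun p : Fin 2 × Fin b => D p.2) := by
    rw [← Matrix.diagonal_one, Matrix.diagonal_kronecker_diagonal]
    congr 1
    funext p
    rw [one_mul]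
  rw [hk, ← hconj, ← hdσ]

end Cfsg.Agent.Helper51.TEARR
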