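import Mathlib

/-!
# CALL S5979 piece CEN2 (helper51): a centralising element of prescribed determinant
-/

set_option autoImplicit false

namespace Cfsg.Agent.Helper51.TECEN2

open Matrix Polynomial
open scoped Kronecker

/-- in a finite field of odd order, `s ^ 2 - z * t ^ 2` takes every value (`z ≠ 0`). -/
theorem exists_norm_eq {F : Type*} [Field F] [Fintype F] (h2 : (2 : F) ≠ 0) (z : F) (hz : z ≠ 0)
    (δ : F) : ∃ s t : F, s ^ 2 - z * t ^ 2 = δ := by
  have hchar : ringChar F ≠ 2 := by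
    intro h
    apply h2
    have h3 : ((2 : ℕ) : F) = 0 := by
      rw [← h]
      exact ringChar.Nat.cast_ringChar
    exact_mod_cast h3
  have hodd : Fintype.card F % 2 = 1 := FiniteField.odd_card_of_char_ne_two hchar
  have hf : degree (C (1 : F) * X ^ 2 + C 0 * X + C 0) = 2 := degree_quadratic one_ne_zero
  have hg : degree (C (-z) * X ^ 2 + C 0 * X + C (-δ)) = 2 :=
    degree_quadratic (neg_ne_zero.2 hz)
  obtain ⟨s, t, hst⟩ := FiniteField.exists_root_sum_quadratic hf hg hodd
  refine ⟨s, t, ?_⟩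
  simp only [eval_add, eval_mul, eval_C, eval_pow, eval_X] at hst
  linear_combination hst

/-- PIECE CEN2 -/
theorem exists_comm_det_nonsquare {F : Type*} [Field F] [Fintype F] {b : ℕ} (hb : 0 < b)
    (h2 : (2 : F) ≠ 0) (z : F) (hz : ¬ IsSquare z) (δ : F) (hδ : δ ≠ 0) :
    ∃ m m' : Matrix (Fin 2 × Fin b) (Fin 2 × Fin b) F, m * m' = 1 ∧ m' * m = 1 ∧ m.det = δ ∧
      m * ((!![0, z; 1, 0] : Matrix (Fin 2) (Fin 2) F) ⊗ₖ (1 : Matrix (Fin b) (Fin b) F)) =
        ((!![0, z; 1, 0] : Matrix (Fin 2) (Fin 2) F) ⊗ₖ (1 : Matrix (Fin b) (Fin b) F)) * m := by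
  classical
  have hz0 : z ≠ 0 := by
    intro h
    apply hz
    rw [h]
    exact ⟨0, by simp⟩
  obtain ⟨s, t, hst⟩ := exists_norm_eq h2 z hz0 δ
  obtain ⟨A, hA⟩ : ∃ A : Matrix (Fin 2) (Fin 2) F, A = !![s, t * z; t, s] := ⟨_, rfl⟩
  obtain ⟨A', hA'⟩ : ∃ A' : Matrix (Fin 2) (Fin 2) F,
      A' = !![s / δ, -(t * z) / δ; -t / δ, s / δ] := ⟨_, rfl⟩
  have e1 : s * (s / δ) + t * z * (-t / δ) = 1 := by
    field_simp
    linear_combination hst
  have e2 : s * (-(t * z) / δ) + t * z * (s / δ) = 0 := by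
    field_simp
    ring
  have e3 : t * (s / δ) + s * (-t / δ) = 0 := by
    field_simp
    ring
  have e4 : t * (-(t * z) / δ) + s * (s / δ) = 1 := by
    field_simp
    linear_combination hst
  have f1 : s / δ * s + -(t * z) / δ * t = 1 := by
    field_simp
    linear_combination hst
  have f2 : s / δ * (t * z) + -(t * z) / δ * s = 0 := by
    field_simp
    ring
  have f3 : -t / δ * s + s / δ * t = 0 := by
    field_simp
    ring
  have f4 : -t / δ * (t * z) + s / δ * s = 1 := by
    field_simp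
    linear_combination hst
  have hAA' : A * A' = 1 := by
    rw [hA, hA', Matrix.mul_fin_two, e1, e2, e3, e4, Matrix.one_fin_two]
  have hA'A : A' * A = 1 := by
    rw [hA, hA', Matrix.mul_fin_two, f1, f2, f3, f4, Matrix.one_fin_two]
  have hdet : A.det = δ := by
    rw [hA, Matrix.det_fin_two_of]
    linear_combination hst
  have hcomm : A * !![0, z; 1, 0] = !![0, z; 1, 0] * A := by
    rw [hA, Matrix.mul_fin_two, Matrix.mul_fin_two]
    congr 1
    ext i j
    fin_cases i <;> fin_cases j <;> simp <;> ring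
  set j0 : Fin b := ⟨0, hb⟩ with hj0
  refine ⟨Matrix.blockDiagonal (fun j : Fin b => if j = j0 then A else 1),
    Matrix.blockDiagonal (fun j : Fin b => if j = j0 then A' else 1), ?_, ?_, ?_, ?_⟩
  · rw [← Matrix.blockDiagonal_mul, ← Matrix.blockDiagonal_one]
    congr 1
    funext k
    by_cases hk : k = j0
    · simp [hk, hAA']
    · simp [hk]
  · rw [← Matrix.blockDiagonal_mul, ← Matrix.blockDiagonal_one]
    congr 1
    funext k
    by_cases hk : k = j0
    · simp [hk, hA'A]
    · simp [hk]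
  · rw [Matrix.det_blockDiagonal]
    have h1 : ∀ k : Fin b, (if k = j0 then A else 1).det = if k = j0 then δ else 1 := by
      intro k
      by_cases hk : k = j0
      · simp [hk, hdet]
      · simp [hk]
    rw [Finset.prod_congr rfl (fun k _ => h1 k), Finset.prod_ite_eq']
    simp
  · rw [Matrix.kronecker_one, ← Matrix.blockDiagonal_mul, ← Matrix.blockDiagonal_mul]
    congr 1
    funext k
    by_cases hk : k = j0
    · simp [hk, hcomm]
    · simp [hk]

end Cfsg.Agent.Helper51.TECEN2
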