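import Mathlib

set_option autoImplicit false

/-!
# CALL S2414 piece CEN (helper51)
-/

namespace Cfsg.Agent.Helper51

open scoped commutatorElement

/-- CEN -/
theorem tg_commutator_le_of_sup_center {G : Type*} [Group G] (H : Subgroup G)
    (h : H ⊔ Subgroup.center G = ⊤) : commutator G ≤ H := by
  rw [commutator_def, Subgroup.commutator_le]
  intro g₁ _ g₂ _
  have hg₁ : g₁ ∈ ((H ⊔ Subgroup.center G : Subgroup G) : Set G) := by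
    rw [h]; exact Set.mem_univ _
  have hg₂ : g₂ ∈ ((H ⊔ Subgroup.center G : Subgroup G) : Set G) := by
    rw [h]; exact Set.mem_univ _
  rw [Subgroup.mul_normal, Set.mem_mul] at hg₁ hg₂
  obtain ⟨h1, hh1, z1, hz1, rfl⟩ := hg₁
  obtain ⟨h2, hh2, z2, hz2, rfl⟩ := hg₂
  have c1 : ∀ g : G, z1 * g = g * z1 := fun g => (Subgroup.mem_center_iff.1 hz1 g).symm
  have c2 : ∀ g : G, z2 * g = g * z2 := fun g => (Subgroup.mem_center_iff.1 hz2 g).symm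
  have e : ⁅h1 * z1, h2 * z2⁆ = ⁅h1, h2⁆ := by
    rw [commutatorElement_def, commutatorElement_def]
    calc h1 * z1 * (h2 * z2) * (h1 * z1)⁻¹ * (h2 * z2)⁻¹
        = h1 * (z1 * (h2 * z2 * z1⁻¹)) * h1⁻¹ * z2⁻¹ * h2⁻¹ := by group
      _ = h1 * ((h2 * z2 * z1⁻¹) * z1) * h1⁻¹ * z2⁻¹ * h2⁻¹ := by rw [c1 (h2 * z2 * z1⁻¹)]
      _ = h1 * h2 * (z2 * (h1⁻¹ * z2⁻¹)) * h2⁻¹ := by group
      _ = h1 * h2 * ((h1⁻¹ * z2⁻¹) * z2) * h2⁻¹ := by rw [c2 (h1⁻¹ * z2⁻¹)]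
      _ = h1 * h2 * h1⁻¹ * h2⁻¹ := by group
  rw [e]
  exact H.mul_mem (H.mul_mem (H.mul_mem hh1 hh2) (H.inv_mem hh1)) (H.inv_mem hh2)

end Cfsg.Agent.Helper51
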