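import Mathlib

set_option autoImplicit false

/-!
# CALL S2414 piece CH (helper51)
-/

namespace Cfsg.Agent.Helper51

/-- CH -/
theorem tg_char_small {K : Type*} [Field K] [Fintype K] (hK : Fintype.card K ≤ 3) :
    CharP K 2 ∨ CharP K 3 := by
  obtain ⟨n, hp, hn⟩ := FiniteField.card K (ringChar K)
  have hle : ringChar K ≤ 3 := by
    calc ringChar K = ringChar K ^ 1 := (pow_one _).symm
      _ ≤ ringChar K ^ (n : ℕ) := Nat.pow_le_pow_right hp.pos n.pos
      _ = Fintype.card K := hn.symm
      _ ≤ 3 := hK
  have h2 := hp.two_le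
  have hc : CharP K (ringChar K) := ringChar.charP K
  rcases (by omega : ringChar K = 2 ∨ ringChar K = 3) with h | h
  · left
    rw [← h]
    exact hc
  · right
    rw [← h]
    exact hc

end Cfsg.Agent.Helper51
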