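import Mathlib

set_option autoImplicit false

/-!
# CALL S2414 piece CP (helper51)
-/

namespace Cfsg.Agent.Helper51

/-- CP -/
theorem tg_coprime_card {K : Type*} [Field K] [Fintype K] (p : ℕ) [CharP K p] :
    Nat.Coprime (Fintype.card K - 1) p := by
  obtain ⟨n, hp, hn⟩ := FiniteField.card K p
  rw [Nat.coprime_comm, hp.coprime_iff_not_dvd, hn]
  intro hdvd
  have h1 : p ∣ p ^ (n : ℕ) := dvd_pow_self p n.ne_zero
  have hpos : 0 < p ^ (n : ℕ) := pow_pos hp.pos _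
  have h2 : p ∣ p ^ (n : ℕ) - (p ^ (n : ℕ) - 1) := Nat.dvd_sub h1 hdvd
  have h3 : p ^ (n : ℕ) - (p ^ (n : ℕ) - 1) = 1 := by omega
  rw [h3] at h2
  exact hp.one_lt.ne' (Nat.dvd_one.1 h2)

end Cfsg.Agent.Helper51
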