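import Mathlib

set_option autoImplicit false

/-!
# CALL S2414 piece EXT (helper51)
-/

namespace Cfsg.Agent.Helper51

/-- EXT -/
theorem tg_coprime_extract {G : Type*} [Group G] (y z : G) (hc : Commute y z) (A B : ℕ)
    (hy : y ^ A = 1) (hz : z ^ B = 1) (hAB : Nat.Coprime A B) (H : Subgroup G) (h : y * z ∈ H) :
    y ∈ H ∧ z ∈ H := by
  have h1 : y ^ B ∈ H := by
    have := H.pow_mem h B
    rwa [hc.mul_pow, hz, mul_one] at this
  have h2 : y ∈ H := by
    have hb := Nat.gcd_eq_gcd_ab A B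
    rw [hAB.gcd_eq_one] at hb
    have h3 : y = (y ^ B) ^ (Nat.gcdB A B) := by
      have h4 : (1 : ℤ) = A * Nat.gcdA A B + B * Nat.gcdB A B := by exact_mod_cast hb
      have h5 : y ^ ((A : ℤ) * Nat.gcdA A B + B * Nat.gcdB A B) = (y ^ B) ^ (Nat.gcdB A B) := by
        rw [zpow_add, zpow_mul, zpow_mul, zpow_natCast, zpow_natCast, hy, one_zpow, one_mul]
      rw [← h5, ← h4, zpow_one]
    rw [h3]
    exact H.zpow_mem h1 _
  refine ⟨h2, ?_⟩
  have h6 : z = y⁻¹ * (y * z) := by group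
  rw [h6]
  exact H.mul_mem (H.inv_mem h2) h

end Cfsg.Agent.Helper51
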